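import Cfsg.Agent.Lib.GLC.IntoK
import Cfsg.Agent.Lib.GLC.IntoF
import Cfsg.Agent.Lib.Symp.MaxUnit
import Cfsg.Agent.Lib.Cov.Sp6A

/-!
# Elements of prime order normalising an extension field
-/

set_option autoImplicit false

namespace Cfsg.Lib.Symp

open Module LinearMap Polynomial Cfsg.Lib.GLC Cfsg.Lib.Linear
open Cfsg.Lib.Orth (cS bilProd bilProd_apply)

variable {F V W : Type*} [Field F] [AddCommGroup V] [Module F V] [AddCommGroup W] [Module F W]
  {K : Type*} [Field K] [Algebra F K] [Module K V] [IsScalarTower F K V]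
  {B : LinearMap.BilinForm F V} {f g : End F V} {r i c : ℕ}

variable (K) in
/-- `g` is `K`-semilinear. -/
def SemL (g : End F V) : Prop := ∀ κ : K, ∃ κ' : K, ∀ v, g (κ • v) = κ' • g v

variable (K) in
/-- `g` is `K`-linear. -/
def LinK (g : End F V) : Prop := ∀ (κ : K) v, g (κ • v) = κ • g v

/-- Multiplication by `κ`. -/
def kmul (F V : Type*) [Field F] [AddCommGroup V] [Module F V] [Algebra F K] [Module K V]
    [IsScalarTower F K V] : K →ₐ[F] End F V := Algebra.lsmul F F V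

@[simp] theorem kmul_apply (κ : K) (v : V) : kmul F V κ v = κ • v := rfl

omit [Algebra F K] [IsScalarTower F K V] in
theorem LinK.semL (h : LinK K g) : SemL K g := fun κ => ⟨κ, h κ⟩

theorem LinK.commute (h : LinK K g) (κ : K) : Commute (kmul F V κ) g :=
  LinearMap.ext fun v => (h κ v).symm

theorem LinK.aeval (h : LinK K g) (Q : F[X]) : LinK K (aeval g Q) := fun κ v =>
  (LinearMap.congr_fun (commute_aeval (h.commute κ) Q).eq v).symm

theorem LinK.dvd_ker (h : LinK K g) : finrank F K ∣ finrank F (ker g) := by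
  let E : Submodule K V := { (ker g).toAddSubmonoid with
    smul_mem' := fun l v hv => show g (l • v) = 0 by rw [h, show g v = 0 from hv, smul_zero] }
  exact ⟨_, (finrank_mul_finrank F K E).symm⟩

theorem LinK.dvd_kd (h : LinK K g) (Q : F[X]) : finrank F K ∣ kd g Q := (h.aeval Q).dvd_ker

theorem SemL.lin_or_le [Module.Finite F V] (h : SemL K g) :
    LinK K g ∨ 2 * finrank F (ker (g - 1)) ≤ finrank F V := by
  refine or_iff_not_imp_left.2 fun h1 => ?_
  obtain ⟨κ, h1⟩ := not_forall.1 h1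
  obtain ⟨κ', h3⟩ := h κ
  have h4 : κ ≠ κ' := by rintro rfl; exact h1 h3
  have h5 : κ ≠ 0 := by rintro rfl; simp at h1
  have hE : ∀ v, v ∈ ker (g - 1) ↔ g v = v := fun v => by simp [sub_eq_zero]
  have h6 := Submodule.finrank_add_finrank_le_of_disjoint (s := ker (g - 1))
    (t := (ker (g - 1)).map (kmul F V κ)) (Submodule.disjoint_def.2 (by
      rintro _ h6 ⟨v, hv, rfl⟩
      have := (hE _).1 h6
      rw [kmul_apply, h3, (hE v).1 hv] at this
      by_contra h7
      exact h4 (smul_left_injective K (by rintro rfl; simp at h7) this).symm))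
  rw [← (Submodule.equivMapOfInjective _ (smul_right_injective _ h5) _).finrank_eq] at h6
  omega

theorem SemL.lin_of_coprime [Finite K] [Nontrivial V] (h : SemL K g) (hg : Function.Surjective g)
    {z : F} (h1 : g ^ r = z • 1) (hz : z ≠ 0) (hc : r.Coprime (finrank F K)) : LinK K g := by
  choose τ hτ using h
  obtain ⟨w, hw⟩ := exists_ne (0 : V)
  obtain ⟨v, rfl⟩ := hg w
  have key : ∀ a b : K, a • g v = b • g v → a = b := fun a b h => smul_left_injective K hw h
  let τ' : K →ₐ[F] K :=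
    { toFun := τ
      map_one' := key _ _ (by rw [← hτ, one_smul, one_smul])
      map_mul' := fun a b => key _ _ (by rw [← hτ, mul_smul, hτ, hτ, mul_smul])
      map_zero' := key _ _ (by rw [← hτ, zero_smul, zero_smul, map_zero])
      map_add' := fun a b => key _ _ (by rw [← hτ, add_smul, add_smul, map_add, hτ, hτ])
      commutes' := fun a => key _ _ (by rw [← hτ, algebraMap_smul, algebraMap_smul, map_smul]) }
  haveI : Finite F := .of_injective _ (algebraMap F K).injective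
  let σ : K ≃ₐ[F] K := .ofBijective τ' τ'.injective.bijective_of_finite
  have h2 : ∀ n κ v, (g ^ n) (κ • v) = (σ ^ n) κ • (g ^ n) v := fun n => by
    induction n with
    | zero => simp
    | succ n ih => intro κ v; rw [pow_succ', pow_succ', End.mul_apply, ih, hτ]; rfl
  have h3 : σ ^ r = 1 := AlgEquiv.ext fun κ => key _ _ (by
    have := h2 r κ (g v)
    rw [h1] at this
    exact (smul_right_injective V hz (by simpa [smul_comm z] using this)).symm)
  have h4 : σ = 1 := orderOf_eq_one_iff.1 (Nat.eq_one_of_dvd_coprimes hc (orderOf_dvd_of_pow_eq_one h3)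
    (IsGalois.card_aut_eq_finrank F K ▸ orderOf_dvd_natCard σ))
  intro κ v
  rw [hτ]
  exact congrArg (· • g v) (AlgEquiv.congr_fun h4 κ)

theorem aeval_pow_card_pow [Finite F] {A : Type*} [Ring A] [Algebra F A] (a : A) (R : F[X]) (m : ℕ) :
    aeval (a ^ Nat.card F ^ m) R = aeval a R ^ Nat.card F ^ m := by
  cases nonempty_fintype F
  rw [Nat.card_eq_fintype_card]
  induction m generalizing a with
  | zero => simp
  | succ m ih => rw [pow_succ', pow_mul, ih, ← expand_aeval, FiniteField.expand_card, map_pow, ← pow_mul]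

theorem adj_frob [Finite F] (hi : ∀ u v, B (g u) (g v) = B u v) {m : ℕ}
    (hm : g ^ (Nat.card F ^ m + 1) = 1) (R : F[X]) (x y : V) :
    B (aeval g R x) y = B x ((aeval g R ^ Nat.card F ^ m) y) := by
  have h7 : ∀ n u v, B ((g ^ n) u) v = B u (((g ^ Nat.card F ^ m) ^ n) v) := fun n => by
    induction n with
    | zero => simp
    | succ n ih =>
      intro u v
      rw [pow_succ, End.mul_apply, ih, ← hi u, ← End.mul_apply g, pow_succ', ← mul_assoc, ← pow_succ', hm,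
        one_mul]
  rw [← aeval_pow_card_pow]
  induction R using Polynomial.induction_on' with
  | add p q hp hq => simp [hp, hq]
  | monomial n a => simp [aeval_monomial, h7, Algebra.algebraMap_eq_smul_one]

theorem LinK.exists_aeval [Module.Finite F V] (h : LinK K g) {φ : F[X]} (h1 : φ.Monic)
    (h2 : Irreducible φ) (h3 : kd g φ = φ.natDegree) (κ : K) :
    ∃ R : F[X], ∀ x, Polynomial.aeval g φ x = 0 → Polynomial.aeval g R x = κ • x := by
  have hX := apply_mem_ker_aeval g φ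
  have hκ : ∀ x ∈ ker (Polynomial.aeval g φ), kmul F V κ x ∈ ker (Polynomial.aeval g φ) := fun x hx => by
    rw [mem_ker, kmul_apply, h.aeval φ, show Polynomial.aeval g φ x = 0 from hx, smul_zero]
  haveI : Nontrivial (ker (Polynomial.aeval g φ)) := nontrivial_of_finrank_pos (R := F)
    (h3 ▸ h2.natDegree_pos : 0 < kd g φ)
  have h4 : Blocks (g.restrict hX) {φ ^ (0 + 1)} := Cov.blocks_of_pow h1 h2
    (LinearMap.ext fun x => Subtype.ext (by simpa [aeval_restrict_apply] using x.2)) (by simp)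
    (by rw [zero_add, one_mul]; exact h3.symm)
  obtain ⟨R, hR⟩ := h4.exists_aeval_of_commute (a := (kmul F V κ).restrict hκ)
    (LinearMap.ext fun x => Subtype.ext (h κ x).symm)
  exact ⟨R, fun x hx => by
    simpa [aeval_restrict_apply] using congrArg Subtype.val (LinearMap.congr_fun hR ⟨x, hx⟩)⟩

theorem OP.exists_kd [Finite F] [Module.Finite F V] (h : OP F r i c) {ν : Multiset F[X]}
    (h1 : ∀ φ ∈ ν, RF r φ) (h2 : ν.map rdual = ν) (h3 : ν.card * i = c) {k : ℕ}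
    (h4 : typ f = .replicate k (X - C 1) + ν) : ∃ φ, RF r φ ∧ φ.natDegree = i ∧ kd f φ = i := by
  have h5 : ∀ φ ∈ ν, φ.natDegree = i := fun φ hφ => h.hi ▸ (h1 φ hφ).natDegree_eq h.prime
  have h6 : ∀ φ ψ : F[X], RF r φ → ψ.Monic → Irreducible ψ → ψ ≠ φ → kd (cyc ψ) φ = 0 := fun φ ψ a₁ a₂ a₃ a₄ =>
    kd_cyc_of_isCoprime (Monic.ne_zero a₂) (isCoprime_of_ne a₂ a₃ a₁.1 a₁.2.1 a₄)
  have h7 : ∀ φ ∈ ν, kd f φ = (ν.map fun P => kd (cyc P) φ).sum := fun φ hφ => by
    rw [(h4 ▸ blocks_typ f : Blocks f (.replicate k (X - C 1) + ν)).kd_eq]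
    simp [h6 φ _ (h1 φ hφ) (monic_X_sub_C 1) (irreducible_X_sub_C 1) (h1 φ hφ).2.2.2.symm, -map_one]
  have h0 := h.i_pos
  rcases i.even_or_odd with he | ho
  · obtain ⟨φ, rfl⟩ := Multiset.card_eq_one.1 (Nat.eq_of_mul_eq_mul_right h0
      (by rw [h3, h.hc, if_pos he, one_mul]))
    have := h1 φ (by simp)
    exact ⟨φ, this, h5 φ (by simp), by
      simp [h7 φ (by simp), kd_cyc_of_dvd this.1.ne_zero dvd_rfl, h5 φ (by simp)]⟩
  obtain ⟨τ, rfl⟩ := h.exists_eq_add_map ho h1 h2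
  obtain ⟨φ, rfl⟩ := Multiset.card_eq_one.1 (show τ.card = 1 by
    rw [h.hc, if_neg (Nat.not_even_iff_odd.2 ho)] at h3; simp at h3; omega)
  have := h1 φ (by simp)
  have h8 := this.dual h.prime.ne_zero
  exact ⟨φ, this, h5 φ (by simp), by
    simp [h7 φ (by simp), kd_cyc_of_dvd this.1.ne_zero dvd_rfl, h5 φ (by simp), h6 φ _ this h8.1 h8.2.1
      (mt (h.rdual_eq_iff this).1 (Nat.not_even_iff_odd.2 ho))]⟩

theorem OP.dvd_half [Finite F] (h : OP F r i c) {m : ℕ} (hm : i = 2 * m) : r ∣ Nat.card F ^ m + 1 := by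
  have h1 := h.pow_half (N := 1) (d := m) (by rw [h.hc, if_pos ⟨m, by omega⟩, hm, mul_one])
  rw [← ZMod.natCast_eq_zero_iff]
  rw [mul_one, Odd.neg_one_pow ⟨m, by omega⟩] at h1
  simp [h1]

/-- The key obstruction: `K`-scalars on a self-dual constituent of multiplicity one. -/
theorem OP.exists_adj [Finite F] [Module.Finite F V] (h : OP F r i c) (hl : LinK K g)
    (hi : ∀ u v, B (g u) (g v) = B u v) (hB : ∀ v, (∀ u, B u v = 0) → v = 0) (h1 : g ^ r = 1)
    {φ : F[X]} (h2 : RF r φ) (h3 : φ.natDegree = i) (h4 : kd g φ = i) {m : ℕ} (hm : i = 2 * m)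
    {κ κ' : K} (h5 : ∀ x y, B x (κ • y) = B (κ' • x) y) : κ = κ' ^ Nat.card F ^ m := by
  obtain ⟨t, ht⟩ := h.dvd_half hm
  have h6 := adj_frob hi (m := m) (by rw [ht, pow_mul, h1, one_pow])
  obtain ⟨R, hR⟩ := hl.exists_aeval h2.1 h2.2.1 (h4.trans h3.symm) κ'
  haveI : Nontrivial (ker (aeval g φ)) := nontrivial_of_finrank_pos (R := F)
    (h4 ▸ h.i_pos : 0 < kd g φ)
  obtain ⟨⟨y, hy⟩, hy0⟩ := exists_ne (0 : ker (aeval g φ))
  replace hy : aeval g φ y = 0 := hy
  have h7 : ∀ n, (aeval g R ^ n) y = κ' ^ n • y := fun n => by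
    induction n with
    | zero => simp
    | succ n ih => rw [pow_succ', End.mul_apply, ih, hl.aeval, hR y hy, smul_smul, pow_succ]
  obtain ⟨ψ, hψ⟩ := h2.2.2.1
  obtain ⟨a, b, hab⟩ := (hψ ▸ (X_pow_sub_one_separable_iff.2 h.ne : (X ^ r - 1 : F[X]).Separable)).isCoprime
  refine smul_left_injective K (show y ≠ 0 from fun e => hy0 (Subtype.ext e)) (sub_eq_zero.1 (hB _ fun x => ?_))
  have h8 : x = aeval g φ (aeval g a x) + aeval g b (aeval g ψ x) := by
    simpa [mul_comm a] using (congrArg (aeval g · x) hab).symm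
  have h9 : aeval g φ (aeval g b (aeval g ψ x)) = 0 := by
    rw [← End.mul_apply, ← End.mul_apply, ← map_mul, ← map_mul, mul_comm φ, mul_assoc, ← hψ]
    simp [h1]
  obtain ⟨n, hn⟩ : ∃ n, Nat.card F ^ m = n + 1 := ⟨_, (Nat.sub_add_cancel (pow_pos Nat.card_pos m)).symm⟩
  rw [h8, map_add, LinearMap.add_apply, h6, ← sub_smul, hn, pow_succ, End.mul_apply, hl.aeval, hy,
    smul_zero, map_zero, map_zero, sub_smul, map_sub, h5, ← hR _ h9, h6, h7, hn]
  simp

variable (K) in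
/-- Every element of order `r` modulo scalars is conjugate to a `K`-semilinear isometry. -/
def ElK (B : LinearMap.BilinForm F V) (r : ℕ) : Prop := ∀ f, SpE B f → (∃ z : F, f ^ r = z • 1) →
  (¬ ∃ z : F, f = z • 1) → ∃ g : End F V, SemL K g ∧ ISim B g B f

section
open Matrix
variable {d : ℕ} [Module K (Fin d ⊕ Fin d → F)] [IsScalarTower F K (Fin d ⊕ Fin d → F)]

theorem fmt_spK [Finite K] : (∀ x ∈ spGL d F, (∃ z : F, (x ^ r).1 = z • 1) → (∀ z : F, x.1 ≠ z • 1) →
    ∃ g ∈ spGL d F, g⁻¹ * x * g ∈ semiGL K) ↔ ElK K (bil (Fin d) F) r := by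
  rw [fmt_sp]
  refine forall₄_congr fun f hf _ _ => ⟨fun ⟨h, h1, h2⟩ => ⟨toLin' h.1, h1.1, h2⟩, fun ⟨g, h1, h2⟩ => ?_⟩
  obtain ⟨x, hx⟩ : IsUnit (LinearMap.toMatrix' g) := (h2.spE hf).isUnit.map toMatrixAlgEquiv'
  obtain rfl : toLin' x.1 = g := by simp [hx]
  exact ⟨x, mem_semiGL_of_forall h1, h2⟩

theorem mul_card_dvd_cS [Finite F] (h : r ∣ (semiGL K).relIndex (spGL d F))
    {L : Subgroup ((Fin d ⊕ Fin d → F) ≃ₗ[F] (Fin d ⊕ Fin d → F))}
    (hL : ∀ a ∈ L, a ∈ isom (bil (Fin d) F) ∧ LinK K a.toLinearMap) : r * Nat.card L ∣ cS F d := by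
  have := mul_card_dvd (K := L.comap (Orth.glEquiv _ F).toMonoidHom) h
    (fun x hx => mem_semiGL_of_linear (hL _ hx).2)
    fun x hx => mem_spGL.2 ⟨bil_isAlt _ F, bil_nondegenerate _ F, (hL _ hx).1⟩
  rwa [card_comap_glEquiv, card_spGL] at this

end

variable [Module.Finite F V]

theorem Occ.exists_spE {μ : Multiset F[X]} (h : Occ μ) (hA : B.IsAlt) (hB : B.Nondegenerate)
    (hV : (μ.map natDegree).sum = finrank F V) : ∃ f, SpE B f ∧ Blocks f μ := by
  obtain ⟨m, a, ha⟩ := h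
  obtain ⟨e, he⟩ := exists_isometry_of_finrank_eq (bil_isAlt (Fin m) F) (bil_nondegenerate _ F) hA hB
    (by rw [ha.finrank_eq, hV])
  have H : ISim _ (Matrix.toLin' a.1) B (e.conjAlgEquiv F (Matrix.toLin' a.1)) := ⟨e, he, by simp⟩
  exact ⟨_, H.symm.spE (spE_sp a), H.sim.symm.blocks ha⟩

theorem ElK.not_char [hr : Fact r.Prime] (h : ElK K B r) (hA : B.IsAlt) (hB : B.Nondegenerate)
    (h0 : (r : F) = 0) (h3 : 3 ≤ finrank F V) (hK : finrank F K ≠ 1) : False := by
  obtain ⟨d, hd⟩ := even_finrank hA hB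
  obtain ⟨d, rfl⟩ : ∃ e, d = e + 1 := ⟨d - 1, by omega⟩
  have h1 : ∀ a ∈ 2 ::ₘ Multiset.replicate (2 * d) 1, 0 < a := by simp [Multiset.mem_replicate]
  obtain ⟨f, h2, h4⟩ := ((occ_iff (jt_pp (1 : F) h1)).2 ⟨spT_jt_one.2 fun k hk => by
    rw [Multiset.count_cons_of_ne (by rintro rfl; revert hk; decide), Multiset.count_replicate]
    split_ifs <;> simp, fun P hP => by
      obtain ⟨a, -, rfl⟩ := Multiset.mem_map.1 hP
      simp [coeff_zero_eq_eval_zero]⟩).exists_spE hA hB (by simp [jt_map_natDegree]; omega)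
  have h5 := h4.jt_finrank_ker_one h1
  haveI : CharP F r := (CharP.charP_iff_prime_eq_zero hr.out).2 h0
  obtain ⟨g, h6, h7⟩ := h f h2 ⟨1, by
    have := (pow_char_pow_eq_one_iff (f := f) r 1).2 (by
      rw [← one_smul F (1 : End F V), h4.jt_pow_eq_zero_iff]
      simp [Multiset.mem_replicate, hr.out.two_le, hr.out.one_le])
    simpa using this⟩ fun ⟨z, hz⟩ => by
      have := h4.natDegree_eq_one hz (P := (X - C 1) ^ 2) (by simp [jt])
      rw [natDegree_pow, natDegree_X_sub_C] at this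
      omega
  rw [one_smul, ← h7.sim.sub_one.finrank_ker] at h5
  refine h6.lin_or_le.elim (fun h8 => hK ?_) (by simp at h5; omega)
  have h9 : _ ∣ finrank F _ := h8.dvd_kd (X - 1)
  have h10 : _ ∣ finrank F _ := h8.dvd_kd 0
  rw [map_sub, aeval_X, map_one, h5] at h9
  rw [map_zero, ker_zero, finrank_top, hd] at h10
  simpa [show d + 1 + (d + 1) - (2 * d + 1) = 1 by omega] using Nat.dvd_sub h10 h9

theorem ElK.exists_kd [Finite F] (h : ElK K B r) (hA : B.IsAlt) (hB : B.Nondegenerate) (ho : OP F r i c)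
    (hc : c ≤ finrank F V) : ∃ g φ, SemL K g ∧ SpE B g ∧ g ^ r = 1 ∧ RF r φ ∧ φ.natDegree = i ∧
      kd g φ = i ∧ finrank F (ker (g - 1)) + c = finrank F V := by
  obtain ⟨f, k, ν, h5, -, h7, h8, h9, h10, h11, h12⟩ := ho.exists_spE hA hB one_ne_zero (by omega)
  have h13 := pow_eq_one_RF h7 (h10 ▸ blocks_typ f)
  obtain ⟨g, h1, h2⟩ := h f h5 ⟨1, by rw [h13, one_smul]⟩
    (mt (eq_smul_iff_RF ho.odd h7 h8 (h10 ▸ blocks_typ _)).1 h9)
  obtain ⟨φ, h3, h4, h6⟩ := ho.exists_kd h7 h8 (by rw [← ho.sum_eq h7, h12, mul_one]) h10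
  exact ⟨g, φ, h1, h2.spE h5, (h2.sim.pow r).eq_one_iff.2 h13, h3, h4, (h2.sim.kd_eq φ).trans h6, by
    rw [h2.sim.sub_one.finrank_ker, finrank_ker_of_typ h7 h10]; omega⟩

theorem SpE.charpoly_of_sq (hf : SpE B f) (h2 : (2 : F) ≠ 0) (h : f ^ 2 = (-1 : F) • 1) :
    ∃ d, f.charpoly = (X ^ 2 - C (-1)) ^ d := by
  obtain ⟨-, ⟨ν, h1, h3⟩ | ⟨-, -, d, h1⟩⟩ := hf.typ_of_sq h2 h
  · refine ⟨ν.card, ?_⟩
    rw [(blocks_typ f).charpoly_eq, h1, Multiset.prod_add]
    conv_lhs => rw [← ν.map_id, Multiset.map_map, ← Multiset.prod_map_mul]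
    rw [Multiset.map_congr rfl (g := fun _ => X ^ 2 - C (-1)) fun P hP => ?_]
    · simp
    have h4 : P ∈ typ f := h1 ▸ Multiset.mem_add.2 (.inl hP)
    have h5 := (blocks_typ f).pow_eq_smul_one_iff.1 h P h4
    obtain ⟨a, rfl⟩ : ∃ a, P = X - C a := ⟨-P.coeff 0, by
      simpa using (typ_pp f P h4).monic.eq_X_add_C (h3 P hP)⟩
    have h6 : a * a = -1 := by simpa [dvd_iff_isRoot, pow_two, add_eq_zero_iff_eq_neg] using h5
    have h7 : a ≠ 0 := by rintro rfl; simp at h6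
    have h8 : a⁻¹ = -a := inv_eq_of_mul_eq_one_right (by linear_combination -h6)
    simp only [_root_.id, Function.comp, Unitary.dual_X_sub_C h7, RingHom.id_apply, h8, ← h6, map_neg, map_mul]
    ring
  · exact ⟨d, by simp [(blocks_typ f).charpoly_eq, h1]⟩

theorem isim_of_sq [Finite F] [Module.Finite F W] {C : LinearMap.BilinForm F W} {g : End F W}
    (hf : SpE B f) (hg : SpE C g) (h2 : (2 : F) ≠ 0) (h : f ^ 2 = (-1 : F) • 1)
    (h' : g ^ 2 = (-1 : F) • 1) (hV : finrank F V = finrank F W) : ISim B f C g := by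
  obtain ⟨a, ha⟩ := hf.charpoly_of_sq h2 h
  obtain ⟨b, hb⟩ := hg.charpoly_of_sq h2 h'
  have h1 := f.charpoly_natDegree
  have h3 := g.charpoly_natDegree
  rw [ha, natDegree_pow, natDegree_X_pow_sub_C] at h1
  rw [hb, natDegree_pow, natDegree_X_pow_sub_C] at h3
  exact isim_of_sim hf hg (sim_of_charpoly_eq (hf.typ_of_sq h2 h).1 (hg.typ_of_sq h2 h').1
    (by rw [ha, hb, show a = b by omega])) (hf.typ_of_sq h2 h).1

/-- An isometry annihilated by `X² + aX + 1`. -/
def Qd (B : LinearMap.BilinForm F V) (a : F) (u : End F V) : Prop :=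
  SpE B u ∧ ∀ v, u (u v) + a • u v + v = 0

variable {a : F} {u : End F V} {C : LinearMap.BilinForm F W}

omit [Module.Finite F V] in
theorem Qd.conj (h : Qd B a u) (e : V ≃ₗ[F] W) (he : ∀ x y, C (e x) (e y) = B x y) :
    Qd C a (e.conj u) :=
  ⟨ISim.spE (ISim.symm ⟨e, he, by simp⟩) h.1, fun v => by simpa using congrArg e (h.2 (e.symm v))⟩

theorem Qd.isim [Finite F] [Module.Finite F W] (ha : ∀ x : F, x ^ 2 + a * x + 1 ≠ 0) (h : Qd B a u)
    {u' : End F W} (h' : Qd C a u') (hV : finrank F V = finrank F W) : ISim B u C u' := by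
  set φ : F[X] := X ^ 2 + Polynomial.C a * X + 1
  have hd : φ.natDegree = 2 := by simp only [φ]; compute_degree!
  have h1 : φ.Monic := by simp only [φ]; monicity!
  have h2 : Irreducible φ := irreducible_of_degree_le_three_of_not_isRoot (by simp [hd])
    fun x hx => ha x (by simpa [φ] using hx)
  obtain ⟨h3, h4⟩ := Cov.sim_of_aeval h1 h2 (f := u) (g := u')
    (LinearMap.ext fun v => by simpa [φ, pow_two] using h.2 v)
    (LinearMap.ext fun v => by simpa [φ, pow_two] using h'.2 v) hV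
  exact isim_of_sim h.1 h'.1 h3 h4

open Matrix in
theorem exists_qd_J [Finite F] (h2 : (2 : F) ≠ 0) (a : F) (d : ℕ) : ∃ u, Qd (bil (Fin d) F) a u ∧
    ∀ v, toLin' (J (Fin d) F) (u v) = -(a • toLin' (J (Fin d) F) v) - u (toLin' (J (Fin d) F) v) := by
  obtain ⟨t, b, h⟩ := exists_sq_add_sq (one_ne_zero (α := F)) one_ne_zero (1 - (a / 2) ^ 2)
  obtain ⟨s, rfl⟩ : ∃ s, a = 2 * s := ⟨a / 2, by field_simp⟩
  rw [mul_div_cancel_left₀ _ h2] at h
  let M : Matrix (Fin d ⊕ Fin d) (Fin d ⊕ Fin d) F :=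
    fromBlocks ((t - s) • 1) (b • 1) (b • 1) ((-t - s) • 1)
  have h1 : M ∈ symplecticGroup (Fin d) F := by
    simp only [SymplecticGroup.mem_iff, J, M, fromBlocks_multiply, fromBlocks_transpose, fromBlocks_inj]
    simp only [transpose_smul, transpose_one, Matrix.mul_zero, Matrix.mul_one, Matrix.mul_neg, zero_add,
      add_zero, Matrix.mul_smul, Matrix.neg_mul, smul_smul, smul_neg]
    refine ⟨?_, ?_, ?_, ?_⟩ <;> match_scalars <;> first | ring1 | linear_combination h | linear_combination -h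
  refine ⟨toLin' M, ⟨spE_sp ⟨M, h1⟩, fun v => funext ?_⟩, fun v => funext ?_⟩ <;> rintro (i | i) <;>
    simp [M, J, fromBlocks_mulVec, smul_mulVec, neg_mulVec] <;>
    first | ring1 | linear_combination (v (.inl i)) * h | linear_combination (v (.inr i)) * h

theorem exists_qd [Finite F] (h2 : (2 : F) ≠ 0) (a : F) (hA : B.IsAlt) (hB : B.Nondegenerate) :
    ∃ u, Qd B a u := by
  obtain ⟨d, hd⟩ := even_finrank hA hB
  obtain ⟨e, he⟩ := exists_isometry_of_finrank_eq (bil_isAlt (Fin d) F) (bil_nondegenerate _ F) hA hB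
    (by simp [hd])
  obtain ⟨u, hu, -⟩ := exists_qd_J h2 a d
  exact ⟨_, hu.conj e he⟩

theorem SpE.osplit_sq (hf : SpE B f) (h2 : (2 : F) ≠ 0) (h : f ^ 2 = (1 : F) • 1) :
    ∃ X Y, OSplit B f X Y ∧ (∀ x ∈ X, f x = x) ∧ ∀ y ∈ Y, f y = -y := by
  refine ⟨_, _, hf.osplit_ker (Q := X - Polynomial.C 1) (R := X - Polynomial.C (-1))
    (isCoprime_X_sub_C_of_isUnit_sub (by simpa [one_add_one_eq_two] using h2)) ?_ (by simp)
    (rdual_X_sub_C (by simp)), fun x hx => by simpa [sub_eq_zero] using hx,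
    fun x hx => by simpa [add_eq_zero_iff_eq_neg] using hx⟩
  rw [show (X - Polynomial.C 1) * (X - Polynomial.C (-1)) = (X ^ 2 - 1 : F[X]) by simp; ring]
  simp [h]

theorem SpE.exists_qd' [Finite F] [Nontrivial V] (hf : SpE B f) (h2 : (2 : F) ≠ 0) {z : F}
    (h : f ^ 2 = z • 1) (a : F) : ∃ u, Qd B a u ∧
      ((∀ v, f (u v) = u (f v)) ∨ ∀ v, f (u v) = -(a • f v) - u (f v)) := by
  rcases mul_self_eq_one_iff.1 (h ▸ hf.pow 2).mul_self with rfl | rfl
  · obtain ⟨X, Y, S, h3, h4⟩ := hf.osplit_sq h2 h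
    obtain ⟨u, hu⟩ := exists_qd h2 a (S.spE_left hf).alt (S.spE_left hf).nd
    obtain ⟨w, hw⟩ := exists_qd h2 a (S.spE_right hf).alt (S.spE_right hf).nd
    obtain ⟨e, h5, h6⟩ := S.isim hf.alt
    have h7 : Qd _ a (u.prodMap w) := ⟨hu.1.prodMap hw.1, fun v => Prod.ext (hu.2 v.1) (hw.2 v.2)⟩
    have h8 : f.restrict S.invL = 1 := LinearMap.ext fun x => Subtype.ext (h3 x x.2)
    have h9 : f.restrict S.invR = -1 := LinearMap.ext fun x => Subtype.ext (h4 x x.2)
    refine ⟨_, h7.conj e h5, .inl fun v => ?_⟩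
    obtain ⟨v, rfl⟩ := e.surjective v
    simp [← h6, h8, h9]
  obtain ⟨d, hd⟩ := hf.even_finrank
  obtain ⟨u, hu, h3⟩ := exists_qd_J h2 a d
  obtain ⟨e, h5, h6⟩ := isim_of_sq (spE_sp ⟨_, SymplecticGroup.J_mem (Fin d) F⟩) hf h2 (by
    rw [← Matrix.toLin'_pow, toLin'_eq_smul_one_iff, pow_two, Matrix.J_squared, neg_one_smul]) h
    (by simp [hd])
  refine ⟨_, hu.conj e h5, .inr fun v => ?_⟩
  obtain ⟨v, rfl⟩ := e.surjective v
  simpa [← h6] using congrArg e (h3 v)

theorem cS_eq_guOrder (d : ℕ) [Finite F] : cS F d = Unitary.guOrder (Nat.card F) d *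
    (Nat.card F ^ (d * (d + 1) / 2) * ∏ j ∈ .range d,
      if Even j then Nat.card F ^ (j + 1) - 1 else Nat.card F ^ (j + 1) + 1) := by
  rw [cS, Unitary.guOrder_def, mul_mul_mul_comm, ← pow_add, ← Finset.prod_mul_distrib]
  congr 1
  · congr 1
    obtain ⟨a, ha⟩ := Nat.even_mul_succ_self d
    obtain ⟨b, hb⟩ := Nat.even_mul_pred_self d
    rcases d with _ | d
    · simp
    simp only [add_tsub_cancel_right] at *
    rw [ha, hb]
    have : (d + 1) ^ 2 = a + b := by nlinarith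
    omega
  refine Finset.prod_congr rfl fun j _ => ?_
  rw [pow_mul', ← one_pow 2, Nat.sq_sub_sq]
  split_ifs <;> simp [mul_comm]

theorem OP.odd_or_four [Finite F] (h : OP F r i c) {d : ℕ}
    (hd : r * Unitary.guOrder (Nat.card F) d ∣ cS F d) : Odd i ∨ 4 ∣ i := by
  have h0 := cS_pos (F := F) d
  rw [cS_eq_guOrder] at hd h0
  obtain ⟨j, -, h3⟩ := (h.prime.prime.dvd_finsetProd_iff _).1 ((h.prime.dvd_mul.1
    (Nat.dvd_of_mul_dvd_mul_left (Nat.pos_of_mul_pos_right h0) (mul_comm r _ ▸ hd))).resolve_left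
    fun h1 => h.not_dvd_card (h.prime.dvd_of_dvd_pow h1))
  split_ifs at h3 with h4
  · rw [dvd_pow_sub_one_iff Nat.card_pos, ← h.hi] at h3
    exact .inl (h4.add_one.of_dvd_nat h3)
  have h5 : i ∣ 2 * (j + 1) := h.dvd_iff.1 (h.dvd_pow_iff.1 (by
    rw [pow_mul', ← one_pow 2, Nat.sq_sub_sq]; exact h3.mul_right _))
  have h6 : ¬ i ∣ j + 1 := fun h6 => by
    rw [h.hi, ← dvd_pow_sub_one_iff Nat.card_pos] at h6
    have h5 := Nat.dvd_sub h3 h6
    have : 0 < Nat.card F ^ (j + 1) := pow_pos Nat.card_pos _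
    rw [show _ - _ = 2 by omega, Nat.prime_dvd_prime_iff_eq h.prime Nat.prime_two] at h5
    exact absurd h.odd (by simp [h5])
  obtain ⟨t, ht⟩ := h5
  obtain ⟨s, rfl | rfl⟩ := t.even_or_odd'
  · exact absurd ⟨s, by linarith⟩ h6
  obtain ⟨l, rfl⟩ := Nat.not_even_iff_odd.1 h4
  exact .inr ((Nat.coprime_comm.1 (Nat.Coprime.pow_right 2 (by simp : (2 * s + 1).Coprime 2))).dvd_of_dvd_mul_right
    ⟨l + 1, by linarith⟩)

theorem elK_unit [Finite F] [Finite K] [hr : Fact r.Prime] (hA : B.IsAlt) (hB : B.Nondegenerate)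
    (h2 : (2 : F) ≠ 0) (hK : finrank F K = 2) {d : ℕ} (hV : finrank F V = 2 * d) (hd : 2 ≤ d) {ω : K}
    (ha : ∀ x : F, x ^ 2 + a * x + 1 ≠ 0) (hω : Qd B a (kmul F V ω))
    (hs : ∀ κ : K, ∃ s t : F, ∀ v : V, κ • v = s • v + t • ω • v)
    (h : r * Nat.card (cI B (kmul F V ω)) ∣ cS F d) : ElK K B r ↔ r = 2 := by
  haveI : Nontrivial V := nontrivial_of_finrank_pos (R := F) (by omega)
  refine ⟨fun h1 => by_contra fun h3 => ?_, ?_⟩
  · by_cases h0 : (r : F) = 0
    · exact h1.not_char hA hB h0 (by omega) (by omega)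
    have ho : OP F r _ _ := ⟨hr.out, hr.out.odd_of_ne_two h3, h0, rfl, rfl⟩
    rw [hω.1.card_cI_quadratic ha hω.2 hV] at h
    obtain ⟨g, φ, h4, h5, h6, h7, h8, h9, -⟩ := h1.exists_kd hA hB ho
      (hV ▸ ho.le_of_dvd_cS ((dvd_mul_right _ _).trans h))
    have h10 := h4.lin_of_coprime ((End.isUnit_iff _).1 h5.isUnit).2 (z := 1) (by rw [h6, one_smul])
      one_ne_zero (hK ▸ ho.odd.coprime_two_right)
    rcases ho.odd_or_four h with h11 | ⟨m, hm⟩
    · exact h11.not_two_dvd_nat (hK ▸ h9 ▸ h10.dvd_kd φ)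
    have h12 : ω ≠ 0 := by
      rintro rfl
      obtain ⟨v, hv⟩ := exists_ne (0 : V)
      exact hv (by simpa using hω.2 v)
    have h13 := ho.exists_adj h10 h5.inv hB.2 h6 h7 h8 h9 (m := 2 * m) (by omega) (κ := ω) (κ' := ω⁻¹)
      fun x y => by simpa [smul_smul, h12] using hω.1.inv (ω⁻¹ • x) y
    cases nonempty_fintype K
    rw [pow_mul, ← hK, ← Module.natCard_eq_pow_finrank, Nat.card_eq_fintype_card,
      FiniteField.pow_card_pow] at h13
    obtain ⟨v, hv⟩ := exists_ne (0 : V)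
    rcases mul_self_eq_one_iff.1 ((mul_eq_one_iff_eq_inv₀ h12).2 h13) with rfl | rfl
    · exact hv ((smul_eq_zero.1 (by simpa [add_smul] using hω.2 v)).resolve_left (ha 1))
    · exact hv ((smul_eq_zero.1 (by simpa [add_smul] using hω.2 v)).resolve_left (ha (-1)))
  rintro rfl f hf ⟨z, hz⟩ -
  obtain ⟨u, h3, h4⟩ := hf.exists_qd' h2 hz a
  obtain ⟨e, h5, h6⟩ := hω.isim ha h3 rfl
  simp only [kmul_apply] at h6
  refine ⟨e.symm.conj f, fun κ => ?_, e, h5, by simp⟩
  obtain ⟨s, t, h7⟩ := hs κ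
  rcases h4 with h4 | h4
  · exact ⟨κ, fun v => e.injective (by simp [h7, h6, h4])⟩
  · exact ⟨algebraMap F K (s - t * a) - t • ω, fun v => e.injective (by
      simp [h7 v, h6, h4, sub_smul, mul_smul, smul_sub]; abel)⟩

omit [Module K V] [IsScalarTower F K V] in
theorem UAlt.elK [Finite F] [Finite K] [Fact r.Prime] {d : ℕ} [Module K (Fin d ⊕ Fin d → F)]
    [IsScalarTower F K (Fin d ⊕ Fin d → F)] {j : K} {e : F} (hj : UAlt (sympForm d F) j e) (hd : 2 ≤ d)
    (hΩ : r ∣ (semiGL K).relIndex (spGL d F)) : ElK K (bil (Fin d) F) r ↔ r = 2 := by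
  have h2 := hj.two
  have h1 : (1 : K) - j ≠ 0 := by simpa using hj.one_sub_ne 1
  have h3 : (1 : K) + j ≠ 0 := by simpa using hj.one_sub_ne (-1)
  have h4 : algebraMap F K (1 - e) = (1 - j) * (1 + j) := by rw [map_sub, ← hj.sq, map_one]; ring
  have h5 : 1 - e ≠ 0 := fun h => mul_ne_zero h1 h3 (by rw [← h4, h, map_zero])
  have h6 : (1 + j) / (1 - j) = algebraMap F K ((1 + e) / (1 - e)) + algebraMap F K (2 / (1 - e)) * j := by
    rw [map_div₀, map_div₀, h4, map_add, ← hj.sq, map_one, map_ofNat]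
    field_simp
    ring
  have h7 : Qd (bil (Fin d) F) (-(2 * (1 + e) / (1 - e))) (kmul F _ ((1 + j) / (1 - j))) :=
    ⟨⟨bil_isAlt _ F, bil_nondegenerate _ F, fun x y => by
      simpa [sympForm_eq_bil] using hj.cayley 1 x y⟩, fun v => by
      simp only [kmul_apply]
      rw [← algebraMap_smul K (-(2 * (1 + e) / (1 - e))), smul_smul, smul_smul, ← add_smul,
        map_neg, map_div₀, h4, map_mul, map_add, ← hj.sq, map_one, map_ofNat, add_eq_zero_iff_eq_neg,
        ← neg_one_smul K v]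
      congr 1
      field_simp
      ring⟩
  refine elK_unit (bil_isAlt _ F) (bil_nondegenerate _ F) h2 hj.rank (by simp [two_mul]) hd
    (fun x hx => ?_) h7 (fun κ => ?_) (mul_card_dvd_cS hΩ fun a ha => ⟨ha.1, fun κ v => ?_⟩)
  · have h8 : (x - 1) ^ 2 = e * (x + 1) ^ 2 := by field_simp at hx; linear_combination hx
    have h9 : x + 1 ≠ 0 := fun h => by
      rw [h, show x = -1 by linear_combination h] at h8
      exact pow_ne_zero 2 h2 (by linear_combination h8)
    have h10 : algebraMap F K ((x - 1) / (x + 1)) ^ 2 = j ^ 2 := by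
      rw [← map_pow, div_pow, h8, mul_div_cancel_right₀ _ (pow_ne_zero 2 h9), ← hj.sq, pow_two]
    rcases sq_eq_sq_iff_eq_or_eq_neg.1 h10 with h | h
    · exact hj.notMem _ h
    · exact hj.notMem (-((x - 1) / (x + 1))) (by rw [map_neg, h, neg_neg])
  · obtain ⟨a, b, h8⟩ := hj.span κ
    refine ⟨a - b * (1 + e) / 2, b * (1 - e) / 2, fun v => ?_⟩
    rw [h8, h6, add_smul, mul_smul, algebraMap_smul, algebraMap_smul]
    generalize j • v = w
    match_scalars <;> field_simp <;> ring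
  · obtain ⟨s, b, h8⟩ := hj.span κ
    have h9 : a (((1 + j) / (1 - j)) • v) = ((1 + j) / (1 - j)) • a v := ha.2 v
    simp only [h6, add_smul, mul_smul, algebraMap_smul, map_add, map_smul, add_right_inj] at h9
    simp [h8, smul_right_injective _ (div_ne_zero h2 h5) h9]

end Cfsg.Lib.Symp
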