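import Cfsg.Agent.Lib.Symp.ElusK

/-!
# Elements of prime order and the field extension subgroups `Sp_{n/k}(q^k)`
-/

set_option autoImplicit false

namespace Cfsg.Lib.Symp

open Module LinearMap Polynomial Cfsg.Lib.GLC Cfsg.Lib.Linear
open Cfsg.Lib.Orth (cS bilProd bilProd_apply)

variable {F V W : Type*} [Field F] [AddCommGroup V] [Module F V] [AddCommGroup W] [Module F W]
  {K : Type*} [Field K] [Algebra F K] [Module K V] [IsScalarTower F K V]
  {B : LinearMap.BilinForm F V} {f g : End F V} {r i c : ℕ}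

theorem finrank_dvd_of_pow [Finite F] [Finite K] {m : ℕ} (h : ∀ κ : K, κ = κ ^ Nat.card F ^ m) :
    finrank F K ∣ m := by
  cases nonempty_fintype F
  rw [← FiniteField.orderOf_frobeniusAlgHom]
  refine orderOf_dvd_of_pow_eq_one (AlgHom.ext fun κ => ?_)
  rw [AlgHom.coe_pow, FiniteField.coe_frobeniusAlgHom, pow_iterate, ← Nat.card_eq_fintype_card]
  exact (h κ).symm

theorem prod_range_mul {g : ℕ → ℕ} {k : ℕ} (hk : 0 < k) (m : ℕ) : ∏ j ∈ .range (k * m), g (j + 1) =
    (∏ t ∈ .range m, g (k * (t + 1))) * ∏ j ∈ .range (k * m) with ¬ k ∣ j + 1, g (j + 1) := by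
  rw [← Finset.prod_filter_mul_prod_filter_not _ fun j => k ∣ j + 1]
  congr 1
  refine (Finset.prod_bij (fun t _ => k * (t + 1) - 1) (fun t ht => ?_) (fun s _ t _ h => ?_)
    (fun j hj => ?_) fun t _ => ?_).symm
  · have := Nat.mul_le_mul_left k (Finset.mem_range.1 ht)
    have : 0 < k * (t + 1) := by positivity
    simp only [Finset.mem_filter, Finset.mem_range, Nat.sub_add_cancel this, dvd_mul_right, and_true]
    exact (Nat.sub_one_lt this.ne').trans_le (by assumption)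
  · have : 0 < k * (t + 1) := by positivity
    have : 0 < k * (s + 1) := by positivity
    exact Nat.succ_injective (Nat.eq_of_mul_eq_mul_left hk (show k * (s + 1) = k * (t + 1) by omega))
  · obtain ⟨h1, t, ht⟩ := Finset.mem_filter.1 hj
    rcases t with _ | t
    · simp at ht
    refine ⟨t, Finset.mem_range.2 (Nat.lt_of_mul_lt_mul_left (a := k) ?_), by omega⟩
    have := Finset.mem_range.1 h1
    nlinarith
  · rw [Nat.sub_add_cancel (Nat.mul_pos hk t.succ_pos)]

theorem OP.exists_not_dvd [Finite F] [Finite K] (h : OP F r i c) {m : ℕ}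
    (hd : r * cS K m ∣ cS F (finrank F K * m)) : ∃ j, ¬ finrank F K ∣ j ∧ c ∣ 2 * j := by
  have h0 := cS_pos (F := K) m
  have h1 : cS F (finrank F K * m) ∣ cS K m * (Nat.card F ^ (finrank F K * m) ^ 2 *
      ∏ j ∈ .range (finrank F K * m) with ¬ finrank F K ∣ j + 1, (Nat.card F ^ (2 * (j + 1)) - 1)) := by
    rw [cS, cS, prod_range_mul (g := fun j => Nat.card F ^ (2 * j) - 1) finrank_pos,
      Module.natCard_eq_pow_finrank (K := F) (V := K)]
    simp only [← pow_mul, mul_left_comm (finrank F K)]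
    exact ⟨Nat.card F ^ (finrank F K * m ^ 2), by ring⟩
  obtain ⟨j, h2, h3⟩ := h.dvd_of_dvd_prod (g := (· + 1))
    (Nat.dvd_of_mul_dvd_mul_left h0 ((mul_comm r _ ▸ hd).trans h1))
  exact ⟨_, (Finset.mem_filter.1 h2).2, h3⟩

theorem not_smul_of_kd {Q : F[X]} (h : 0 < kd f Q) (h' : kd f Q < finrank F V) :
    ¬ ∃ z : F, f = z • 1 := by
  rintro ⟨z, rfl⟩
  rw [kd, ← Algebra.algebraMap_eq_smul_one, aeval_algebraMap_apply_eq_algebraMap_eval] at h h'
  by_cases h1 : Q.eval z = 0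
  · rw [h1, map_zero, ker_zero, finrank_top] at h'
    omega
  · rw [ker_eq_bot.2 ((End.isUnit_iff _).1 ((Ne.isUnit h1).map (algebraMap F (End F V)))).1] at h
    simp at h

variable [Module.Finite F V]

theorem SpE.osplit_four (hf : SpE B f) (h2 : (2 : F) ≠ 0) (h : f ^ 2 = (1 : F) • 1)
    (h1 : ¬ ∃ z : F, f = z • 1) (hV : finrank F V = 4) : ∃ X Y, OSplit B f X Y ∧ (∀ x ∈ X, f x = x) ∧
      (∀ y ∈ Y, f y = -y) ∧ finrank F X = 2 ∧ finrank F Y = 2 := by
  obtain ⟨X, Y, S, h3, h4⟩ := hf.osplit_sq h2 h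
  obtain ⟨a, ha⟩ := (S.spE_left hf).even_finrank
  have h5 := Submodule.finrank_add_eq_of_isCompl S.compl
  have h6 : finrank F X ≠ 4 := fun e => h1 ⟨1, LinearMap.ext fun v => by
    simpa using h3 v (Submodule.eq_top_of_finrank_eq (e.trans hV.symm) ▸ trivial)⟩
  have h7 : finrank F Y ≠ 4 := fun e => h1 ⟨-1, LinearMap.ext fun v => by
    simpa using h4 v (Submodule.eq_top_of_finrank_eq (e.trans hV.symm) ▸ trivial)⟩
  exact ⟨X, Y, S, h3, h4, by omega, by omega⟩

theorem isim_four (hf : SpE B f) (hg : SpE B g) (h2 : (2 : F) ≠ 0) (h : f ^ 2 = (1 : F) • 1)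
    (h' : g ^ 2 = (1 : F) • 1) (h1 : ¬ ∃ z : F, f = z • 1) (h1' : ¬ ∃ z : F, g = z • 1)
    (hV : finrank F V = 4) : ISim B f B g := by
  obtain ⟨X, Y, S, h3, h4, h5, h6⟩ := hf.osplit_four h2 h h1 hV
  obtain ⟨X', Y', S', h3', h4', h5', h6'⟩ := hg.osplit_four h2 h' h1' hV
  exact S.isim_of hf.alt hf.alt S'
    (isim_smul_one (c := 1) (S.spE_left hf) (S'.spE_left hg) (fun x => Subtype.ext (by simpa using h3 x x.2))
      (fun x => Subtype.ext (by simpa using h3' x x.2)) (h5.trans h5'.symm))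
    (isim_smul_one (c := -1) (S.spE_right hf) (S'.spE_right hg) (fun x => Subtype.ext (by simpa using h4 x x.2))
      (fun x => Subtype.ext (by simpa using h4' x x.2)) (h6.trans h6'.symm))

open Cov in
theorem exists_trDet [Finite F] [Finite K] (hA : B.IsAlt) (hB : B.Nondegenerate)
    (hV : finrank F V = 2 * finrank F K) (h1 : ∀ (a : K) x y, B (a • x) y = B x (a • y))
    (h2 : ∀ (a : K) x, B (a • x) x = 0) : ∃ e : (K × K) ≃ₗ[F] V,
      (∀ u v, B (e u) (e v) = trDet F K u v) ∧ ∀ (κ : K) u, e (κ • u) = κ • e u := by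
  haveI : Nontrivial V := nontrivial_of_finrank_pos (R := F) (by
    have := finrank_pos (R := F) (M := K); omega)
  obtain ⟨x, hx⟩ := exists_ne (0 : V)
  let ψ : V → K →ₗ[F] V := fun x => LinearMap.applyₗ x ∘ₗ (kmul F V).toLinearMap
  obtain ⟨m, hm⟩ := exists_factor (ψ x) (Algebra.trace F K) fun a ha => by
    rw [(smul_eq_zero.1 (show a • x = 0 from ha)).resolve_right hx, map_zero]
  obtain ⟨y, hy⟩ := exists_rep B hB.1 (-m)
  have k1 : ∀ (a b : K) z, B (a • z) (b • z) = 0 := fun a b z => by rw [← h1, smul_smul, h2]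
  have k2 : ∀ a b : K, B (a • y) (b • x) = -Algebra.trace F K (a * b) := fun a b => by
    rw [h1, smul_smul, hy, ← hm]; rfl
  let Φ : (K × K) →ₗ[F] V := (ψ x).coprod (ψ y)
  have k3 : ∀ u v, B (Φ u) (Φ v) = trDet F K u v := fun u v => by
    change B (u.1 • x + u.2 • y) (v.1 • x + v.2 • y) = _
    simp only [map_add, LinearMap.add_apply, k1, k2, ← hA.neg_eq (v.2 • y), trDet_apply,
      map_sub, mul_comm v.2]
    ring
  have k4 : Function.Injective Φ := (injective_iff_map_eq_zero Φ).2 fun u hu =>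
    trDet_nondegenerate.1 u fun v => by rw [← k3, hu]; simp
  refine ⟨LinearMap.linearEquivOfInjective Φ k4 (by simp [hV, two_mul]), k3, fun κ u => ?_⟩
  change (κ * u.1) • x + (κ * u.2) • y = κ • (u.1 • x + u.2 • y)
  simp [mul_smul]

theorem ElK.eq_two [Finite F] (h : ElK K B 2) (hA : B.IsAlt) (hB : B.Nondegenerate) (h2 : (2 : F) ≠ 0)
    {d : ℕ} (hV : finrank F V = 2 * (d + 1)) (hK : 2 ≤ finrank F K)
    (ha : ∀ (a : K) x, B (a • x) x = 0) : d ≤ 1 := by
  obtain ⟨f, h3, h4⟩ := ((occ_pair (monic_X_sub_C (-1 : F)) (by simp)).add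
    (occ_RF (r := 1) (ν := 0) odd_one (by simp) rfl d)).exists_spE hA hB
    (by simp [hV, rdual_X_sub_C, -map_one, -map_neg]; ring)
  rw [rdual_X_sub_C (by simp)] at h4
  have h5 : IsCoprime (X - C 1 : F[X]) (X - C (-1)) :=
    isCoprime_X_sub_C_of_isUnit_sub (by simpa [one_add_one_eq_two] using h2)
  have h6 := h4.kd_eq (X - C 1)
  have h7 := h4.kd_eq (X - C (-1))
  simp only [Multiset.insert_eq_cons, add_zero, Multiset.map_add, Multiset.map_cons, Multiset.map_singleton,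
    Multiset.map_replicate, kd_cyc_of_isCoprime (X_sub_C_ne_zero _) h5, natDegree_X_sub_C,
    kd_cyc_of_isCoprime (X_sub_C_ne_zero _) h5.symm, kd_cyc_of_dvd (X_sub_C_ne_zero _) dvd_rfl,
    Multiset.sum_add, Multiset.sum_cons, Multiset.sum_singleton, Multiset.sum_replicate, smul_eq_mul] at h6 h7
  have h8 : f ^ 2 = (1 : F) • 1 := h4.pow_eq_smul_one_iff.2 fun P hP => by
    have : (X ^ 2 - C 1 : F[X]) = (X - C 1) * (X - C (-1)) := by simp; ring
    simp only [Multiset.insert_eq_cons, add_zero, Multiset.mem_add, Multiset.mem_cons,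
      Multiset.mem_singleton, or_self, Multiset.mem_replicate] at hP
    rcases hP with rfl | ⟨-, rfl⟩ <;> simp [this, -map_one, -map_neg]
  by_contra h0
  obtain ⟨g, h9, h10⟩ := h f h3 ⟨1, h8⟩ (not_smul_of_kd (Q := X - C 1) (by omega) (by omega))
  rw [← h10.sim.kd_eq] at h6 h7
  have h11 := (h10.sim.pow 2).eq_smul_one_iff 1 |>.2 h8
  refine h9.lin_or_le.elim (fun h12 => ?_) fun h12 => by
    rw [kd, map_sub, aeval_X, map_one, map_one] at h6
    omega
  have h13 : ∀ v, v ∈ ker (aeval g (X - C (-1 : F))) ↔ g v = -v := fun v => by simp [add_eq_zero_iff_eq_neg]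
  haveI : Nontrivial (ker (aeval g (X - C (-1 : F)))) := nontrivial_of_finrank_pos (R := F)
    (show 0 < kd g _ by omega)
  obtain ⟨⟨x, hx⟩, hx0⟩ := exists_ne (0 : ker (aeval g (X - C (-1 : F))))
  replace hx0 : x ≠ 0 := fun e => hx0 (Subtype.ext e)
  let ψ : K →ₗ[F] V := LinearMap.applyₗ x ∘ₗ (kmul F V).toLinearMap
  have h14 : range ψ = ker (aeval g (X - C (-1 : F))) := Submodule.eq_of_le_of_finrank_le (by
    rintro _ ⟨κ, rfl⟩
    exact (h13 _).2 (show g (κ • x) = -(κ • x) by rw [h12, (h13 x).1 hx, smul_neg]))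
    (by rw [finrank_range_of_inj (smul_left_injective K hx0)]; exact (h7.trans (by simp)).trans_le hK)
  refine hx0 (hB.2 x fun y => mul_left_cancel₀ h2 ?_)
  obtain ⟨κ, hκ⟩ := h14.ge ((h13 (y - g y)).2 (by
    simpa [pow_two] using LinearMap.congr_fun h11 y))
  have h15 := (h10.spE h3).inv y x
  have h16 := ha κ x
  rw [show κ • x = y - g y from hκ, map_sub, LinearMap.sub_apply] at h16
  rw [(h13 x).1 hx, map_neg] at h15
  linear_combination h16 - h15

theorem elK_field [Finite F] [Finite K] [hr : Fact r.Prime] (hA : B.IsAlt) (hB : B.Nondegenerate)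
    {C : LinearMap.BilinForm K V} (hC : C.IsAlt) {τ : K →ₗ[F] F} (hτ : ∀ x y, B x y = τ (C x y))
    (hK : (finrank F K).Prime) {d : ℕ} (hV : finrank F V = 2 * d) (hd : 2 ≤ d)
    (h : r * Nat.card (isom C) ∣ cS F d) :
    ElK K B r ↔ r = 2 ∧ d = 2 ∧ finrank F K = 2 ∧ (2 : F) ≠ 0 := by
  haveI : Nontrivial V := nontrivial_of_finrank_pos (R := F) (by omega)
  haveI := Module.Finite.of_restrictScalars_finite F K V
  have hC' : C.Nondegenerate := nondegenerate_of_isAlt hC fun x hx => hB.1 x fun y => by simp [hτ, hx]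
  obtain ⟨m, hm⟩ := even_finrank hC hC'
  obtain rfl : d = finrank F K * m := by
    have := finrank_mul_finrank F K V
    rw [hm, hV] at this
    linarith
  have hs : ∀ (a : K) x y, B (a • x) y = B x (a • y) := fun a x y => by simp [hτ]
  have ha : ∀ (a : K) x, B (a • x) x = 0 := fun a x => by simp [hτ, hC.self_eq_zero]
  have h0 : finrank F K ≤ finrank F K * m := Nat.le_mul_of_pos_right _ (by grind)
  refine ⟨fun h1 => ?_, ?_⟩
  · by_cases h2 : (r : F) = 0
    · exact (h1.not_char hA hB h2 (by omega) hK.ne_one).elim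
    by_cases h3 : r = 2
    · subst h3
      have := h1.eq_two hA hB h2 (d := finrank F K * m - 1) (by omega) hK.two_le ha
      exact ⟨rfl, by omega, by have := hK.two_le; omega, h2⟩
    have ho : OP F r _ _ := ⟨hr.out, hr.out.odd_of_ne_two h3, h2, rfl, rfl⟩
    rw [card_isom hC hC' (hm.trans (two_mul m).symm)] at h
    obtain ⟨j, h11, h12⟩ := ho.exists_not_dvd h
    obtain ⟨g, φ, h4, h5, h6, h7, h8, h9, h13⟩ := h1.exists_kd hA hB ho
      (hV ▸ ho.le_of_dvd_cS ((dvd_mul_right _ _).trans h))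
    have h10 : LinK K g := h4.lin_or_le.elim id fun h14 => h4.lin_of_coprime
      ((End.isUnit_iff _).1 h5.isUnit).2 (z := 1) (by rw [h6, one_smul]) one_ne_zero
      ((Nat.coprime_primes hr.out hK).2 fun e => by have := ho.le_sub_one; have := hK.two_le; omega)
    refine (h11 ?_).elim
    split_ifs at h12 with h14
    · obtain ⟨t, ht⟩ := h14
      refine (finrank_dvd_of_pow fun κ => ho.exists_adj h10 h5.inv hB.2 h6 h7 h8 h9 (m := t) (by omega)
        fun x y => (hs κ x y).symm).trans (Nat.dvd_of_mul_dvd_mul_left two_pos ?_)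
      rwa [ht, ← two_mul] at h12
    · exact (h9 ▸ h10.dvd_kd φ).trans (Nat.dvd_of_mul_dvd_mul_left two_pos h12)
  rintro ⟨rfl, h1, h3, h2⟩ f hf ⟨z, hz⟩ h4
  rcases mul_self_eq_one_iff.1 (hz ▸ hf.pow 2).mul_self with rfl | rfl
  · obtain ⟨e, h5, h6⟩ := exists_trDet (K := K) hA hB (by omega) hs ha
    obtain ⟨σ, hσ⟩ := exists_prime_orderOf_dvd_card' (G := K ≃ₐ[F] K) 2
      (by rw [IsGalois.card_aut_eq_finrank, h3])
    have h7 : ∀ x, σ (σ x) = x := fun x => AlgEquiv.congr_fun (pow_two σ ▸ hσ ▸ pow_orderOf_eq_one σ) x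
    have h8 : ISim _ (σ.toLinearMap.prodMap σ.toLinearMap) B (e.conj (σ.toLinearMap.prodMap σ.toLinearMap)) :=
      ⟨e, h5, by simp⟩
    refine ⟨_, fun κ => ⟨σ κ, fun v => ?_⟩, isim_four (h8.symm.spE (Cov.spE_trDet σ (by simp))) hf h2
      (LinearMap.ext fun v => by simp [pow_two, h7]) hz (fun ⟨z, h9⟩ => ?_) h4 (by omega)⟩
    · obtain ⟨v, rfl⟩ := e.surjective v
      simp [← h6]
    have h10 := fun x => congrArg Prod.fst (LinearMap.congr_fun ((h8.sim.eq_smul_one_iff z).2 h9) (x, 0))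
    simp only [prodMap_apply, AlgEquiv.toLinearMap_apply, LinearMap.smul_apply, End.one_apply,
      Prod.smul_fst] at h10
    have h11 : σ = 1 := AlgEquiv.ext fun x => by
      rw [h10, ← mul_one x, ← mul_smul_comm, ← h10, map_one]; rfl
    simp [h11] at hσ
  obtain ⟨g, h5, h6⟩ := exists_spE_sq hC hC'
  refine ⟨g.restrictScalars F, fun κ => ⟨κ, by simp⟩, isim_of_sq ⟨hA, hB, fun u v => by
    simp [hτ, h5.inv]⟩ hf h2 (LinearMap.ext fun v => ?_) hz rfl⟩
  simpa [pow_two] using LinearMap.congr_fun h6 v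

omit [Module K V] [IsScalarTower F K V] in
theorem KAlt.elK [Finite F] [Finite K] [Fact r.Prime] {d : ℕ} [Module K (Fin d ⊕ Fin d → F)]
    [IsScalarTower F K (Fin d ⊕ Fin d → F)] {τ : K →ₗ[F] F} {C : LinearMap.BilinForm K (Fin d ⊕ Fin d → F)}
    (h : KAlt (sympForm d F) τ C) (hK : (finrank F K).Prime) (hd : 2 ≤ d)
    (hΩ : r ∣ (semiGL K).relIndex (spGL d F)) :
    ElK K (bil (Fin d) F) r ↔ r = 2 ∧ d = 2 ∧ finrank F K = 2 ∧ (2 : F) ≠ 0 := by
  have h1 := fun x y => (sympForm_eq_bil d x y).symm.trans (h.eq x y)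
  refine elK_field (bil_isAlt _ F) (bil_nondegenerate _ F) h.kalt h1 hK (by simp [two_mul]) hd ?_
  rw [← Subgroup.card_map_of_injective (resHom_injective (F := F))]
  refine mul_card_dvd_cS (K := K) hΩ ?_
  rintro _ ⟨a, ha, rfl⟩
  exact ⟨fun u v => by rw [h1, h1]; exact congrArg τ (ha u v), a.map_smul⟩

end Cfsg.Lib.Symp
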