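import Cfsg.Agent.Lib.Symp.ElusK2
import Cfsg.Agent.Lib.Asch.Conv

/-!
# Elements of prime order of `PSp` and the tensor product subgroups `Sp_a ⊗ O_b`
-/

set_option autoImplicit false

namespace Cfsg.Lib.Symp

open Module LinearMap Polynomial Matrix Cfsg.Lib.GLC Cfsg.Lib.Linear Cfsg.Geo
open scoped Kronecker

variable {F V : Type*} [Field F] [AddCommGroup V] [Module F V] {B : LinearMap.BilinForm F V}
  {f g : End F V} {r i c : ℕ}

section kron

variable {α β : Type} [Fintype α] [Fintype β] [DecidableEq α] [DecidableEq β]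

theorem sim_kron_comm (A : Matrix α α F) (C : Matrix β β F) :
    Sim (toLin' (A ⊗ₖ C)) (toLin' (C ⊗ₖ A)) :=
  ⟨.funCongrLeft F F (Equiv.prodComm β α), fun v => by
    ext ⟨i, j⟩
    simp only [toLin'_apply, LinearEquiv.funCongrLeft_apply, funLeft_apply, Equiv.prodComm_apply,
      Prod.swap_prod_mk, mulVec, dotProduct, Fintype.sum_prod_type, kroneckerMap_apply]
    rw [Finset.sum_comm]
    simp only [mul_comm]⟩

theorem two_mul_le_rank_kron (A : Matrix α α F) {C : Matrix β β F} {w : β → F}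
    (h : LinearIndependent F ![w, C *ᵥ w, C *ᵥ C *ᵥ w]) :
    2 * Fintype.card α ≤ finrank F (range (toLin' (A ⊗ₖ C) - 1)) := by
  obtain ⟨φ, h0⟩ := exists_dot_eq_of_linearIndependent h ![1, 0, 0]
  obtain ⟨ψ, h1⟩ := exists_dot_eq_of_linearIndependent h ![0, 1, 0]
  have h2 : Function.Injective ((toLin' (A ⊗ₖ C) - 1) ∘ₗ (tensL w).coprod (tensL (C *ᵥ w))) := by
    refine (injective_iff_map_eq_zero _).2 fun u hu => ?_
    have e1 := congrArg (ctr φ) hu
    have e2 := congrArg (ctr ψ) hu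
    simp [mulVec_add, kron_mulVec_tens, ctr_tens, show φ ⬝ᵥ w = 1 from h0 0,
      show φ ⬝ᵥ C *ᵥ w = 0 from h0 1, show φ ⬝ᵥ C *ᵥ C *ᵥ w = 0 from h0 2, show ψ ⬝ᵥ w = 0 from h1 0,
      show ψ ⬝ᵥ C *ᵥ w = 1 from h1 1, show ψ ⬝ᵥ C *ᵥ C *ᵥ w = 0 from h1 2, -mulVec_mulVec] at e1 e2
    exact Prod.ext e1 (by simpa [e1] using e2)
  have h3 := finrank_range_of_inj h2
  rw [finrank_prod, finrank_fintype_fun_eq_card, ← two_mul] at h3
  exact h3.ge.trans (Submodule.finrank_mono (range_comp_le_range _ _))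

theorem kron_pow (A : Matrix α α F) (C : Matrix β β F) (k : ℕ) : (A ⊗ₖ C) ^ k = (A ^ k) ⊗ₖ (C ^ k) := by
  induction k with
  | zero => simp
  | succ k ih => rw [pow_succ, ih, ← mul_kronecker_mul, pow_succ, pow_succ]

theorem exists_kron_norm [Finite F] [Nonempty α] [Nonempty β] (hr : r.Prime) (h0 : ¬ r ∣ Nat.card F - 1)
    {A : Matrix α α F} {C : Matrix β β F} (h : (A ⊗ₖ C) ^ r = 1) :
    ∃ (A' : Matrix α α F) (C' : Matrix β β F), A' ⊗ₖ C' = A ⊗ₖ C ∧ A' ^ r = 1 ∧ C' ^ r = 1 := by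
  obtain ⟨a⟩ := ‹Nonempty α›
  obtain ⟨b⟩ := ‹Nonempty β›
  obtain ⟨z, hz⟩ := exists_pow_eq_of_not_dvd hr h0 ((C ^ r) b b)
  have h1 : (z • A) ^ r = 1 := by
    ext i j
    simpa [kron_pow, one_apply, _root_.smul_pow, hz, mul_comm] using congrFun₂ h (i, b) (j, b)
  have h2 : z ≠ 0 := by rintro rfl; simpa [hr.ne_zero] using congrFun₂ h1 a a
  have h3 : (z • A) ⊗ₖ (z⁻¹ • C) = A ⊗ₖ C := by
    rw [smul_kronecker, kronecker_smul, smul_inv_smul₀ h2]
  refine ⟨_, _, h3, h1, ?_⟩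
  rw [← h3, kron_pow, h1] at h
  ext i j
  simpa [one_apply] using congrFun₂ h (a, i) (a, j)

end kron

variable [Module.Finite F V] [Finite F]

theorem OP.exists_root (h : OP F r i c) (h1 : g ^ r = 1) (h2 : g ≠ 1) :
    i ≤ finrank F V ∧ (3 ≤ i → ∃ w, LinearIndependent F ![w, g w, g (g w)]) := by
  obtain ⟨k, ν, h3, h4⟩ := exists_typ_RF h.ne h1
  have h5 : Blocks g _ := h4 ▸ blocks_typ g
  obtain ⟨φ, hφ⟩ := Multiset.exists_mem_of_ne_zero (s := ν) (by
    rintro rfl
    rw [add_zero, ← lt_replicate] at h5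
    exact h2 (by simpa using h5.lt_eq_smul_iff.2 fun _ => Multiset.eq_of_mem_replicate))
  have h6 := h3 φ hφ
  have h7 : φ.natDegree = i := h.hi ▸ h6.natDegree_eq h.prime
  have h8 : i ≤ kd g φ := by
    rw [h5.kd_eq, ← h7, ← kd_cyc_of_dvd h6.1.ne_zero dvd_rfl]
    exact Multiset.le_sum_of_mem (α := ℕ)
      (Multiset.mem_map_of_mem (fun P => kd (cyc P) φ) (Multiset.mem_add.2 (.inr hφ)))
  refine ⟨h8.trans (Submodule.finrank_le _), fun h9 => ?_⟩
  haveI : Nontrivial (ker (aeval g φ)) := nontrivial_of_finrank_pos (R := F) (show 0 < kd g φ by omega)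
  obtain ⟨⟨w, hw⟩, h10⟩ := exists_ne (0 : ker (aeval g φ))
  refine ⟨w, Fintype.linearIndependent_iff.2 fun s hs => ?_⟩
  have h11 : C (s 2) * X ^ 2 + C (s 1) * X + C (s 0) = 0 := by
    by_contra e
    obtain ⟨u, v, huv⟩ := (h6.2.1.coprime_iff_not_dvd).2 fun e' => by
      have := (natDegree_le_of_dvd e' e).trans natDegree_quadratic_le
      omega
    refine h10 (Subtype.ext ?_)
    have e1 := LinearMap.congr_fun (congrArg (aeval g) huv) w
    have e2 : aeval g (C (s 2) * X ^ 2 + C (s 1) * X + C (s 0)) w = 0 := by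
      rw [← hs]; simp [Fin.sum_univ_three, pow_two]; abel
    rw [map_add, map_mul, map_mul, LinearMap.add_apply, End.mul_apply, End.mul_apply, e2, mem_ker.1 hw] at e1
    simpa using e1.symm
  intro j
  have := congrArg (coeff · j) h11
  fin_cases j <;> simpa [coeff_X, coeff_C] using this

open Classical in
theorem OP.exists_count (h : OP F r i c) {ν : Multiset F[X]} (h1 : ∀ φ ∈ ν, RF r φ)
    (h2 : ν.map rdual = ν) (h3 : ν.card * i = c) (k : ℕ) :
    ∃ φ, (Multiset.replicate k (X - C 1) + ν).count φ = 1 := by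
  have h0 := h.i_pos
  rcases i.even_or_odd with he | ho
  · obtain ⟨φ, rfl⟩ := Multiset.card_eq_one.1 (Nat.eq_of_mul_eq_mul_right h0
      (by rw [h3, h.hc, if_pos he, one_mul]))
    exact ⟨φ, by simp [Multiset.count_replicate, (h1 φ (by simp)).2.2.2.symm, -map_one]⟩
  obtain ⟨τ, rfl⟩ := h.exists_eq_add_map ho h1 h2
  obtain ⟨φ, rfl⟩ := Multiset.card_eq_one.1 (show τ.card = 1 by
    rw [h.hc, if_neg (Nat.not_even_iff_odd.2 ho)] at h3; simp at h3; omega)
  have := h1 φ (by simp)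
  exact ⟨φ, by simp [Multiset.count_replicate, this.2.2.2.symm, -map_one,
    Ne.symm (mt (h.rdual_eq_iff this).1 (Nat.not_even_iff_odd.2 ho))]⟩

variable {ι : Type} [Fintype ι] [DecidableEq ι] {a b : ℕ} {e : ι ≃ Fin a × Fin b} {P : GL ι F}

theorem elT_imp [hr : Fact r.Prime] (hA : B.IsAlt) (hB : B.Nondegenerate) (h2 : (2 : F) ≠ 0)
    {d : ℕ} (hV : finrank F V = 2 * d) (hab : 2 * d = a * b) (ha : Even a) (ha2 : 2 ≤ a) (hb : 3 ≤ b)
    (hd : r ∣ Orth.cS F d) (h : ∀ f, SpE B f → (∃ z : F, f ^ r = z • 1) → (¬ ∃ z : F, f = z • 1) →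
      Into (tensorProductSubgroup a b e P) f) : r = 2 ∧ a = 2 := by
  classical
  have h0 : 6 ≤ a * b := Nat.mul_le_mul ha2 hb
  obtain ⟨d, rfl⟩ : ∃ e, d = e + 1 := ⟨d - 1, by omega⟩
  have h1 : ∀ {f : End F V} {μ} {k} (φ), typ f = k • μ → k ∣ (typ f).count φ := fun φ e => by
    rw [e, Multiset.count_nsmul]; exact dvd_mul_right _ _
  by_cases h3 : (r : F) = 0
  · have h4 : ∀ a ∈ 2 ::ₘ Multiset.replicate (2 * d) 1, 0 < a := by simp [Multiset.mem_replicate]
    obtain ⟨f, h5, h6⟩ := ((occ_iff (jt_pp (1 : F) h4)).2 ⟨spT_jt_one.2 fun k hk => by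
      rw [Multiset.count_cons_of_ne (by rintro rfl; revert hk; decide), Multiset.count_replicate]
      split_ifs <;> simp, fun P hP => by
        obtain ⟨a, -, rfl⟩ := Multiset.mem_map.1 hP
        simp [coeff_zero_eq_eval_zero]⟩).exists_spE hA hB (by simp [jt_map_natDegree]; omega)
    have h7 := h6.jt_finrank_ker_one h4
    rw [one_smul] at h7
    haveI : CharP F r := (CharP.charP_iff_prime_eq_zero hr.out).2 h3
    refine ((h f h5 ⟨1, by
      have := (pow_char_pow_eq_one_iff (f := f) r 1).2 (by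
        rw [← one_smul F (1 : End F V), h6.jt_pow_eq_zero_iff]
        simp [Multiset.mem_replicate, hr.out.two_le, hr.out.one_le])
      simpa using this⟩ fun ⟨z, hz⟩ => by
        have := h6.natDegree_eq_one hz (P := (X - C 1) ^ 2) (by simp [jt])
        rw [natDegree_pow, natDegree_X_sub_C] at this
        omega).tens_cases (r := r) (by omega)).elim (fun ⟨μ, e⟩ => ?_) fun e => by
          simp at h7; omega
    have := h1 ((X - C 1) ^ 2) e
    rw [h6.typ_eq (jt_pp _ h4), jt, Multiset.count_map_eq_count' _ _ fun k l h => by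
      simpa [-map_one] using congrArg natDegree h] at this
    simp [Multiset.count_replicate] at this
    omega
  by_cases h4 : r = 2
  · subst h4
    obtain ⟨f, h4, h5⟩ := ((occ_pair (monic_X_sub_C (-1 : F)) (by simp)).add
      (occ_RF (r := 1) (ν := 0) odd_one (by simp) rfl d)).exists_spE hA hB
      (by simp [hV, rdual_X_sub_C, -map_one, -map_neg]; ring)
    rw [rdual_X_sub_C (by simp)] at h5
    have h6 : Blocks f (lt (.replicate (2 * d) 1 + .replicate 2 (-1))) := by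
      simpa [lt, add_comm, -map_one, -map_neg] using h5
    have h7 : (1 : F) ≠ -1 := fun e => h2 (by linear_combination e)
    have h8 := h6.kd_eq (X - C 1)
    refine ⟨rfl, ((h f h4 ⟨1, h6.lt_pow_eq_iff.2 (by simp +contextual [Multiset.mem_replicate, or_imp])⟩
      fun ⟨z, hz⟩ => h7 ?_).tens_cases (r := 2) (by omega)).elim (fun ⟨μ, e⟩ => ?_) fun e => ?_⟩
    · have := h6.lt_eq_smul_iff.1 hz
      exact (this 1 (by simp [Multiset.mem_replicate]; omega)).trans (this (-1) (by simp)).symm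
    · have := h1 (X - C (-1)) e
      rw [h6.lt_typ, lt, Multiset.count_map_eq_count' (X - C ·) _ fun k l h => by simpa using h] at this
      simp [Multiset.count_replicate, h7] at this
      exact le_antisymm (Nat.le_of_dvd two_pos this) ha2
    · have h9 : IsCoprime (X - C (-1) : F[X]) (X - C 1) :=
        isCoprime_X_sub_C_of_isUnit_sub (sub_ne_zero.2 h7.symm).isUnit
      simp only [lt, Multiset.map_add, Multiset.map_replicate, kd_cyc_of_isCoprime (X_sub_C_ne_zero _) h9,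
        kd_cyc_of_dvd (X_sub_C_ne_zero _) dvd_rfl, natDegree_X_sub_C, Multiset.sum_add,
        Multiset.sum_replicate, smul_eq_mul] at h8
      rw [kd, map_sub, aeval_X, map_one, map_one] at h8
      omega
  exfalso
  obtain ⟨i, c, ho⟩ : ∃ i c, OP F r i c := ⟨_, _, hr.out, hr.out.odd_of_ne_two h4, h3, rfl, rfl⟩
  have h5 := ho.le_of_dvd_cS hd
  obtain ⟨f, k, ν, h6, -, h7, h8, h9, h10, h11, h12⟩ := ho.exists_spE hA hB one_ne_zero (by omega)
  have h13 := pow_eq_one_RF h7 (h10 ▸ blocks_typ f)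
  have h14 := h f h6 ⟨1, by rw [h13, one_smul]⟩ (mt (eq_smul_iff_RF ho.odd h7 h8 (h10 ▸ blocks_typ _)).1 h9)
  obtain ⟨φ, h15⟩ := ho.exists_count h7 h8 (by rw [← ho.sum_eq h7, h12, mul_one]) (2 * k)
  rw [← h10] at h15
  have h16 := finrank_ker_of_typ h7 h10
  have h17 : b ≤ c := (h14.tens_cases (r := r) (by omega)).elim
    (fun ⟨μ, e⟩ => absurd (Nat.le_of_dvd one_pos (h15 ▸ h1 φ e)) (by omega)) fun e => by omega
  have h18 := ho.hc
  have h19 : 3 ≤ i := by have := ho.i_pos; grind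
  obtain ⟨A, C, h20⟩ := into_tens_iff.1 h14
  haveI : NeZero a := ⟨by omega⟩
  haveI : NeZero b := ⟨by omega⟩
  obtain ⟨A, C, h21, h22, h23⟩ := exists_kron_norm hr.out (fun e => by
    have := Nat.le_of_dvd one_pos (ho.hi ▸ (dvd_pow_sub_one_iff Nat.card_pos).1 (by simpa using e))
    omega) (A := A.1) (C := C.1) (toLin'.injective (by
      rw [toLin'_pow', toLin'_one]; exact (h20.pow r).eq_one_iff.2 h13))
  rw [← h21] at h20
  have h24 := (ho.exists_root (g := toLin' A) (by rw [← toLin'_pow', h22, toLin'_one]; rfl) fun e => by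
    rw [toLin'.injective (e.trans toLin'_one.symm)] at h20
    exact absurd (Nat.le_of_dvd one_pos (h15 ▸ h1 φ (h20.typ_eq.symm.trans (typ_one_kronecker C))))
      (by omega)).1
  obtain ⟨w, hw⟩ := (ho.exists_root (g := toLin' C) (by rw [← toLin'_pow', h23, toLin'_one]; rfl) fun e => by
    rw [toLin'.injective (e.trans toLin'_one.symm)] at h20
    exact absurd (Nat.le_of_dvd one_pos (h15 ▸ h1 φ
      (((sim_kron_comm _ _).trans h20).typ_eq.symm.trans (typ_one_kronecker A)))) (by omega)).2 h19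
  have h25 := two_mul_le_rank_kron A hw
  have h26 := (f - 1).finrank_range_add_finrank_ker
  rw [h20.sub_one.finrank_range] at h25
  simp at h24 h25
  grind

omit [Module.Finite F V] in
theorem elT_of {d : ℕ} {e : Fin d ⊕ Fin d ≃ Fin 2 × Fin b} {P : GL (Fin d ⊕ Fin d) F}
    {f₁ : (Fin 2 → F) → (Fin 2 → F) → F} {f₂ : (Fin b → F) → (Fin b → F) → F} (h2 : (2 : F) ≠ 0)
    (hd : d ≠ 0) (h₁ : IsSymplecticForm f₁) (h₂ : IsSymmetricForm f₂)
    (hS : IsTensorFormStructure id (sympForm d F) f₁ f₂ e P) {f : End F (Fin d ⊕ Fin d → F)}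
    (hf : SpE (bil (Fin d) F) f) {z : F} (hz : f ^ 2 = z • 1) :
    ∃ h ∈ tensorProductSubgroup 2 b e P, ISim (bil (Fin d) F) (toLin' h.1) (bil (Fin d) F) f := by
  obtain ⟨c, -, hS⟩ := hS
  have h1 : ∀ (g : GL (Fin 2 × Fin b) F) x, (P * glReindex e.symm g * P⁻¹).1 *ᵥ (P.1 *ᵥ (x ∘ e)) =
      P.1 *ᵥ ((g.1 *ᵥ x) ∘ e) := fun g x => by
    rw [GL_mul_mulVec, GL_mul_mulVec, GL_inv_mulVec_mulVec, Asch.coe_glReindex, reindex_apply,
      submatrix_mulVec_equiv]
    congr 3
    ext i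
    simp
  have h3 : ∀ x : Fin d ⊕ Fin d → F, ∃ y : Fin 2 × Fin b → F, P.1 *ᵥ (y ∘ e) = x := fun x =>
    ⟨((P⁻¹).1 *ᵥ x) ∘ e.symm, by
      rw [Function.comp_assoc, e.symm_comp_self, Function.comp_id, GL_mulVec_inv_mulVec]⟩
  have h4 : ∀ (A : GL (Fin 2) F) (C : GL (Fin b) F), A.1ᵀ * gramMatrix f₁ * A.1 = gramMatrix f₁ →
      C.1ᵀ * gramMatrix f₂ * C.1 = gramMatrix f₂ → ∃ h ∈ tensorProductSubgroup 2 b e P,
        SpE (bil (Fin d) F) (toLin' h.1) ∧ Sim (toLin' (A.1 ⊗ₖ C.1)) (toLin' h.1) := by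
    intro A C hA hC
    refine ⟨P * glReindex e.symm (A.kronecker C) * P⁻¹, ⟨_, ⟨_, ⟨A, C, rfl⟩, rfl⟩, rfl⟩,
      ⟨hf.alt, hf.nd, fun u v => ?_⟩, (sim_reindex e.symm _).symm.trans
        (gl_isConj_iff_sim.1 (isConj_iff.2 ⟨P, rfl⟩ : IsConj (glReindex e.symm (A.kronecker C)) _))⟩
    obtain ⟨u, rfl⟩ := h3 u
    obtain ⟨v, rfl⟩ := h3 v
    rw [toLin'_apply, toLin'_apply, h1, h1, ← sympForm_eq_bil, ← sympForm_eq_bil, hS, hS,
      Asch.formOfGram_eq, Asch.formOfGram_eq, Function.id_comp, Function.id_comp]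
    congr 1
    change (A.1 ⊗ₖ C.1) *ᵥ u ⬝ᵥ _ *ᵥ (A.1 ⊗ₖ C.1) *ᵥ v = _
    rw [← vecMul_transpose, ← dotProduct_mulVec, mulVec_mulVec, mulVec_mulVec, ← kroneckerMap_transpose,
      ← mul_kronecker_mul, ← mul_kronecker_mul, hA, hC]
  have hb : d = b := by simpa [← two_mul] using Fintype.card_congr e
  subst hb
  haveI : Nonempty (Fin d) := ⟨⟨0, by omega⟩⟩
  rcases mul_self_eq_one_iff.1 (hz ▸ hf.pow 2).mul_self with rfl | rfl
  · obtain ⟨s, t, h5, h6⟩ := exists_lt_two h2 (hz.trans (one_smul _ _))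
    obtain ⟨t, rfl⟩ : Even t := by
      have := h6.lt_det.symm.trans hf.det_eq_one
      exact (neg_one_pow_eq_one_iff_even fun e => h2 (by linear_combination -e)).1 (by simpa using this)
    obtain ⟨s, rfl⟩ : Even s := by simp at h5; grind
    obtain ⟨v, hv⟩ := exists_univ_map_eq (n := Fin (finrank F (Fin d → F)))
      (.replicate s (1 : F) + .replicate t (-1)) (by simp at h5 ⊢; omega)
    have h7 : ∀ i, v i * v i = 1 := fun i => by
      have : v i ∈ Finset.univ.val.map v := Multiset.mem_map_of_mem _ (by simp)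
      simp only [hv, Multiset.mem_add, Multiset.mem_replicate] at this
      rcases this with ⟨-, e⟩ | ⟨-, e⟩ <;> simp [e]
    have h8 := Asch.sform_of_symmetric h₂
    haveI := invertibleOfNonzero h2
    obtain ⟨β, hβ⟩ := LinearMap.BilinForm.exists_orthogonal_basis (B := toBilin' (gramMatrix f₂))
      ⟨fun x y => by simpa [toBilin'_apply', h8.eq_dot] using h₂.symm x y⟩
    let g : End F (Fin d → F) := β.constr F fun i => v i • β i
    have h9 : Sim g (toLin' (diagonal v)) := ⟨β.equivFun, fun x => by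
      ext i; simp [g, mulVec_diagonal, Basis.constr_apply_fintype, Finsupp.single_apply, mul_comm]⟩
    have h10 : Blocks g (lt (.replicate s 1 + .replicate t (-1))) := hv ▸ h9.blocks (blocks_diagonal v)
    have h11 : (toBilin' (gramMatrix f₂)).comp g g = toBilin' (gramMatrix f₂) :=
      LinearMap.BilinForm.ext_basis β fun i j => by
        by_cases e : i = j
        · simp [g, e, ← mul_assoc, h7]
        · simp [g, show toBilin' (gramMatrix f₂) (β i) (β j) = 0 from hβ e]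
    obtain ⟨C, hC⟩ := toLin'.surjective g
    rw [← hC] at h10 h11
    obtain ⟨h, h12, h13, h14⟩ := h4 1 (.mkOfDetNeZero C (by simp [← det_toLin', h10.lt_det])) (by simp)
      (toBilin'.injective (by rw [← h11, toBilin'_comp]; simpa using h11))
    refine ⟨h, h12, (isim_of_sim hf h13 (.trans (sim_iff_typ_eq.2 ?_) h14) h6.lt_isSemisimple).symm⟩
    refine ((typ_one_kronecker C).trans ?_).symm
    rw [h10.lt_typ, h6.lt_typ, two_nsmul, ← lt_add, add_add_add_comm, ← Multiset.replicate_add,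
      ← Multiset.replicate_add]
  let A : GL (Fin 2) F := .mkOfDetNeZero !![0, -1; 1, 0] (by simp)
  have h8 : toLin' (A.1 ⊗ₖ (1 : GL (Fin d) F).1) ^ 2 = (-1 : F) • 1 := by
    rw [← toLin'_pow', toLin'_eq_smul_one_iff, pow_two, ← mul_kronecker_mul, ← one_kronecker_one,
      ← smul_kronecker]
    congr 1
    · ext i j; fin_cases i <;> fin_cases j <;> simp [A]
    · simp
  have h9 : A.1ᵀ * gramMatrix f₁ * A.1 = gramMatrix f₁ := by
    ext i j
    fin_cases i <;> fin_cases j <;> simp [A, gramMatrix, Matrix.mul_apply, h₁.alternating,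
      h₁.skew (Pi.single 1 1) (Pi.single 0 1)]
  obtain ⟨h, h12, h13, h14⟩ := h4 A 1 h9 (by simp)
  exact ⟨h, h12, isim_of_sq h13 hf h2 (h14.pow_eq_smul_one_iff.1 h8) hz rfl⟩

end Cfsg.Lib.Symp
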