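import Cfsg.Agent.Lib.Symp.Four

/-!
# The subgroups `GL₂(q).2` and `GU₂(q).2` of `Sp₄(q)`
-/

set_option autoImplicit false

namespace Cfsg.Lib.Symp

open Matrix Module Cfsg.Geo Cfsg.Lib.Linear
open scoped MatrixGroups

variable {F : Type*} [Field F] [Finite F]

theorem unitaryField_data {ι : Type} [Fintype ι] [DecidableEq ι] {f : (ι → F) → (ι → F) → F}
    (h : Alt f) (h2 : (2 : F) ≠ 0) (h3 : 3 ≤ Fintype.card ι) {K : Subalgebra F (Matrix ι ι F)}
    (hK : IsFieldSubalgebra 2 K) (ha : IsAdjointClosedFor f K) (hs : ¬ IsSelfAdjointFor f K) :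
    ∃ (A : Matrix ι ι F) (s : F), (∀ x y, f (A *ᵥ x) y = -f x (A *ᵥ y)) ∧ s ≠ 0 ∧ A * A = s • 1 ∧
      (∀ g : GL ι F, g.1 * A = A * g.1 ∨ g.1 * A = -(A * g.1) → g ∈ subalgebraNormalizer K) ∧
      ¬ Asch.iso f ≤ subalgebraNormalizer K := by
  have : Nonempty ι := Fintype.card_pos_iff.1 (by omega)
  let _ := (Asch.isField_of_isFieldSubalgebra hK).toField
  rw [subalgebraNormalizer_eq hK]
  obtain ⟨j, d, hj⟩ := exists_uAlt (K := K) h h2 hK.finrank_eq
    (fun κ => (ha κ κ.2).elim fun k hk => ⟨⟨k, hk.1⟩, hk.2⟩) fun h0 => hs fun k hk => h0 ⟨k, hk⟩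
  have h0 : j ≠ 0 := fun h => hj.notMem 0 (by rw [h, map_zero])
  refine ⟨j.1, d, hj.skew, fun h => h0 (by simpa [h] using hj.sq),
    (congrArg Subtype.val hj.sq).trans (Algebra.algebraMap_eq_smul_one d), fun g hg => ?_,
    h.not_iso_le_semiGL hK.finrank_eq.ge h3⟩
  obtain ⟨ε, hε⟩ : ∃ ε : F, ∀ x, g.1 *ᵥ (j • x) = ε • j • g.1 *ᵥ x := by
    rcases hg with hg | hg
    · exact ⟨1, fun x => by
        rw [one_smul]; exact (mulVec_mulVec _ _ _).trans (hg ▸ (mulVec_mulVec _ _ _).symm)⟩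
    · exact ⟨-1, fun x => by
        rw [neg_one_smul]
        exact (mulVec_mulVec _ _ _).trans (by rw [hg, neg_mulVec, ← mulVec_mulVec]; rfl)⟩
  refine mem_semiGL_of_forall fun κ => ?_
  obtain ⟨a, b, hab⟩ := hj.span κ
  exact ⟨algebraMap F K a + (b * ε) • j, fun x => by
    rw [hab, mulVec_add, mulVec_smul, mulVec_smul, hε, add_smul, algebraMap_smul, smul_assoc,
      mul_smul]⟩

theorem isMaximalIn_unitaryField_four (h2 : (2 : F) ≠ 0) (hF : 5 ≤ Nat.card F)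
    {K : Subalgebra F (Matrix (Fin 2 ⊕ Fin 2) (Fin 2 ⊕ Fin 2) F)} (hK : IsFieldSubalgebra 2 K)
    (ha : IsAdjointClosedFor (sympForm 2 F) K) (hs : ¬ IsSelfAdjointFor (sympForm 2 F) K) :
    IsMaximalIn (spGL 2 F) (subalgebraNormalizer K ⊓ spGL 2 F) := by
  obtain ⟨A, s, h1, h3, h4, h5, h6⟩ := unitaryField_data (alt_sympForm 2) h2 (by simp) hK ha hs
  exact isMaximalIn_skew h2 hF h1 h3 h4 (fun g _ => h5 g) h6

omit [Finite F] in
theorem isCompl_of_two {ι : Type} [Fintype ι] [DecidableEq ι] {m : ℕ}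
    {D : Fin 2 → Submodule F (ι → F)} (hD : IsMDecomposition m D) : IsCompl (D 0) (D 1) :=
  ⟨hD.indep.pairwiseDisjoint zero_ne_one, codisjoint_iff_le_sup.2 (hD.iSup_eq_top ▸ iSup_le
    (Fin.forall_fin_two.2 ⟨le_sup_left, le_sup_right⟩))⟩

theorem isMaximalIn_lagPair_four (h2 : (2 : F) ≠ 0) (hF : 5 ≤ Nat.card F)
    {D : Fin 2 → Submodule F (Fin 2 ⊕ Fin 2 → F)} (hD : IsMDecomposition 2 D)
    (hts : ∀ i, IsTotallySingularFor (sympForm 2 F) (D i)) :
    IsMaximalIn (spGL 2 F) (decompositionStabilizer D ⊓ spGL 2 F) := by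
  have h := alt_sympForm (F := F) 2
  have hc := isCompl_of_two hD
  obtain ⟨A, hA⟩ : ∃ A : Matrix (Fin 2 ⊕ Fin 2) (Fin 2 ⊕ Fin 2) F, ∀ a ∈ D 0, ∀ b ∈ D 1,
      A *ᵥ (a + b) = a - b :=
    ⟨LinearMap.toMatrix' (LinearMap.ofIsCompl hc (D 0).subtype (-(D 1).subtype)), fun a ha b hb => by
      rw [← toLin'_apply, toLin'_toMatrix', map_add, LinearMap.ofIsCompl_apply_left hc (u := ⟨a, ha⟩),
        LinearMap.ofIsCompl_apply_right hc (v := ⟨b, hb⟩), sub_eq_add_neg]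
      rfl⟩
  have dec : ∀ x, ∃ a ∈ D 0, ∃ b ∈ D 1, a + b = x := fun x =>
    Submodule.mem_sup.1 (hc.sup_eq_top ▸ Submodule.mem_top)
  have key : ∀ a b x : Fin 2 ⊕ Fin 2 → F, a + b = x → (a - b = x → a = x) ∧ (a - b = -x → b = x) := by
    rintro a b _ rfl
    refine ⟨fun h => ?_, fun h => ?_⟩
    · rw [smul_right_injective _ h2 (show (2 : F) • b = (2 : F) • 0 by
        linear_combination (norm := module) -h), add_zero]
    · rw [smul_right_injective _ h2 (show (2 : F) • a = (2 : F) • 0 by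
        linear_combination (norm := module) h), zero_add]
  have m0 : ∀ x, A *ᵥ x = x ↔ x ∈ D 0 := fun x => ⟨fun hx => by
    obtain ⟨a, ha, b, hb, e⟩ := dec x
    exact (key a b x e).1 (by rw [← hA a ha b hb, e, hx]) ▸ ha, fun hx => by
    simpa using hA x hx 0 (zero_mem _)⟩
  have m1 : ∀ x, A *ᵥ x = -x ↔ x ∈ D 1 := fun x => ⟨fun hx => by
    obtain ⟨a, ha, b, hb, e⟩ := dec x
    exact (key a b x e).2 (by rw [← hA a ha b hb, e, hx]) ▸ hb, fun hx => by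
    simpa using hA 0 (zero_mem _) x hx⟩
  refine isMaximalIn_skew h2 hF (A := A) (fun x y => ?_) one_ne_zero ?_ (fun g _ hg => ?_)
    fun hle => ?_
  · obtain ⟨a, ha, b, hb, rfl⟩ := dec x
    obtain ⟨c, hc, d, hd, rfl⟩ := dec y
    simp only [hA a ha b hb, hA c hc d hd, h.add_left, h.add_right, h.sub_left, h.sub_right,
      hts 0 a ha c hc, hts 1 b hb d hd]
    ring
  · refine toLin'.injective (LinearMap.ext fun x => ?_)
    obtain ⟨a, ha, b, hb, rfl⟩ := dec x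
    rw [toLin'_apply, ← mulVec_mulVec, hA a ha b hb, sub_eq_add_neg, hA a ha _ (neg_mem hb)]
    simp
  · refine mem_decompositionStabilizer_of_le hD (Fin.forall_fin_two.2 ?_)
    rcases hg with hg | hg
    · have : ∀ x, A *ᵥ g.1 *ᵥ x = g.1 *ᵥ A *ᵥ x := fun x => by simp only [mulVec_mulVec, hg]
      exact ⟨⟨0, fun x hx => (m0 _).1 (by rw [this, (m0 x).2 hx])⟩,
        1, fun x hx => (m1 _).1 (by rw [this, (m1 x).2 hx, mulVec_neg])⟩
    · have : ∀ x, A *ᵥ g.1 *ᵥ x = -(g.1 *ᵥ A *ᵥ x) := fun x => by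
        simp only [mulVec_mulVec, hg, neg_mulVec, neg_neg]
      exact ⟨⟨1, fun x hx => (m1 _).1 (by rw [this, (m0 x).2 hx])⟩,
        0, fun x hx => (m0 _).1 (by rw [this, (m1 x).2 hx, mulVec_neg, neg_neg])⟩
  · obtain ⟨u', hu', hu0⟩ := (Submodule.ne_bot_iff _).1 (ne_bot_of_decomp hD 1)
    obtain ⟨y, -, hy⟩ := exists_form_of_notMem h.toSForm (W := ⊥) (by simpa using hu0) 1
    obtain ⟨u, hu, b, hb, rfl⟩ := dec y
    rw [h.add_right, hts 1 _ hu' _ hb, add_zero] at hy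
    obtain ⟨g, hg, hg'⟩ := h.exists_st u 1
    obtain ⟨j, hj⟩ := exists_mulVec_mem_of_mem_decompositionStabilizer (hle hg) 1
    have h5 := hj u' hu'
    rw [hg', hy, mul_one, one_smul] at h5
    fin_cases j
    · simpa [h.add_left, h.alt, hy] using hts 0 _ h5 u hu
    · simpa [h.add_right, h.alt, hy] using hts 1 u' hu' _ h5

end Cfsg.Lib.Symp
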