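import Cfsg.Agent.Lib.Symp.MaxSubfield

/-!
# Subfield subgroups of symplectic groups in characteristic two (dimension at least four)
-/

namespace Cfsg.Lib.Symp

open Matrix Module Cfsg.Geo Cfsg.Lib.Asch Cfsg.Lib.Linear
open scoped MatrixGroups

variable {ι : Type} [Fintype ι] [DecidableEq ι] {F : Type*} [Field F] {F₀ : Subfield F}
  {f : (ι → F) → (ι → F) → F} {M : Subgroup (GL ι F)}

theorem Alt.eq_of_st_eq (h : Alt f) (h2 : (1 : F) + 1 = 0) {x y : ι → F} (hx : x ≠ 0)
    (h1 : ∀ v, f v y • y = f v x • x) : y = x := by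
  obtain ⟨v, hv⟩ := exists_form_ne_zero h.toSForm hx
  have h3 : x = (f v y / f v x) • y := by
    rw [div_eq_inv_mul, mul_smul, h1, inv_smul_smul₀ hv]
  generalize f v y / f v x = c at h3
  subst h3
  have hy : y ≠ 0 := fun h0 => hx (by rw [h0, smul_zero])
  obtain ⟨w, hw⟩ := exists_form_ne_zero h.toSForm hy
  have h4 := smul_left_injective F hy (show f w y • y = (c * f w y * c) • y by
    rw [h1, h.smul_right', smul_smul])
  have h5 : (c - 1) ^ 2 = 0 := mul_left_cancel₀ hw (by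
    linear_combination -h4 + f w y * (1 - c) * h2)
  rw [sub_eq_zero.1 (pow_eq_zero_iff two_ne_zero |>.1 h5), one_smul]

/-- Two non-commuting transvections in characteristic two are conjugate in the dihedral group
they generate. -/
theorem exists_swap_two [Finite F] (h : Alt f) (h2 : (1 : F) + 1 = 0) {x y : ι → F}
    (hx : Ei M f x 0 1) (hy : Ei M f y 0 1) (hxy : f x y ≠ 0) :
    ∃ w ∈ M, w ∈ iso f ∧ w.1 *ᵥ y = x ∧ ∀ z, f z x = 0 → f z y = 0 → w.1 *ᵥ z = z := by
  obtain ⟨a, ha, hai, ha'⟩ := hx.exists_iso h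
  obtain ⟨b, hb, hbi, hb'⟩ := hy.exists_iso h
  simp only [smul_zero, add_zero, h.zero_right, zero_add, one_mul] at ha' hb'
  have sq : ∀ (a : GL ι F) (x : ι → F), (∀ v, a.1 *ᵥ v = v + f v x • x) → a * a = 1 :=
    fun a x ha => GL_ext_mulVec fun v => by
      rw [GL_mul_mulVec, ha, ha, h.add_left, h.smul_left, h.alt, mul_zero, add_zero, add_assoc,
        ← add_smul, ← mul_one (f v x), ← mul_add, h2, mul_zero, zero_smul, add_zero, Units.val_one,
        one_mulVec]
  have cj : ∀ (a b : GL ι F) (x y : ι → F), x ≠ 0 → (∀ v, a.1 *ᵥ v = v + f v x • x) →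
      (∀ v, b.1 *ᵥ v = v + f v y • y) → ∀ w ∈ iso f, w * b = a * w → w.1 *ᵥ y = x :=
    fun a b x y hx ha hb w hw h1 => h.eq_of_st_eq h2 hx fun v => by
      have := congrArg (fun g : GL ι F => g.1 *ᵥ ((w⁻¹).1 *ᵥ v)) h1
      simp only [GL_mul_mulVec, GL_mulVec_inv_mulVec] at this
      rwa [ha, hb, mulVec_add, mulVec_smul, ← hw, GL_mulVec_inv_mulVec, add_right_inj] at this
  have hx0 : x ≠ 0 := fun h0 => hxy (by rw [h0, h.zero_left])
  have hy0 : y ≠ 0 := fun h0 => hxy (by rw [h0, h.zero_right])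
  have ha2 := sq a x ha'
  have hb2 := sq b y hb'
  have hi : ∀ n : ℕ, (a * b) ^ n ∈ iso f := fun n => pow_mem (mul_mem hai hbi) n
  have hfix : ∀ n : ℕ, ∀ z, f z x = 0 → f z y = 0 → ((a * b) ^ n).1 *ᵥ z = z := fun n z h3 h4 => by
    induction n with
    | zero => simp
    | succ n ih => rw [pow_succ, GL_mul_mulVec, GL_mul_mulVec, hb', h4, zero_smul, add_zero, ha',
        h3, zero_smul, add_zero, ih]
  have hab : (a * b)⁻¹ = b * a := by
    rw [_root_.mul_inv_rev, inv_eq_of_mul_eq_one_right ha2, inv_eq_of_mul_eq_one_right hb2]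
  have h3 : ∀ n : ℕ, (a * b) ^ n * a = a * ((a * b) ^ n)⁻¹ := fun n => by
    rw [← inv_pow, hab]
    exact (SemiconjBy.pow_right (show SemiconjBy a (b * a) (a * b) from
      (mul_assoc _ _ _).symm) n).symm
  have h4 : ∀ n : ℕ, (a * b) ^ n * b = b * ((a * b) ^ n)⁻¹ := fun n => by
    rw [← inv_pow, hab]
    refine (SemiconjBy.pow_right (show SemiconjBy b (b * a) (a * b) from ?_) n).symm
    change b * (b * a) = a * b * b
    rw [← mul_assoc, hb2, mul_assoc, hb2, one_mul, mul_one]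
  have h5 := pow_orderOf_eq_one (a * b)
  obtain ⟨j, hj | hj⟩ := Nat.even_or_odd' (orderOf (a * b))
  · have h0 := orderOf_pos (a * b)
    refine absurd (GL_ext_mulVec fun v => ?_) (pow_ne_one_of_lt_orderOf (x := a * b) (n := j)
      (by omega) (by omega))
    rw [hj, two_mul, pow_add] at h5
    have h6 := inv_eq_of_mul_eq_one_right h5
    have h7 := cj a a x x hx0 ha' ha' _ (hi j) (by rw [h3, h6])
    have h8 := cj b b y y hy0 hb' hb' _ (hi j) (by rw [h4, h6])
    have h9 := hfix j (v - (f v y / f x y) • x + (f v x / f x y) • y)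
      (by rw [h.add_left, h.sub_left, h.smul_left, h.smul_left, h.alt, h.skew y x]; field_simp; ring)
      (by rw [h.add_left, h.sub_left, h.smul_left, h.smul_left, h.alt]; field_simp; ring)
    rw [mulVec_add, mulVec_sub, mulVec_smul, mulVec_smul, h7, h8, add_left_inj, sub_left_inj] at h9
    rw [h9, Units.val_one, one_mulVec]
  · refine ⟨_, pow_mem (mul_mem ha hb) (j + 1), hi _, cj a b x y hx0 ha' hb' _ (hi _) ?_, hfix _⟩
    have h6 : ((a * b) ^ j)⁻¹ = (a * b) ^ (j + 1) := inv_eq_of_mul_eq_one_right (by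
      rw [← pow_add, ← h5, hj]; congr 1; ring)
    rw [pow_succ, mul_assoc, mul_assoc, hb2, mul_one, h3, h6, pow_succ]

theorem RatAlt.iso_le_two [Finite F] {f₀ : (ι → F₀) → (ι → F₀) → F₀} (h : RatAlt f f₀)
    (hc : ringChar F = 2) (h4 : 3 ≤ Fintype.card ι) (hr : (finrank F₀ F).Prime)
    (hM : ((GeneralLinearGroup.map F₀.subtype).range ⊔ scalars ι F) ⊓ iso f ≤ M) (hMi : M ≤ iso f)
    {g : GL ι F} (hg : g ∈ M)
    (hgH : g ∉ (GeneralLinearGroup.map F₀.subtype).range ⊔ scalars ι F) : iso f ≤ M := by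
  have h₀ := h.alt₀
  have hF : (1 : F) + 1 = 0 := by
    have := ringChar.Nat.cast_ringChar (R := F)
    rwa [hc, Nat.cast_succ, Nat.cast_one] at this
  have tr1 : ∀ u x : ι → F₀, u ≠ 0 → x ≠ 0 → ∃ k ∈ M, k ∈ iso f ∧ k.1 *ᵥ cv u = cv x :=
    fun u x hu hx => by
      obtain ⟨k, hk, hk'⟩ := h₀.exists_iso_of_family (fun _ : Unit => u) (fun _ => x)
        (linearIndependent_unique_iff.2 hu) (linearIndependent_unique_iff.2 hx)
        fun _ _ => by rw [h₀.alt, h₀.alt]
      exact ⟨_, hM ⟨Subgroup.mem_sup_left ⟨k, rfl⟩, h.map_mem_iso hk⟩, h.map_mem_iso hk,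
        by rw [map_mulVec_cv, hk' ()]⟩
  have : Nonempty ι := Fintype.card_pos_iff.1 (by omega)
  obtain ⟨e, he⟩ := exists_ne (0 : ι → F₀)
  obtain ⟨e', he'⟩ := exists_form_ne_zero h₀.toSForm he
  have he'0 : e' ≠ 0 := fun h0 => he' (by rw [h0, h₀.zero_left])
  have h00 : f (cv e) (cv e') ≠ 0 := by
    rw [h.skew, neg_ne_zero, h.coe]
    simpa using he'
  let R : Subalgebra F₀ F :=
    { carrier := {b | Ei M f (cv e) 0 b}
      add_mem' := fun ha hb => by simpa [h.zero_left] using Ei.mul h.toAlt ha hb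
      mul_mem' := fun {a b} ha hb => by
        obtain ⟨γ, rfl⟩ := FiniteField.isSquare_of_char_two hc a
        rcases eq_or_ne γ 0 with rfl | hγ
        · simpa using Ei.zero h.toAlt M (cv e)
        have e1 : Ei M f (γ • cv e) 0 1 := Ei.smul h.toAlt (by simpa [sq] using ha) (h.zero_left _)
        obtain ⟨w, hw, hwi, h1, -⟩ := exists_swap_two h.toAlt hF e1
          (h.ei hM (h₀.zero_left e') 1) (by rw [h.smul_left]; exact mul_ne_zero hγ h00)
        obtain ⟨k, hk, hki, h2⟩ := tr1 e e' he he'0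
        have e2 := (Ei.conj hb hk hki).conj hw hwi
        rw [h2, h1, mulVec_zero, mulVec_zero] at e2
        simpa [sq] using e2.of_smul h.toAlt (h.zero_left _)
      algebraMap_mem' := fun c => h.ei hM (u := e) (z := 0) (h₀.zero_left _) c }
  rcases (Subalgebra.isSimpleOrder_of_finrank_prime F₀ F hr).eq_bot_or_eq_top R with hR | hR
  swap
  · have hL : ∀ u : ι → F₀, Lr M f (cv u) := fun u => by
      by_cases hu : u = 0
      · rw [hu]
        exact Lr.zero h.toAlt
      obtain ⟨k, hk, hki, k1⟩ := tr1 e u he hu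
      exact k1 ▸ Lr.conj (fun c => (hR ▸ Algebra.mem_top : c ∈ R)) hk hki
    obtain ⟨a, ha⟩ : ∃ a, a ∉ F₀ := by
      by_contra! hc
      have : finrank F₀ F = 1 :=
        Subalgebra.bot_eq_top_iff_finrank_eq_one.1 (top_le_iff.1 fun x _ => ⟨⟨x, hc x⟩, rfl⟩)
      exact Nat.not_prime_one (this ▸ hr)
    obtain ⟨X, hX, hXL, hX'⟩ := exists_max_lr h.toAlt (big_span_pair
      ⟨a, fun h0 => ha (h0 ▸ F₀.zero_mem), fun h0 => ha (h0 ▸ F₀.one_mem)⟩ h00)
      ((hL _).of_mem_span_pair h.toAlt (hL _) h00)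
    have hXe : cv e ∈ X := hX (Submodule.subset_span (by simp))
    have hXe' : cv e' ∈ X := hX (Submodule.subset_span (by simp))
    have hall : ∀ x : ι → F₀, cv x ∈ X := fun x => (hX' _ (hL x)).elim id fun h4 => by
      rcases hX' _ (hL (x + e')) with h6 | h6
      · simpa using X.sub_mem h6 hXe'
      · exact absurd (by simpa [h.add_right, h4 _ hXe] using h6 _ hXe) h00
    refine h.toAlt.iso_le fun x => hXL x ?_
    rw [← Finset.univ_sum_single x]
    refine X.sum_mem fun i _ => ?_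
    rw [← mul_one (x i), ← smul_eq_mul, Pi.single_smul, ← cv_single (F₀ := F₀)]
    exact X.smul_mem _ (hall _)
  have hR' : ∀ (b : F) (x y : ι → F₀), LinearIndependent F₀ ![x, y] → f₀ x y = 0 →
      Ei M f (cv x) (b • cv y) 0 → b ∈ F₀ := by
    intro b x y hl hxy hb
    have hx0 : x ≠ 0 := hl.ne_zero 0
    obtain ⟨y', y1, y2⟩ := exists_form_of_notMem h₀.toSForm (W := Submodule.span F₀ {x}) (x := y)
      (fun h0 => by
        obtain ⟨c, hc⟩ := Submodule.mem_span_singleton.1 h0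
        exact (LinearIndependent.pair_iff' hx0).1 hl c hc) 1
    replace y1 := y1 x (Submodule.mem_span_singleton_self x)
    have y3 : f₀ y' x = 0 := h₀.map_eq_zero.1 y1
    have y4 : f (cv y') (cv y) = 1 := by
      rw [h.skew, h.coe, y2]
      simpa using (eq_neg_of_add_eq_zero_left hF).symm
    obtain ⟨k, hk, hki, hk'⟩ := hb.exists_iso h.toAlt
    have e1 := h.ei hM (h₀.zero_left y') 1
    have e2 := e1.conj hk hki
    rw [cv_zero, mulVec_zero, show k.1 *ᵥ cv y' = b • cv x + cv y' by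
      rw [hk', h.smul_right', y4]
      simp [h.coe, y3, add_comm]] at e2
    have e3 := (Ei.of_add h.toAlt (u := b • cv x) (by simp [h.smul_right', h.coe, y3])
      e2 e1).of_smul h.toAlt (by simp [h.coe, y3])
    have hl' : LinearIndependent F₀ ![x, y'] := LinearIndependent.pair_iff.2 fun s t hst => by
      have h5 : t = 0 := by
        simpa [h₀.add_right, h₀.smul_right', h₀.zero_right, y2, h₀.map_eq_zero.1 hxy] using
          congrArg (f₀ y) hst
      simpa [h5, hx0] using hst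
    obtain ⟨k, hk, hki, k1, k2⟩ := h.exists_pair hM hl hl' (hxy.trans y1.symm)
    have e4 := hb.conj hk hki
    rw [k1, mulVec_smul, k2] at e4
    have e5 := e3.div h.toAlt e4
    obtain ⟨k, hk, hki, k1⟩ := tr1 x e hx0 he
    have e6 : b ^ 2 ∈ R := show Ei M f (cv e) 0 (b ^ 2) by
      simpa [k1, h.smul_left, h.smul_right', h.alt] using e5.conj hk hki
    rw [hR, Algebra.mem_bot] at e6
    obtain ⟨c, hc'⟩ := e6
    have : ringChar F₀ = 2 := by rw [← hc]; exact Algebra.ringChar_eq F₀ F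
    obtain ⟨d, rfl⟩ := FiniteField.isSquare_of_char_two this c
    have h5 : (b - d) ^ 2 = 0 := by
      have : (d : F) * d = b ^ 2 := hc'
      linear_combination this + (b ^ 2 - b * d) * hF
    rw [sub_eq_zero.1 (pow_eq_zero_iff two_ne_zero |>.1 h5)]
    exact d.2
  refine absurd (mem_subfieldGL_of_forall fun u hu i j => ?_) hgH
  have hv : Ei M f (g.1 *ᵥ u) 0 1 := by
    have := (h.ei hM (h₀.zero_left fun i => ⟨u i, hu i⟩) 1).conj hg (hMi hg)
    rwa [cv_zero, mulVec_zero] at this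
  generalize g.1 *ᵥ u = v at hv
  have orth : ∀ x y : ι → F₀, f₀ x y = 0 → f (cv y) v ≠ 0 → f (cv x) v / f (cv y) v ∈ F₀ := by
    intro x y hxy hy
    by_cases hx : f (cv x) v = 0
    · rw [hx, zero_div]
      exact F₀.zero_mem
    by_cases hl : LinearIndependent F₀ ![y, x]
    · have hyx : f₀ y x = 0 := h₀.map_eq_zero.1 hxy
      obtain ⟨w, hw, hwi, w1, w2⟩ := exists_swap_two h.toAlt hF (h.ei hM (h₀.zero_left x) 1) hv hx
      obtain ⟨w', hw', hwi', w1', w2'⟩ :=
        exists_swap_two h.toAlt hF (h.ei hM (h₀.zero_left y) 1) hv hy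
      set ρ := f (cv x) v / f (cv y) v with hρ
      have z1 : f (cv x - ρ • cv y) v = 0 := by
        rw [h.sub_left, h.smul_left, hρ, div_mul_cancel₀ _ hy, sub_self]
      have z2 := w2 _ (by simp [h.sub_left, h.smul_left, h.alt, h.coe, hyx]) z1
      have z3 := w2' _ (by simp [h.sub_left, h.smul_left, h.alt, h.coe, hxy]) z1
      have k1 : (w * w'⁻¹).1 *ᵥ cv y = cv x := by
        rw [GL_mul_mulVec, ← w1', GL_inv_mulVec_mulVec, w1]
      have k2 : (w * w'⁻¹).1 *ᵥ cv x = -ρ • cv y + (1 + ρ) • cv x := by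
        have : (w * w'⁻¹).1 *ᵥ (cv x - ρ • cv y) = cv x - ρ • cv y := by
          rw [GL_mul_mulVec, ← z3, GL_inv_mulVec_mulVec, z3, z2]
        rw [mulVec_sub, mulVec_smul, k1, sub_eq_iff_eq_add] at this
        rw [this]
        module
      have e1 := (h.ei hM hxy 0).conj (mul_mem hw (inv_mem hw')) (mul_mem hwi (inv_mem hwi'))
      rw [k1, k2] at e1
      have e2 := e1.add_smul h.toAlt (-(1 + ρ))
      rw [add_assoc, ← add_smul, add_neg_cancel, zero_smul, add_zero,
        show ((0 : F₀) : F) - 2 * -(1 + ρ) = 0 by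
          simp only [ZeroMemClass.coe_zero]; linear_combination (1 + ρ) * hF] at e2
      simpa using F₀.neg_mem (hR' _ x y (LinearIndependent.pair_symm_iff.1 hl) hxy e2)
    · rw [LinearIndependent.pair_iff' fun h0 => hy (by rw [h0, cv_zero, h.zero_left])] at hl
      push Not at hl
      obtain ⟨a, rfl⟩ := hl
      rw [cv_smul, h.smul_left, mul_div_cancel_right₀ _ hy]
      exact a.2
  obtain ⟨x, hx⟩ := h.exists_coord i
  obtain ⟨y, hy⟩ := h.exists_coord j
  rw [← hx v, ← hy v]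
  by_cases hyv : f (cv y) v = 0
  · rw [hyv, div_zero]
    exact F₀.zero_mem
  obtain ⟨y', y1, y2, y3⟩ : ∃ y', f₀ y' y = 0 ∧ y ∉ Submodule.span F₀ {y'} ∧ f (cv y') v ≠ 0 := by
    have d1 := card_le_finrank_dotKer (dv (RingHom.id F₀) f₀ y)
    have d2 := finrank_span_singleton_le (F := F₀) y
    obtain ⟨w, hw, hw'⟩ := exists_mem_notMem_of_finrank_lt (W := dotKer (dv (RingHom.id F₀) f₀ y))
      (U := Submodule.span F₀ {y}) (by omega)
    rw [mem_dotKer, dv_dot h₀.toSForm] at hw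
    have hy0 : y ≠ 0 := fun h0 => hyv (by rw [h0, cv_zero, h.zero_left])
    have aux : ∀ c : F₀, y ∉ Submodule.span F₀ {w + c • y} := fun c hm => by
      obtain ⟨d, hd⟩ := Submodule.mem_span_singleton.1 hm
      have hd0 : d ≠ 0 := fun h0 => hy0 (by rw [← hd, h0, zero_smul])
      refine hw' (Submodule.mem_span_singleton.2 ⟨d⁻¹ - c, ?_⟩)
      rw [sub_smul, sub_eq_iff_eq_add, inv_smul_eq_iff₀ hd0, hd]
    by_cases hwv : f (cv w) v = 0
    · exact ⟨w + (1 : F₀) • y, by simp [h₀.add_left, hw, h₀.alt], aux 1,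
        by simpa [h.add_left, hwv] using hyv⟩
    · exact ⟨w, hw, by simpa using aux 0, hwv⟩
  obtain ⟨t, t1, t2⟩ := exists_form_of_notMem h₀.toSForm y2 (f₀ y x)
  have t3 := t1 y' (Submodule.mem_span_singleton_self y')
  have a1 := orth (x - t) y (by rw [h₀.map_eq_zero, h₀.sub_right, t2, sub_self]) hyv
  have a2 := F₀.mul_mem (orth t y' (h₀.map_eq_zero.1 t3) y3) (orth y' y y1 hyv)
  rw [div_mul_div_cancel₀ y3] at a2
  convert F₀.add_mem a1 a2 using 1
  rw [cv_sub, h.sub_left]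
  ring

theorem isMaximalIn_subfield_two [Finite F] (h : Alt f) (hc : ringChar F = 2)
    (h5 : 3 ≤ Fintype.card ι) (hr : (finrank F₀ F).Prime) {P : GL ι F} {ζ : F} (hζ : ζ ≠ 0)
    (hP : IsFormRationalStructure f F₀ ζ P) :
    IsMaximalIn (iso f) (subfieldSubgroup F₀ P ⊓ iso f) := by
  let f' : (ι → F) → (ι → F) → F := fun x y => ζ * f (P.1 *ᵥ x) (P.1 *ᵥ y)
  have h' : RatAlt f' fun x y => ⟨_, hP (cv x) (cv y) (fun i => (x i).2) fun i => (y i).2⟩ :=
    { add_left := fun x y v => by simp [f', mulVec_add, h.add_left, mul_add]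
      smul_left := fun c x v => by simp [f', mulVec_smul, h.smul_left, mul_left_comm]
      herm := fun u v => by simp [f', h.skew (P.1 *ᵥ u)]
      nondeg := fun v hv => GL_mulVec_injective P (by
        simpa using h.nondeg (P.1 *ᵥ v) fun x => by
          simpa [f', hζ, GL_mulVec_inv_mulVec] using hv ((P⁻¹).1 *ᵥ x))
      invol := fun _ => rfl
      eps := by simp
      alt := fun x => by simp [f', h.alt]
      coe := fun _ _ => rfl }
  have h1 : (iso f').map (MulAut.conj P : GL ι F →* GL ι F) = iso f := by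
    ext g
    refine Subgroup.mem_map_equiv.trans ⟨fun hg x y => ?_, fun hg x y => ?_⟩
    · simpa [f', hζ, ← GL_mul_mulVec, GL_mulVec_inv_mulVec] using hg ((P⁻¹).1 *ᵥ x) ((P⁻¹).1 *ᵥ y)
    · simp only [f', MulAut.conj_symm_apply, GL_mul_mulVec, GL_mulVec_inv_mulVec]
      rw [hg]
  have h2 := isMaximalIn_map (MulAut.conj P) (isMaximalIn_inf (K := iso f') (fun hle => ?_)
    fun M hM hMi g hg hgH => h'.iso_le_two hc h5 hr hM hMi hg hgH)
  · rwa [Subgroup.map_inf _ _ _ (MulAut.conj P).injective, h1] at h2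
  obtain ⟨b, hb⟩ : ∃ b, b ∉ F₀ := by
    by_contra! hc
    have : finrank F₀ F = 1 :=
      Subalgebra.bot_eq_top_iff_finrank_eq_one.1 (top_le_iff.1 fun x _ => ⟨⟨x, hc x⟩, rfl⟩)
    exact Nat.not_prime_one (this ▸ hr)
  obtain ⟨i, j, hij⟩ := Fintype.exists_pair_of_one_lt_card (α := ι) (by omega)
  obtain ⟨y, hy⟩ := h'.exists_coord i
  obtain ⟨g, hg, hg'⟩ := h'.exists_st (cv y) b
  obtain ⟨_, ⟨x, rfl⟩, _, ⟨c, rfl⟩, h2⟩ := Subgroup.mem_sup_of_normal_right.1 (hle hg)
  have h3 : ∀ z : ι → F₀, (c : F) • cv (x.1 *ᵥ z) = cv z - (b * z i) • cv y := fun z => by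
    have := hg' (cv z)
    have h4 : ∀ s : GL ι F, s.1 = scalar ι (c : F) → s.1 *ᵥ cv z = (c : F) • cv z := fun s hs => by
      ext l
      simp [hs, mulVec_diagonal]
    rw [← h2, GL_mul_mulVec, h4 _ rfl, mulVec_smul, map_mulVec_cv, h'.skew, hy] at this
    rw [this, mul_neg, neg_smul, sub_eq_add_neg]
    rfl
  have hc : (c : F) ∈ F₀ := by
    have h4 := congrFun (h3 (Pi.single j 1)) j
    simp [cv, hij] at h4
    rw [eq_inv_of_mul_eq_one_left h4]
    exact F₀.inv_mem (x.1 j j).2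
  obtain ⟨l, hl⟩ : ∃ l, y l ≠ 0 := Function.ne_iff.1 fun h0 : y = 0 => by
    simpa [h0, h'.zero_left] using hy (Pi.single i 1)
  have h4 := congrFun (h3 (Pi.single i 1)) l
  simp only [cv, Pi.single_eq_same, OneMemClass.coe_one, mul_one, Pi.smul_apply, smul_eq_mul,
    Pi.sub_apply] at h4
  have h6 : b = ((Pi.single i 1 : ι → F₀) l - c * (x.1 *ᵥ Pi.single i 1) l) / y l := by
    rw [eq_div_iff (by simpa using hl), h4]
    ring
  exact hb (h6 ▸ F₀.div_mem (F₀.sub_mem (Subtype.prop _) (F₀.mul_mem hc (Subtype.prop _)))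
    (Subtype.prop _))

end Cfsg.Lib.Symp
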