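import Cfsg.Agent.Lib.Symp.MaxSubfield

/-!
# Subfield subgroups are maximal in `Sp` in odd characteristic, dimension at least four
-/

namespace Cfsg.Lib.Symp

open Matrix Module Cfsg.Geo Cfsg.Lib.Asch Cfsg.Lib.Linear
open scoped MatrixGroups

variable {ι : Type} [Fintype ι] [DecidableEq ι] {F : Type*} [Field F] {F₀ : Subfield F}
  {f : (ι → F) → (ι → F) → F} {M : Subgroup (GL ι F)}

theorem Alt.exists_double (h : Alt f) (h6 : 3 ≤ Fintype.card ι) : ∃ e e' : Fin 2 → ι → F,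
    (∀ i j, f (e i) (e' j) = if i = j then 1 else 0) ∧ (∀ i j, f (e i) (e j) = 0) ∧
      ∀ i j, f (e' i) (e' j) = 0 := by
  obtain ⟨m, b, h1, h2, h3⟩ := exists_symplectic_basis h.isAlt h.nondegenerate
  have h4 := finrank_eq_card_basis b
  simp only [finrank_fintype_fun_eq_card, Fintype.card_sum, Fintype.card_fin] at h4
  have hm : 2 ≤ m := by omega
  exact ⟨fun i => b (Sum.inl (Fin.castLE hm i)), fun i => b (Sum.inr (Fin.castLE hm i)),
    fun i j => by simpa using h1 (Fin.castLE hm i) (Fin.castLE hm j), fun i j => h2 _ _,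
    fun i j => h3 _ _⟩

theorem Ei.comm (h : Alt f) {u z z' : ι → F} {c c' : F} (he : Ei M f u z c) (he' : Ei M f u z' c') :
    Ei M f u 0 (2 * f z z') := by
  convert (he'.mul h he).div h (he.mul h he') using 1
  · abel
  · simp only [h.add_left, h.add_right, h.alt, h.skew z' z]
    ring

theorem RatAlt.iso_le_odd [Finite F] {f₀ : (ι → F₀) → (ι → F₀) → F₀} (h : RatAlt f f₀)
    (h20 : (2 : F) ≠ 0) (h5 : 3 ≤ Fintype.card ι) (hr : (finrank F₀ F).Prime)
    (hM : ((GeneralLinearGroup.map F₀.subtype).range ⊔ scalars ι F) ⊓ iso f ≤ M) (hMi : M ≤ iso f)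
    {g : GL ι F} (hg : g ∈ M)
    (hgH : g ∉ (GeneralLinearGroup.map F₀.subtype).range ⊔ scalars ι F) : iso f ≤ M := by
  have h₀ := h.alt₀
  obtain ⟨e, e', h1, h2, h3⟩ := h₀.exists_double h5
  have h1' : ∀ i j, f₀ (e' i) (e j) = if i = j then -1 else 0 := fun i j => by
    rw [h₀.skew, h1]
    simp [eq_comm, apply_ite]
  have li : ∀ i j, i ≠ j → LinearIndependent F₀ ![e i, e j] := fun i j hij =>
    h₀.linearIndependent_pair (x' := e' i) (y' := e' j) (by simp [h1]) (by simp [h1, hij.symm])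
      (by simp [h1])
  have trans : ∀ {b : F} {u x u' x' : ι → F₀}, LinearIndependent F₀ ![u, x] → f₀ u x = 0 →
      Ei M f (cv u) (b • cv x) 0 → LinearIndependent F₀ ![u', x'] → f₀ u' x' = 0 →
      Ei M f (cv u') (b • cv x') 0 := fun l1 o1 he l2 o2 => by
    obtain ⟨k, hk, hki, k1, k2⟩ := h.exists_pair hM l1 l2 (o1.trans o2.symm)
    simpa only [mulVec_smul, k1, k2] using he.conj hk hki
  have l01 : LinearIndependent F₀ ![e 0, e' 1] :=
    h₀.linearIndependent_pair (x' := e' 0) (y' := e 1) (by simp [h1]) (h3 _ _) (by simp [h1'])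
  have conj0 : ∀ u : ι → F₀, u ≠ 0 → ∃ k ∈ M, k ∈ iso f ∧ k.1 *ᵥ cv (e 0) = cv u := fun u hu => by
    obtain ⟨x, hx⟩ := exists_form_ne_zero h₀.toSForm hu
    rw [Ne, h₀.map_eq_zero] at hx
    obtain ⟨k, hk, hki, k1, -⟩ := h.exists_pair hM (u := e 0) (x := f₀ u x • e' 0) (u' := u)
      (x' := x) (linearIndependent_pair_of_ne_zero h₀.isAlt (by
        simpa [h₀.smul_right', h1] using hx))
      (linearIndependent_pair_of_ne_zero h₀.isAlt hx)
      (by simp [h₀.smul_right', h1])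
    exact ⟨k, hk, hki, k1⟩
  have h20' : (2 : F₀) ≠ 0 := fun h0 => h20 (congrArg Subtype.val h0)
  have short : ∀ c, Ei M f (cv (e 0)) 0 (2 * c) → Ei M f (cv (e 0)) (c • cv (e 1)) 0 :=
    fun c hc => by
    obtain ⟨k, hk, hki, k1⟩ := conj0 (e 1) ((li 1 0 (by simp)).ne_zero 0)
    have e1 := hc.conj hk hki
    rw [k1, mulVec_zero] at e1
    have e2 := ((h.ei hM (u := e 0) (z := e' 1) (by simp [h1']) 0).conj_div h.toAlt e1
      (by simp [h.coe, h2]) (h.zero_right _)).mul h.toAlt hc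
    refine trans (u := e 0) (x := (-2 : F₀) • e 1) (h₀.linearIndependent_pair (x' := e' 0)
      (y' := e' 1) (by simp [h1]) (by simp [h₀.neg_left, h₀.smul_left, h1])
      (by simp [h₀.neg_left, h₀.smul_left, h1, h20']))
      (by rw [h₀.smul_right', h2, mul_zero]) ?_ (li 0 1 (by simp)) (h2 _ _)
    convert e2 using 1
    · simp only [h.coe, h1', h.zero_right, cv_smul, show ((-2 : F₀) : F) = -2 from rfl]
      simp
      module
    · simp [h.coe, h1', h.zero_right, h.zero_left]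
  let R : Subalgebra F₀ F :=
    { carrier := {b | Ei M f (cv (e 0)) (b • cv (e 1)) 0}
      add_mem' := fun ha hb => by
        simpa [add_smul, h.smul_left, h.smul_right', h.alt] using Ei.mul h.toAlt ha hb
      mul_mem' := fun {a b} ha hb => short _ (by
        simpa [h.coe, h.smul_right', h.smul_left, h1, mul_comm a b] using
          Ei.comm h.toAlt ha (trans (li 0 1 (by simp)) (h2 _ _) hb l01 (by simp [h1])))
      algebraMap_mem' := fun c =>
        h.ei hM (u := e 0) (z := c • e 1) (by simp [h₀.smul_left, h2]) 0 }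
  rcases (Subalgebra.isSimpleOrder_of_finrank_prime F₀ F hr).eq_bot_or_eq_top R with hR | hR
  swap
  · have hR' : ∀ (b : F) (u x : ι → F₀), LinearIndependent F₀ ![u, x] → f₀ u x = 0 →
        Ei M f (cv u) (b • cv x) 0 := fun b u x =>
      trans (li 0 1 (by simp)) (h2 _ _) (hR ▸ Algebra.mem_top : b ∈ R)
    have hL0 : Lr M f (cv (e 0)) := fun c => by
      convert Ei.comm h.toAlt (hR' (c / 2) _ _ (li 0 1 (by simp)) (h2 _ _))
        (hR' 1 _ _ l01 (by simp [h1])) using 1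
      simp [h.smul_left, h.coe, h1]
      field_simp
    have hL : ∀ u : ι → F₀, Lr M f (cv u) := fun u => by
      by_cases hu : u = 0
      · rw [hu]
        exact Lr.zero h.toAlt
      obtain ⟨k, hk, hki, k1⟩ := conj0 u hu
      exact k1 ▸ hL0.conj hk hki
    obtain ⟨a, ha⟩ : ∃ a, a ∉ F₀ := by
      by_contra! hc
      have : finrank F₀ F = 1 :=
        Subalgebra.bot_eq_top_iff_finrank_eq_one.1 (top_le_iff.1 fun x _ => ⟨⟨x, hc x⟩, rfl⟩)
      exact Nat.not_prime_one (this ▸ hr)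
    have h00 : f (cv (e 0)) (cv (e' 0)) ≠ 0 := by simp [h.coe, h1]
    obtain ⟨X, hX, hXL, hX'⟩ := exists_max_lr h.toAlt (big_span_pair
      ⟨a, fun h0 => ha (h0 ▸ F₀.zero_mem), fun h0 => ha (h0 ▸ F₀.one_mem)⟩ h00)
      ((hL _).of_mem_span_pair h.toAlt (hL _) h00)
    have hXe : cv (e 0) ∈ X := hX (Submodule.subset_span (by simp))
    have hXe' : cv (e' 0) ∈ X := hX (Submodule.subset_span (by simp))
    have hall : ∀ x : ι → F₀, cv x ∈ X := fun x => (hX' _ (hL x)).elim id fun h4 => by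
      rcases hX' _ (hL (x + e' 0)) with h6 | h6
      · simpa using X.sub_mem h6 hXe'
      · exact absurd (by simpa [h.add_right, h4 _ hXe] using h6 _ hXe) h00
    refine h.toAlt.iso_le fun x => hXL x ?_
    rw [← Finset.univ_sum_single x]
    refine X.sum_mem fun i _ => ?_
    rw [← mul_one (x i), ← smul_eq_mul, Pi.single_smul, ← cv_single (F₀ := F₀)]
    exact X.smul_mem _ (hall _)
  have hR' : ∀ c : F, Ei M f (cv (e 0)) 0 c → c ∈ F₀ := by
    intro c hc
    have : c / 2 ∈ R := short _ (by rwa [mul_div_cancel₀ _ h20])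
    rw [hR, Algebra.mem_bot] at this
    obtain ⟨d, hd⟩ := this
    rw [← mul_div_cancel₀ c h20, ← hd]
    exact F₀.mul_mem (ofNat_mem F₀ 2) d.2
  have claim : ∀ v, Ei M f v 0 1 → f (cv (e 0)) v ≠ 0 → f (cv (e 1)) v ≠ 0 →
      f (cv (e 0)) v / f (cv (e 1)) v ∈ F₀ ∨ (f (cv (e 0)) v / f (cv (e 1)) v) ^ 2 ∈ F₀ := by
    intro v hv a0 a1
    have sw : ∀ i, f (cv (e i)) v ≠ 0 → ∃ w ∈ M, ∃ γ : F, γ ≠ 0 ∧ w.1 *ᵥ v = γ • cv (e i) ∧
        ∀ x, f x v = 0 → f x (cv (e i)) = 0 → w.1 *ᵥ x = x := fun i hi => by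
      obtain ⟨w, hw, γ, hγ, h4, h6, -⟩ := ((h.ei hM (h₀.zero_left (e i)) 1).tv h.toAlt).exists_swap
        (hv.tv h.toAlt) (by simpa [dv_dot h.toSForm] using hi)
        (by simpa [dv_dot h.toSForm, h.skew v] using hi)
      exact ⟨w, hw, γ, hγ, h4, fun x h7 h8 => h6 x (by simp [dv_dot h.toSForm, h7])
        (by simp [dv_dot h.toSForm, h8])⟩
    obtain ⟨w, hw, γ, hγ, hwv, hfix⟩ := sw 0 a0
    obtain ⟨w', hw', γ', hγ', hwv', hfix'⟩ := sw 1 a1
    have hk := M.mul_mem hw (M.inv_mem hw')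
    have k1 : (w * w'⁻¹).1 *ᵥ cv (e 1) = (γ'⁻¹ * γ) • cv (e 0) := by
      rw [GL_mul_mulVec, ← inv_smul_smul₀ hγ' (cv (e 1)), ← hwv', mulVec_smul,
        GL_inv_mulVec_mulVec, mulVec_smul, hwv, smul_smul]
    have key : ∀ i, Ei M f (cv (e 0)) ((γ'⁻¹ * γ) • (cv (e i) -
        (f (cv (e i)) v / f (cv (e 1)) v) • cv (e 1) +
        (f (cv (e i)) v / f (cv (e 1)) v * (γ'⁻¹ * γ)) • cv (e 0))) 0 := fun i => by
      have e1 := (h.ei hM (h2 i 1) 0).conj hk (hMi hk)
      set z := cv (e i) - (f (cv (e i)) v / f (cv (e 1)) v) • cv (e 1) with hz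
      have hz1 : f z v = 0 := by rw [hz, h.sub_left, h.smul_left, div_mul_cancel₀ _ a1, sub_self]
      have hz2 : ∀ j, f z (cv (e j)) = 0 := fun j => by
        simp [hz, h.sub_left, h.smul_left, h.coe, h2]
      have k2 : (w * w'⁻¹).1 *ᵥ z = z := by
        rw [GL_mul_mulVec, ← hfix' z hz1 (hz2 1), GL_inv_mulVec_mulVec, hfix' z hz1 (hz2 1),
          hfix z hz1 (hz2 0)]
      rw [k1, eq_add_of_sub_eq hz.symm, mulVec_add, k2, mulVec_smul, k1, smul_smul] at e1
      simpa using e1.of_smul h.toAlt (by simp [h.add_left, h.smul_left, hz2, h.alt])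
    have hκ : γ'⁻¹ * γ ≠ 0 := mul_ne_zero (inv_ne_zero hγ') hγ
    have k0 := key 0
    have b0 : (γ'⁻¹ * γ) ^ 2 ∈ F₀ := by
      have e1 := (h.ei hM (h₀.zero_left (e 1)) 1).conj hk (hMi hk)
      rw [k1, cv_zero, mulVec_zero] at e1
      simpa using hR' _ (by simpa using e1.of_smul h.toAlt (h.zero_left _))
    generalize γ'⁻¹ * γ = κ at *
    generalize f (cv (e 0)) v / f (cv (e 1)) v = ρ at *
    have b1 : κ * ρ ∈ F₀ := by
      have := hR' _ (k0.comm h.toAlt (h.ei hM (u := e 0) (z := e' 1) (by simp [h1']) 0))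
      simp only [h.smul_left, h.add_left, h.sub_left, h.coe, h1] at this
      have := F₀.div_mem (F₀.neg_mem this) (ofNat_mem F₀ 2)
      convert this using 1
      simp
      field_simp
    have b2 := hR' _ (by
      have := ((k0.add_smul h.toAlt (-(κ * (1 + ρ * κ)))).mul h.toAlt (h.ei hM (u := e 0)
        (z := (⟨_, b1⟩ : F₀) • e 1) (by simp [h₀.smul_left, h2]) 0))
      rwa [show κ • (cv (e 0) - ρ • cv (e 1) + (ρ * κ) • cv (e 0)) + -(κ * (1 + ρ * κ)) • cv (e 0) +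
        cv ((⟨_, b1⟩ : F₀) • e 1) = 0 by rw [cv_smul]; module] at this)
    simp only [cv_smul, h.smul_left, h.smul_right', h.add_right, h.sub_right, h.coe, h2] at b2
    by_cases b3 : 1 + ρ * κ = 0
    · refine Or.inr ?_
      convert F₀.inv_mem b0 using 1
      field_simp
      linear_combination (ρ * κ - 1) * b3
    · refine Or.inl ?_
      have b4 := F₀.div_mem b2 (F₀.mul_mem (ofNat_mem F₀ 2) (F₀.add_mem F₀.one_mem b1))
      convert F₀.div_mem b1 b4 using 1
      have b5 : 1 + κ * ρ ≠ 0 := by rwa [mul_comm]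
      simp
      field_simp
  refine absurd (mem_subfieldGL_of_forall fun u hu i j => ?_) hgH
  have hv : Ei M f (g.1 *ᵥ u) 0 1 := by
    have := (h.ei hM (h₀.zero_left fun i => ⟨u i, hu i⟩) 1).conj hg (hMi hg)
    rwa [cv_zero, mulVec_zero] at this
  generalize g.1 *ᵥ u = v at hv
  have orth' : ∀ x y : ι → F₀, f₀ x y = 0 → f (cv y) v ≠ 0 →
      f (cv x) v / f (cv y) v ∈ F₀ ∨ (f (cv x) v / f (cv y) v) ^ 2 ∈ F₀ := by
    intro x y hxy hy
    by_cases hx : f (cv x) v = 0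
    · rw [hx, zero_div]
      exact Or.inl F₀.zero_mem
    by_cases hl : LinearIndependent F₀ ![y, x]
    · obtain ⟨k, hk, hki, k1, k2⟩ := h.exists_pair hM (LinearIndependent.pair_symm_iff.1 hl)
        (li 0 1 (by simp)) (hxy.trans (h2 _ _).symm)
      have := claim (k.1 *ᵥ v) (by simpa using hv.conj hk hki) (by rwa [← k1, hki])
        (by rwa [← k2, hki])
      rwa [← k1, ← k2, hki, hki] at this
    · rw [LinearIndependent.pair_iff' fun h0 => hy (by rw [h0, cv_zero, h.zero_left])] at hl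
      push Not at hl
      obtain ⟨a, rfl⟩ := hl
      rw [cv_smul, h.smul_left, mul_div_cancel_right₀ _ hy]
      exact Or.inl a.2
  have orth : ∀ x y : ι → F₀, f₀ x y = 0 → f (cv y) v ≠ 0 → f (cv x) v / f (cv y) v ∈ F₀ := by
    intro x y hxy hy
    have a1 := orth' (x + y) y (by rw [h₀.add_left, hxy, h₀.alt, add_zero]) hy
    rw [cv_add, h.add_left, add_div, div_self hy] at a1
    refine (orth' x y hxy hy).elim id fun a2 => a1.elim (fun a1 => ?_) fun a1 => ?_
    · simpa using F₀.sub_mem a1 F₀.one_mem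
    · convert F₀.div_mem (F₀.sub_mem (F₀.sub_mem a1 a2) F₀.one_mem) (ofNat_mem F₀ 2) using 1
      field_simp
      ring
  obtain ⟨x, hx⟩ := h.exists_coord i
  obtain ⟨y, hy⟩ := h.exists_coord j
  rw [← hx v, ← hy v]
  by_cases hyv : f (cv y) v = 0
  · rw [hyv, div_zero]
    exact F₀.zero_mem
  obtain ⟨y', y1, y2, y3⟩ : ∃ y', f₀ y' y = 0 ∧ y ∉ Submodule.span F₀ {y'} ∧ f (cv y') v ≠ 0 := by
    have d1 := card_le_finrank_dotKer (dv (RingHom.id F₀) f₀ y)
    have d2 := finrank_span_singleton_le (F := F₀) y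
    obtain ⟨w, hw, hw'⟩ := exists_mem_notMem_of_finrank_lt (W := dotKer (dv (RingHom.id F₀) f₀ y))
      (U := Submodule.span F₀ {y}) (by omega)
    rw [mem_dotKer, dv_dot h₀.toSForm] at hw
    have hy0 : y ≠ 0 := fun h0 => hyv (by rw [h0, cv_zero, h.zero_left])
    have aux : ∀ c : F₀, y ∉ Submodule.span F₀ {w + c • y} := fun c hm => by
      obtain ⟨d, hd⟩ := Submodule.mem_span_singleton.1 hm
      have hd0 : d ≠ 0 := fun h0 => hy0 (by rw [← hd, h0, zero_smul])
      refine hw' (Submodule.mem_span_singleton.2 ⟨d⁻¹ - c, ?_⟩)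
      rw [sub_smul, sub_eq_iff_eq_add, inv_smul_eq_iff₀ hd0, hd]
    by_cases hwv : f (cv w) v = 0
    · exact ⟨w + (1 : F₀) • y, by simp [h₀.add_left, hw, h₀.alt], aux 1,
        by simpa [h.add_left, hwv] using hyv⟩
    · exact ⟨w, hw, by simpa using aux 0, hwv⟩
  obtain ⟨t, t1, t2⟩ := exists_form_of_notMem h₀.toSForm y2 (f₀ y x)
  have t3 := t1 y' (Submodule.mem_span_singleton_self y')
  have a1 := orth (x - t) y (by rw [h₀.map_eq_zero, h₀.sub_right, t2, sub_self]) hyv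
  have a2 := F₀.mul_mem (orth t y' (h₀.map_eq_zero.1 t3) y3) (orth y' y y1 hyv)
  rw [div_mul_div_cancel₀ y3] at a2
  convert F₀.add_mem a1 a2 using 1
  rw [cv_sub, h.sub_left]
  ring

theorem isMaximalIn_subfield_odd [Finite F] (h : Alt f) (h20 : (2 : F) ≠ 0)
    (h5 : 3 ≤ Fintype.card ι)
    (hr : (finrank F₀ F).Prime) {P : GL ι F} {ζ : F} (hζ : ζ ≠ 0)
    (hP : IsFormRationalStructure f F₀ ζ P) :
    IsMaximalIn (iso f) (subfieldSubgroup F₀ P ⊓ iso f) := by
  let f' : (ι → F) → (ι → F) → F := fun x y => ζ * f (P.1 *ᵥ x) (P.1 *ᵥ y)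
  have h' : RatAlt f' fun x y => ⟨_, hP (cv x) (cv y) (fun i => (x i).2) fun i => (y i).2⟩ :=
    { add_left := fun x y v => by simp [f', mulVec_add, h.add_left, mul_add]
      smul_left := fun c x v => by simp [f', mulVec_smul, h.smul_left, mul_left_comm]
      herm := fun u v => by simp [f', h.skew (P.1 *ᵥ u)]
      nondeg := fun v hv => GL_mulVec_injective P (by
        simpa using h.nondeg (P.1 *ᵥ v) fun x => by
          simpa [f', hζ, GL_mulVec_inv_mulVec] using hv ((P⁻¹).1 *ᵥ x))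
      invol := fun _ => rfl
      eps := by simp
      alt := fun x => by simp [f', h.alt]
      coe := fun _ _ => rfl }
  have h1 : (iso f').map (MulAut.conj P : GL ι F →* GL ι F) = iso f := by
    ext g
    refine Subgroup.mem_map_equiv.trans ⟨fun hg x y => ?_, fun hg x y => ?_⟩
    · simpa [f', hζ, ← GL_mul_mulVec, GL_mulVec_inv_mulVec] using hg ((P⁻¹).1 *ᵥ x) ((P⁻¹).1 *ᵥ y)
    · simp only [f', MulAut.conj_symm_apply, GL_mul_mulVec, GL_mulVec_inv_mulVec]
      rw [hg]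
  have h2 := isMaximalIn_map (MulAut.conj P) (isMaximalIn_inf (K := iso f') (fun hle => ?_)
    fun M hM hMi g hg hgH => h'.iso_le_odd h20 h5 hr hM hMi hg hgH)
  · rwa [Subgroup.map_inf _ _ _ (MulAut.conj P).injective, h1] at h2
  obtain ⟨b, hb⟩ : ∃ b, b ∉ F₀ := by
    by_contra! hc
    have : finrank F₀ F = 1 :=
      Subalgebra.bot_eq_top_iff_finrank_eq_one.1 (top_le_iff.1 fun x _ => ⟨⟨x, hc x⟩, rfl⟩)
    exact Nat.not_prime_one (this ▸ hr)
  obtain ⟨i, j, hij⟩ := Fintype.exists_pair_of_one_lt_card (α := ι) (by omega)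
  obtain ⟨y, hy⟩ := h'.exists_coord i
  obtain ⟨g, hg, hg'⟩ := h'.exists_st (cv y) b
  obtain ⟨_, ⟨x, rfl⟩, _, ⟨c, rfl⟩, h2⟩ := Subgroup.mem_sup_of_normal_right.1 (hle hg)
  have h3 : ∀ z : ι → F₀, (c : F) • cv (x.1 *ᵥ z) = cv z - (b * z i) • cv y := fun z => by
    have := hg' (cv z)
    have h4 : ∀ s : GL ι F, s.1 = scalar ι (c : F) → s.1 *ᵥ cv z = (c : F) • cv z := fun s hs => by
      ext l
      simp [hs, mulVec_diagonal]
    rw [← h2, GL_mul_mulVec, h4 _ rfl, mulVec_smul, map_mulVec_cv, h'.skew, hy] at this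
    rw [this, mul_neg, neg_smul, sub_eq_add_neg]
    rfl
  have hc : (c : F) ∈ F₀ := by
    have h4 := congrFun (h3 (Pi.single j 1)) j
    simp [cv, hij] at h4
    rw [eq_inv_of_mul_eq_one_left h4]
    exact F₀.inv_mem (x.1 j j).2
  obtain ⟨l, hl⟩ : ∃ l, y l ≠ 0 := Function.ne_iff.1 fun h0 : y = 0 => by
    simpa [h0, h'.zero_left] using hy (Pi.single i 1)
  have h4 := congrFun (h3 (Pi.single i 1)) l
  simp only [cv, Pi.single_eq_same, OneMemClass.coe_one, mul_one, Pi.smul_apply, smul_eq_mul,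
    Pi.sub_apply] at h4
  have h6 : b = ((Pi.single i 1 : ι → F₀) l - c * (x.1 *ᵥ Pi.single i 1) l) / y l := by
    rw [eq_div_iff (by simpa using hl), h4]
    ring
  exact hb (h6 ▸ F₀.div_mem (F₀.sub_mem (Subtype.prop _) (F₀.mul_mem hc (Subtype.prop _)))
    (Subtype.prop _))

end Cfsg.Lib.Symp
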