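import Cfsg.Agent.Lib.Symp.TensE
import Cfsg.Agent.Lib.Linear.MaxTens
import Cfsg.Agent.Lib.Asch.Tensor
import Cfsg.Agent.Lib.Asch.Conv

/-!
# The stabiliser of a symplectic-orthogonal tensor decomposition is maximal
-/

namespace Cfsg.Lib.Symp

open Matrix Module Cfsg.Geo Cfsg.Lib.Asch Cfsg.Lib.Linear
open scoped MatrixGroups Kronecker

set_option linter.unusedSectionVars false

variable {α β : Type} [Fintype α] [Fintype β] [DecidableEq α] [DecidableEq β] {F : Type*} [Field F]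
  {f : (α × β → F) → (α × β → F) → F} {f₁ : (α → F) → (α → F) → F}
  {B : (β → F) → (β → F) → F} {M : Subgroup (GL (α × β) F)} {u u' : α → F} {g : GL (α × β) F}

namespace Good₂

variable [Finite F]

theorem exists_b' (h : Good₂ f f₁ B M u u' g) (h1 : 1 ≤ finrank F (dS u g)) {m : GL (α × β) F}
    (hm : m ∈ Good.fixZ f M u g) (hP : ∀ p ∈ Pu β u, m.1 *ᵥ p ∈ Pu β u) :
    ∃ b ∈ iso B, (∀ w, m.1 *ᵥ tens u w = tens u (b.1 *ᵥ w)) ∧ ∀ d ∈ dS u g, b.1 *ᵥ d = d := by
  obtain ⟨b, κ, -, h2, -, h3⟩ := h.exists_b hm.1 hP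
  have h4 : ∀ d ∈ dS u g, b.1 *ᵥ d = d := fun d hd => h.tens_inj <| by
    rw [← h2, hm.2 _ (h.perp_of_mem ⟨tens_mem_Pu u d, hd⟩)]
  obtain ⟨s, hs, hs'⟩ := h.sym.exists_nonsing' h.nd_dS h1
  have h5 := h3 s s
  rw [h4 s hs] at h5
  have h6 : κ = 1 := mul_right_cancel₀ hs' (by rw [← h5, one_mul])
  exact ⟨b, fun x y => by rw [h3, h6, one_mul], h2, h4⟩

theorem le_gP (h : Good₂ f f₁ B M u u' g) {m : GL (α × β) F} (hm : m ∈ Good.fixZ f M u g) :
    Pu β u ⊓ gP u g ≤ gP u m := fun p hp => by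
  rw [← hm.2 p (h.perp_of_mem hp)]
  exact mulVec_mem_gP'.2 hp.1

theorem false_of_eigen (h : Good₂ f f₁ B M u u' g) (h1 : 1 ≤ finrank F (dS u g)) {a : F}
    (ha : a ≠ 0) (ha' : a ^ 2 ≠ 1) {e : β → F} (he : e ∈ eS h.sym u g) (h0 : e ≠ 0) {l : F}
    (hl : cl f₁ u (xp f₁ u g (tens u e)) = l • e) : False := by
  have hl0 : l ≠ 0 := fun h2 => h.cl_xp_ne he h0 (by rw [hl, h2, zero_smul])
  have k1 : ∀ s w, (h.xr u s * (g * h.xr u 1 * g⁻¹)).1 *ᵥ tens u w =
      tens u (w + s • cl f₁ u (xp f₁ u g (tens u w))) + xp f₁ u g (tens u w) := fun s w => by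
    rw [GL_mul_mulVec, h.xr'_mulVec, h.xr_mulVec, one_smul, map_add, h.cl_tens_self, zero_add,
      tens_add_right, tens_smul_right]
    abel
  have k2 := mul_mem (h.xr_mem_fixZ (-l⁻¹)) (h.xr'_mem_fixZ 1)
  have h2 := h.le_of_lt h.mem k2.1 le_rfl inf_le_right (h.le_gP k2) (xp_mem (tens u e))
    (by
      have := k1 (-l⁻¹) e
      rw [hl, neg_smul, inv_smul_smul₀ hl0, add_neg_cancel, tens_zero_right, zero_add] at this
      rw [← this]
      exact mulVec_mem_gP'.2 (tens_mem_Pu _ _))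
    fun h2 => h.cl_xp_ne he h0 (h.cl_of_mem (h.alt₁.alt u) h2.1)
  obtain ⟨s, hs, hs'⟩ := h.sym.exists_nonsing' h.nd_eS (Submodule.one_le_finrank_iff.2
    fun h3 => h0 (by simpa [h3] using he))
  have h3 : cl f₁ u (xp f₁ u g (tens u s)) = l • s := by
    have e1 := h2 _ (tens_mem_Pu u s)
    rw [GL_mul_mulVec, ← mem_gP, k1, Submodule.add_mem_iff_left _ (xp_mem _)] at e1
    have e2 := h.eq_zero e1 (add_mem hs (Submodule.smul_mem _ _ (h.cl_mem (xp_mem _))))
    rw [neg_smul, add_neg_eq_zero] at e2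
    rw [← (inv_smul_eq_iff₀ hl0).1 e2.symm]
  have k3 := mul_mem (h.xr'_mem_fixZ (-a⁻¹))
    (mul_mem (h.xr_mem_fixZ ((a - 1) / l)) (h.xr'_mem_fixZ 1))
  have h4 : (g * h.xr u (-a⁻¹) * g⁻¹ * (h.xr u ((a - 1) / l) * (g * h.xr u 1 * g⁻¹))).1 *ᵥ
      tens u s = tens u (a • s) := by
    rw [GL_mul_mulVec, k1, h3, smul_smul, div_mul_cancel₀ _ hl0, h.xr'_mulVec, map_add,
      h.xp_of_mem (xp_mem _), show s + (a - 1) • s = a • s by module, tens_smul_right, map_smul,
      add_zero, neg_smul, inv_smul_smul₀ ha, add_neg_cancel_right]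
  have h5 := h.le_of_lt (one_mem _) k3.1 le_rfl (h.le_gP (one_mem _)) (h.le_gP k3)
    (y := tens u (a • s)) (mem_gP.2 (by simpa using tens_mem_Pu _ _))
    (h4 ▸ mulVec_mem_gP'.2 (tens_mem_Pu _ _)) fun h5 => hs' (by
      have := h.eq_zero (w := a • s) h5.2 (Submodule.smul_mem _ _ hs)
      rw [(smul_eq_zero.1 this).resolve_left ha, h.sym.zero_left])
  obtain ⟨b, hb, h6, -⟩ := h.exists_b' h1 k3 (by simpa using h5)
  have h7 := hb s s
  rw [← h.tens_inj (h4.symm.trans (h6 s)), h.sym.smul_left, h.sym.smul_right'] at h7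
  exact ha' (mul_right_cancel₀ hs' (by linear_combination h7))

theorem false_of_no_eigen (h : Good₂ f f₁ B M u u' g) (h1 : 1 ≤ finrank F (dS u g))
    (h2 : finrank F (eS h.sym u g) ≤ 2) (h4 : 4 ≤ Nat.card F)
    (h5 : ∀ e ∈ eS h.sym u g, ∀ l : F, cl f₁ u (xp f₁ u g (tens u e)) = l • e → e = 0) :
    False := by
  let X : (α × β → F) →ₗ[F] (α × β → F) := tensR u ∘ₗ cl f₁ u
  let Θ := X ∘ₗ xp f₁ u g + xp f₁ u g ∘ₗ X
  let T := cl f₁ u ∘ₗ xp f₁ u g ∘ₗ tensR u
  have hX : ∀ x, X x = tens u (cl f₁ u x) := fun _ => rfl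
  have hXX : ∀ x, X (X x) = 0 := fun x => by rw [hX, hX, h.cl_tens_self, tens_zero_right]
  have hΘ : ∀ x, Θ x = X (xp f₁ u g x) + xp f₁ u g (X x) := fun _ => rfl
  have hT : ∀ w, Θ (tens u w) = tens u (T w) := fun w => by
    rw [hΘ, hX (tens u w), h.cl_tens_self, tens_zero_right, map_zero, add_zero]
    rfl
  have hT' : ∀ w w', B (T w) w' = B w (T w') := by
    have : ∀ w w', B (T w) w' = -B (cl f₁ u ((g⁻¹).1 *ᵥ tens u w'))
        (cl f₁ u ((g⁻¹).1 *ᵥ tens u w)) := fun w w' => by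
      rw [← h.f_tens, h.alt.skew, neg_neg, ← h.hMi h.mem, GL_mulVec_inv_mulVec, h.f_tens]
      rfl
    intro w w'
    rw [h.sym.symm w, this, this, h.sym.symm]
  have hTE : ∀ w, T w ∈ eS h.sym u g := fun w => h.cl_mem (xp_mem _)
  let C : Subgroup (GL (α × β) F) :=
    { carrier := {m | ∀ x, m.1 *ᵥ Θ x = Θ (m.1 *ᵥ x)}
      one_mem' := fun x => by simp
      mul_mem' := fun ha hb x => by rw [GL_mul_mulVec, GL_mul_mulVec, hb, ha]
      inv_mem' := fun {a} ha x => GL_mulVec_injective a (by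
        simp only
        rw [ha, GL_mulVec_inv_mulVec, GL_mulVec_inv_mulVec]) }
  obtain ⟨e, he, he0⟩ := h.exists_ne_eS
  have k1 : ∀ x ∈ eS h.sym u g, ∃ a b : F, a • e + b • T e = x := fun x hx => by
    refine Submodule.mem_span_pair.1 ?_
    rwa [Submodule.eq_of_le_of_finrank_le (S₁ := Submodule.span F {e, T e}) (S₂ := eS h.sym u g)
      (Submodule.span_le.2 (by rintro _ (rfl | rfl); exacts [he, hTE e])) (h2.trans ?_)]
    have h6 : LinearIndependent F ![e, T e] := by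
      rw [LinearIndependent.pair_iff' he0]
      exact fun l hl => he0 (h5 e he l hl.symm)
    have h7 := (finrank_span_eq_card h6).ge
    rwa [Matrix.range_cons_cons_empty] at h7
  have k2 : ∀ m ∈ Good.fixZ f M u g ⊓ C, m ∈ subspaceStabilizer (Pu β u) → ∃ a : F, a ^ 2 = 1 ∧
      (∀ d ∈ dS u g, m.1 *ᵥ tens u d = tens u d) ∧
      ∀ x ∈ eS h.sym u g, m.1 *ᵥ tens u x = a • tens u x := fun m hm hm' => by
    obtain ⟨b, hb, h6, h7⟩ := h.exists_b' h1 hm.1 fun p hp => (hm' p).1 hp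
    have h8 : ∀ w, b.1 *ᵥ T w = T (b.1 *ᵥ w) := fun w => h.tens_inj <| by
      rw [← h6, ← hT, hm.2, h6, hT]
    have h9 : ∀ x ∈ eS h.sym u g, b.1 *ᵥ x ∈ eS h.sym u g := fun x hx d hd => by
      rw [← h7 d hd, hb, hx d hd]
    obtain ⟨p, q, hpq⟩ := k1 _ (h9 e he)
    have h10 : ∀ x ∈ eS h.sym u g, b.1 *ᵥ x = p • x + q • T x := fun x hx => by
      obtain ⟨a, c, rfl⟩ := k1 x hx
      simp only [mulVec_add, mulVec_smul, h8, ← hpq, map_add, map_smul]
      module
    have h11 : ∀ x ∈ eS h.sym u g, b.1 *ᵥ (b.1 *ᵥ x) = x := fun x hx => sub_eq_zero.1 <|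
      h.nd_eS _ (sub_mem (h9 _ (h9 x hx)) hx) fun y hy => by
        rw [h.sym.sub_left, h10 _ (h9 x hx), ← hb x y, h10 y hy, h.sym.add_left, h.sym.add_right,
          h.sym.smul_left, h.sym.smul_left, h.sym.smul_right', h.sym.smul_right', hT', sub_self]
    have h12 : q = 0 := by
      by_contra hq
      have e1 : ∀ x ∈ eS h.sym u g, ∀ c : F, b.1 *ᵥ x = c • x → x = 0 := fun x hx c hc =>
        h5 x hx ((c - p) / q) (smul_right_injective _ hq (by
          simp only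
          rw [smul_smul, mul_div_cancel₀ _ hq, sub_smul, ← hc, h10 x hx, add_sub_cancel_left]
          rfl))
      have e2 := e1 _ (add_mem (h9 e he) he) 1 (by rw [mulVec_add, h11 e he, one_smul, add_comm])
      exact he0 (e1 e he (-1) (by rw [neg_smul, one_smul, eq_neg_of_add_eq_zero_left e2]))
    simp only [h12, zero_smul, add_zero] at h10
    refine ⟨p, smul_left_injective F he0 ?_, fun d hd => by rw [h6, h7 d hd],
      fun x hx => by rw [h6, h10 x hx, tens_smul_right]⟩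
    have := h11 e he
    rw [h10 e he, mulVec_smul, h10 e he, smul_smul] at this
    simp only [sq, this, one_smul]
  have k3 : ∀ m ∈ M, (∀ d ∈ dS u g, m.1 *ᵥ tens u d = tens u d) →
      (∀ x ∈ eS h.sym u g, m.1 *ᵥ tens u x = tens u x) → ∃ c, m = h.xr u c := fun m hm h6 h7 =>
    h.eq_xr hm (h.alt.sub_mem_of_fix (h.hMi hm) fun ζ hζ => by
      obtain ⟨w, rfl⟩ := h.memP (h.cl_of_perp hζ)
      obtain ⟨d, hd, x, hx, rfl⟩ := h.exists_add w
      rw [tensR_apply, tens_add_right, mulVec_add, h6 d hd, h7 x hx])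
  refine h.pigeon_contra (G := Good.fixZ f M u g ⊓ C) inf_le_left
    (fun c => ⟨h.xr_mem_fixZ c, fun x => ?_⟩) ⟨h.xr'_mem_fixZ 1, fun x => ?_⟩
    (Or.inr ⟨h4, fun m hm hm' k hk hk' => ?_⟩)
  · simp only [h.xr_mulVec, ← hX]
    simp only [hΘ, map_add, map_smul, hXX, map_zero]
    module
  · simp only [h.xr'_mulVec, hΘ, map_add, map_smul, h.xp_of_mem (xp_mem _), map_zero]
    module
  obtain ⟨a, ha, h6, h7⟩ := k2 m hm hm'
  obtain ⟨b, hb, h8, h9⟩ := k2 k hk hk'
  rcases mul_self_eq_one_iff.1 ((sq _).symm.trans ha) with rfl | rfl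
  · exact Or.inl (k3 m hm.1.1 h6 (by simpa using h7))
  rcases mul_self_eq_one_iff.1 ((sq _).symm.trans hb) with rfl | rfl
  · exact Or.inr (Or.inl (k3 k hk.1.1 h8 (by simpa using h9)))
  refine Or.inr (Or.inr (k3 _ (mul_mem (inv_mem hm.1.1) hk.1.1) (fun d hd => ?_) fun x hx => ?_))
  · rw [GL_mul_mulVec, h8 d hd, ← h6 d hd, GL_inv_mulVec_mulVec, h6 d hd]
  · rw [GL_mul_mulVec, h9 x hx, ← h7 x hx, GL_inv_mulVec_mulVec]

theorem false (h : Good₂ f f₁ B M u u' g) : False := by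
  have h1 := h.finrank_add
  have h2 := h.finrank_eS_le
  have h3 : ¬ 3 ≤ finrank F (dS u g) := h.false_of_sing
  have h4 := h.h3
  have h5 := h.h4.resolve_right (not_not.2 h.two)
  obtain ⟨a, ha, ha'⟩ := h.hq.resolve_right (by omega)
  by_cases h6 : ∃ e ∈ eS h.sym u g, e ≠ 0 ∧ ∃ l : F, cl f₁ u (xp f₁ u g (tens u e)) = l • e
  · obtain ⟨e, he, h0, l, hl⟩ := h6
    exact h.false_of_eigen (by omega) ha ha' he h0 hl
  refine h.false_of_no_eigen (by omega) (by omega) ?_ fun e he l hl => by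
    by_contra h0
    exact h6 ⟨e, he, h0, l, hl⟩
  classical
  have := Fintype.ofFinite F
  rw [Nat.card_eq_fintype_card]
  refine (Finset.card_le_univ ({0, 1, -1, a} : Finset F)).trans' ?_
  have h7 : a ≠ 1 := fun h0 => ha' (by simp [h0])
  have h8 : a ≠ -1 := fun h0 => ha' (by simp [h0])
  have h9 : (1 : F) ≠ -1 := fun h0 => h.sym.two (by linear_combination h0)
  rw [Finset.card_insert_of_notMem (by simp [ha.symm]),
    Finset.card_insert_of_notMem (by simp [h9, h7.symm]),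
    Finset.card_insert_of_notMem (by simp [h8.symm])]
  simp

end Good₂

theorem TAlt.isMaximalIn_kron [Finite F] (h : TAlt f f₁ B) (h2 : 2 ≤ Fintype.card α)
    (h3 : 3 ≤ Fintype.card β) (hq : (∃ a : F, a ≠ 0 ∧ a ^ 2 ≠ 1) ∨ 4 ≤ Fintype.card β)
    (h4 : Fintype.card β ≠ 4 ∨ Fintype.card α ≠ 2) :
    IsMaximalIn (iso f) (kronGL α β F ⊓ iso f) := by
  have : Nonempty α := Fintype.card_pos_iff.1 (by omega)
  have : Nonempty β := Fintype.card_pos_iff.1 (by omega)
  refine isMaximalIn_inf (fun hle => ?_) fun M hM hMi g hg hg' => ?_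
  · obtain ⟨v, hv⟩ := exists_ne (0 : α × β → F)
    obtain ⟨t, ht, h1⟩ := h.alt.exists_st v 1
    obtain ⟨w, hw, h5⟩ := exists_Pt_le (hle ht) (U := Submodule.span F {v}) (fun h5 => by
        obtain ⟨y, hy⟩ := exists_form_eq_one h.alt.toSForm hv
        have h6 := h1 y
        rw [h5, Units.val_one, one_mulVec, left_eq_add, hy, one_mul, one_smul] at h6
        exact hv h6)
      (fun x => by
        rw [h1, add_sub_cancel_left]
        exact Submodule.smul_mem _ _ (Submodule.mem_span_singleton_self v))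
      (by have := finrank_span_singleton_le (F := F) v; omega)
    have h6 := Submodule.finrank_mono h5
    have h7 := finrank_span_singleton_le (F := F) v
    rw [finrank_Pt hw] at h6
    omega
  by_contra hn
  obtain ⟨u, hu⟩ := exists_ne (0 : α → F)
  obtain ⟨u', hu'⟩ := exists_form_eq_one h.alt₁.toSForm hu
  obtain ⟨k, hk⟩ := TCtx.exists_good ⟨h, hM, hMi, hn, h3, hq, hu'⟩ h2 h4 hg hg'
  by_cases h5 : Fintype.card α = 2
  · exact Good₂.false ⟨hk, h5⟩
  · exact hk.false_of_three (by omega)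

theorem isMaximalIn_tensor {ι : Type} [Fintype ι] [DecidableEq ι] [Fintype F]
    {f : (ι → F) → (ι → F) → F} (h : Alt f) (hodd : Odd (Fintype.card F)) {n₁ n₂ : ℕ}
    (h0 : 0 < Fintype.card ι) (h3 : 3 ≤ n₂) (hq : ¬ (Fintype.card F = 3 ∧ n₂ = 3))
    (h4 : Fintype.card ι ≠ 8) {e : ι ≃ Fin n₁ × Fin n₂} {P : GL ι F}
    {f₁ : (Fin n₁ → F) → (Fin n₁ → F) → F} {f₂ : (Fin n₂ → F) → (Fin n₂ → F) → F}
    (h₁ : IsSymplecticForm f₁) (h₂ : IsSymmetricForm f₂)
    (hT : IsTensorFormStructure id f f₁ f₂ e P) :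
    IsMaximalIn (iso f) (tensorProductSubgroup n₁ n₂ e P ⊓ iso f) := by
  obtain ⟨c, hc, hT⟩ := hT
  have h2 : (2 : F) ≠ 0 := two_ne_zero_iff_odd_card.2 hodd
  have h₁' := alt_of_symplectic h₁
  have h₂' := sform_of_symmetric h₂
  let f' : (Fin n₁ × Fin n₂ → F) → (Fin n₁ × Fin n₂ → F) → F := fun x y =>
    c⁻¹ * f (P.1 *ᵥ (x ∘ e)) (P.1 *ᵥ (y ∘ e))
  have h5 : ∀ x : ι → F, P.1 *ᵥ ((((P⁻¹).1 *ᵥ x) ∘ e.symm) ∘ e) = x := fun x => by
    rw [Function.comp_assoc, e.symm_comp_self, Function.comp_id, GL_mulVec_inv_mulVec]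
  have h' : TAlt f' f₁ f₂ :=
    { alt :=
        { add_left := fun x y v => by
            simp only [f', Pi.add_comp, mulVec_add, h.add_left, mul_add]
          smul_left := fun a x v => by
            simp only [f', Pi.smul_comp, mulVec_smul, h.smul_left, mul_left_comm]
          herm := fun u v => by simp [f', h.skew (P.1 *ᵥ (u ∘ e))]
          nondeg := fun v hv => by
            have := h.nondeg (P.1 *ᵥ (v ∘ e)) fun x => by
              have := hv (((P⁻¹).1 *ᵥ x) ∘ e.symm)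
              simp only [f', h5] at this
              simpa [hc] using this
            have h6 : v ∘ e = 0 := GL_mulVec_injective P (by simpa using this)
            ext i
            simpa using congrFun h6 (e.symm i)
          invol := fun _ => rfl
          eps := by simp
          alt := fun x => by simp [f', h.alt] }
      alt₁ := h₁'
      sym := ⟨h₂', h2⟩
      tt := fun v w v' w' => by
        simp only [f']
        rw [hT, inv_mul_cancel_left₀ hc, formOfGram_eq, Function.id_comp, kron_mulVec_tens,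
          tens_dot_tens, h₁'.eq_dot, h₂'.eq_dot]
        rfl }
  have h6 : ∀ (g : GL (Fin n₁ × Fin n₂) F) x, (trGL e P g).1 *ᵥ (P.1 *ᵥ (x ∘ e)) =
      P.1 *ᵥ ((g.1 *ᵥ x) ∘ e) := fun g x => by
    change (P * glReindex e.symm g * P⁻¹).1 *ᵥ _ = _
    rw [GL_mul_mulVec, GL_mul_mulVec, GL_inv_mulVec_mulVec, coe_glReindex, reindex_apply,
      submatrix_mulVec_equiv]
    congr 3
    ext i
    simp
  have h7 : (iso f').map (trGL e P : GL (Fin n₁ × Fin n₂) F →* GL ι F) = iso f := by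
    ext g
    obtain ⟨g, rfl⟩ := (trGL e P).surjective g
    refine Subgroup.mem_map_equiv.trans ?_
    rw [MulEquiv.symm_apply_apply]
    refine ⟨fun hg x y => ?_, fun hg x y => ?_⟩
    · rw [← h5 x, ← h5 y, h6, h6]
      exact mul_left_cancel₀ (inv_ne_zero hc) (hg _ _)
    · simp only [f']
      rw [← h6, ← h6, hg]
  have h8 := Fintype.card_congr e
  rw [Fintype.card_prod, Fintype.card_fin, Fintype.card_fin] at h8
  have h9 : 2 ≤ n₁ := by
    have : Nonempty (Fin n₁) := ⟨⟨0, Nat.pos_of_ne_zero fun h9 => by simp [h9] at h8; omega⟩⟩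
    simpa using h₁'.two_le_finrank (W := ⊤) top_ne_bot fun w _ hw =>
      ⟨(exists_form_ne_zero h₁'.toSForm hw).imp fun x hx => ⟨trivial, hx⟩,
        (exists_form_ne_zero h₁'.toSForm hw).imp fun x hx =>
          ⟨trivial, by rwa [h₁'.skew, neg_ne_zero]⟩⟩
  have h10 := isMaximalIn_map (trGL e P) (h'.isMaximalIn_kron (by simpa) (by simpa) (by
    by_cases h10 : n₂ = 3
    · left
      classical
      have := Fintype.one_lt_card (α := F)
      obtain ⟨k, hk⟩ := hodd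
      obtain ⟨a, ha⟩ := exists_notMem_list [(0 : F), 1, -1] (by simp; omega)
      simp only [List.mem_cons, List.not_mem_nil, or_false, not_or] at ha
      exact ⟨a, ha.1, fun h11 => (mul_self_eq_one_iff.1 ((sq _).symm.trans h11)).elim ha.2.1 ha.2.2⟩
    · right
      simp only [Fintype.card_fin]
      omega) (by
    simp only [Fintype.card_fin]
    by_contra! h10
    rw [h10.1, h10.2] at h8
    exact h4 h8))
  rwa [Subgroup.map_inf _ _ _ (trGL e P).injective, h7, ← kroneckerSubgroup_eq, trGL,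
    MulEquiv.coe_monoidHom_trans, ← Subgroup.map_map] at h10

end Cfsg.Lib.Symp
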