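import Cfsg.Agent.Lib.Symp.MaxTens

/-!
# Symplectic tensor orthogonal: the case `Sp₂ ⊗ O₄⁻`
-/

namespace Cfsg.Lib.SympM

open Matrix Module Cfsg.Geo Cfsg.Lib.Asch Cfsg.Lib.Linear Cfsg.Lib.Symp
open Good₂ (xp xp_apply xp_mem)
open scoped MatrixGroups

set_option linter.unusedSectionVars false

variable {α β : Type} [Fintype α] [Fintype β] [DecidableEq α] [DecidableEq β] {F : Type*} [Field F]
  {f : (α × β → F) → (α × β → F) → F} {f₁ : (α → F) → (α → F) → F}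
  {B : (β → F) → (β → F) → F} {M : Subgroup (GL (α × β) F)} {u u' : α → F} {g : GL (α × β) F}

/-- The form `B` has no totally singular plane. -/
def Mn (B : (β → F) → (β → F) → F) : Prop :=
  ∀ a b, B a a = 0 → B b b = 0 → B a b = 0 → a ≠ 0 → ∃ c : F, c • a = b

theorem lemM [Finite F] (h : TCtx f f₁ B M u u') (hm : Mn B) {g : GL (α × β) F} (hg : g ∈ M) {c : F}
    (hc : c ≠ 0) (hP : ∀ p ∈ Pu β u, (g * h.xr u c * g⁻¹).1 *ᵥ p ∈ Pu β u) :
    g ∈ kronGL α β F ∧ ∀ p ∈ Pu β u, cl f₁ u (g.1 *ᵥ p) = 0 := by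
  set r := g * h.xr u c * g⁻¹ with hr
  have hrM : r ∈ M := mul_mem (mul_mem hg (h.xr_memM _ _)) (inv_mem hg)
  have F0 : ∀ x, r.1 *ᵥ (g.1 *ᵥ x) = g.1 *ᵥ x + g.1 *ᵥ tens u (c • cl f₁ u x) := fun x => by
    rw [hr, GL_mul_mulVec, GL_mul_mulVec, GL_inv_mulVec_mulVec, h.xr_mulVec, mulVec_add,
      tens_smul_right]
  have F1 : ∀ x, ∃ w, r.1 *ᵥ x - x = g.1 *ᵥ tens u w := fun x => by
    obtain ⟨x, rfl⟩ : ∃ y, g.1 *ᵥ y = x := ⟨_, GL_mulVec_inv_mulVec g x⟩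
    exact ⟨_, by rw [F0, add_sub_cancel_left]⟩
  have F2 : ∀ x, r.1 *ᵥ (r.1 *ᵥ x - x) = r.1 *ᵥ x - x := fun x => by
    obtain ⟨w, hw⟩ := F1 x
    rw [hw, F0, h.cl_tens_self]
    simp
  have F3 : ∀ w, ∃ x, r.1 *ᵥ x - x = g.1 *ᵥ tens u w := fun w =>
    ⟨g.1 *ᵥ tens u' (c⁻¹ • w), by rw [F0, add_sub_cancel_left, h.cl_tens', smul_inv_smul₀ hc]⟩
  obtain ⟨w₀, hw₀⟩ := h.exists_ne
  obtain ⟨A, N, hA, hr'⟩ : ∃ (A : (α → F) →ₗ[F] (α → F)) (N : (β → F) →ₗ[F] (β → F)),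
      A u = u ∧ ∀ v w, r.1 *ᵥ tens v w = tens (A v) (w + N w) := by
    obtain ⟨a, b, hab⟩ := h.stab hrM hP
    have h1 := hP _ (tens_mem_Pu u w₀)
    rw [hab, kr_mulVec_tens] at h1
    obtain ⟨l, hl⟩ := h.exists_smul_of_mem (GL_mulVec_ne_zero b hw₀) h1
    have hl0 : l ≠ 0 := fun h0 => GL_mulVec_ne_zero a h.ne (by rw [← hl, h0, zero_smul])
    refine ⟨l⁻¹ • mulVecLin a.1, l • mulVecLin b.1 - LinearMap.id, by simp [← hl, hl0],
      fun v w => ?_⟩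
    simp [hab, kr_mulVec_tens, tens_smul_left, tens_smul_right, hl0]
  by_cases hN : ∀ w, N w = 0
  · simp only [hN, add_zero] at hr'
    refine ⟨?_, fun p hp => h.perp_iff.1 ?_⟩
    · obtain ⟨v, hv⟩ : ∃ v, A v - v ≠ 0 := by
        by_contra! h0
        obtain ⟨x, hx⟩ := F3 w₀
        refine GL_mulVec_ne_zero g (tens_ne_zero h.ne hw₀) ?_
        rw [← hx, sub_eq_zero]
        exact tens_ext (f := mulVecLin r.1) (g := LinearMap.id) (fun v w => by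
          rw [mulVecLin_apply, hr', sub_eq_zero.1 (h0 v), LinearMap.id_apply]) x
      refine inv_mem_iff.1 (h.mem_kron_of_map (inv_mem hg) hv fun w => ?_)
      obtain ⟨w', hw'⟩ := F1 (tens v w)
      rw [tens_sub_left, ← hr', hw', GL_inv_mulVec_mulVec]
      exact tens_mem_Pu _ _
    · rintro _ ⟨w, rfl⟩
      have h1 := F0 ((g⁻¹).1 *ᵥ tens u w)
      rw [GL_mulVec_inv_mulVec, hr', hA, left_eq_add] at h1
      have h3 : cl f₁ u ((g⁻¹).1 *ᵥ tens u w) = 0 := by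
        by_contra h0
        exact GL_mulVec_ne_zero g (tens_ne_zero h.ne (smul_ne_zero hc h0)) h1
      rw [tensR_apply, ← GL_mulVec_inv_mulVec g (tens u w), h.hMi hg, h.alt.skew,
        h.perp_iff.2 h3 p hp, neg_zero]
  exfalso
  push Not at hN
  obtain ⟨w₂, hw₂⟩ := hN
  have hNN : ∀ w, N (N w) = 0 := fun w => h.tens_inj <| by
    have := F2 (tens u w)
    rw [hr', hA, tens_add_right, add_sub_cancel_left, hr', hA, tens_add_right] at this
    simpa using this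
  replace hA : ∀ v, A v = v := fun v => by
    have e1 := F2 (tens v (N w₂))
    have e2 := F2 (tens v w₂)
    simp only [hr', hNN, add_zero, mulVec_sub, map_add] at e1 e2
    simp only [tens_add_right] at e2
    have e3 : A (A v) - A v = A v - v := tensL_injective hw₂ (by simpa [tens_sub_left] using e1)
    have e4 := congrArg (fun x => tens x w₂) e3
    simp only [tens_sub_left] at e4
    have e5 : (2 : F) • tens (A v - v) (N w₂) = 0 := by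
      rw [tens_sub_left]
      linear_combination (norm := module) e2 - e4 - (2 : F) • e1
    by_contra h0
    exact smul_ne_zero h.sym.two (tens_ne_zero (sub_ne_zero.2 h0) hw₂) e5
  have G1 : ∀ v w, ∃ w', tens v (N w) = g.1 *ᵥ tens u w' := fun v w => by
    simpa only [hr', hA, tens_add_right, add_sub_cancel_left] using F1 (tens v w)
  have G2 : ∀ w w', B (N w) (N w') = 0 := fun w w' => by
    obtain ⟨a, ha⟩ := G1 u' w
    obtain ⟨b, hb⟩ := G1 u w'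
    have := h.tt u' (N w) u (N w')
    rw [ha, hb, h.hMi hg, h.tt, h.alt₁.alt, h.hu] at this
    linear_combination -this
  have G3 : ∀ w w', B (N w) w' = -B w (N w') := fun w w' => by
    have := h.hMi hrM (tens u' w) (tens u w')
    simp only [hr', hA, h.tt, h.hu, h.sym.add_left, h.sym.add_right, G2] at this
    linear_combination this
  have G4 : ∀ w, B (N w) w = 0 := fun w =>
    mul_left_cancel₀ h.sym.two (by linear_combination G3 w w - h.sym.symm w (N w))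
  obtain ⟨x, hx⟩ := exists_form_eq_one h.sym.toSForm hw₂
  have hx' : B (N x) w₂ = -1 := by rw [G3, hx]
  obtain ⟨c, e⟩ := hm _ _ (G2 w₂ w₂) (G2 x x) (G2 w₂ x) hw₂
  rw [← e, h.sym.smul_left, G4] at hx'
  simp at hx'

/-- `g ∈ M` is not a Kronecker product and `g (u ⊗ V₂) ∩ (u ⊗ V₂)` is as large as possible. -/
structure Gm (f : (α × β → F) → (α × β → F) → F) (f₁ : (α → F) → (α → F) → F)
    (B : (β → F) → (β → F) → F) (M : Subgroup (GL (α × β) F)) (u u' : α → F)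
    (g : GL (α × β) F) : Prop extends TCtx f f₁ B M u u' where
  two : Fintype.card α = 2
  hm : Mn B
  mem : g ∈ M
  notMem : g ∉ kronGL α β F
  max : ∀ m ∈ M, (∀ p ∈ Pu β u, m.1 *ᵥ p ∈ Pu β u) ∨
    finrank F ↥(Pu β u ⊓ gP u m) ≤ finrank F ↥(Pu β u ⊓ gP u g)

theorem exists_gm [Finite F] (h : TCtx f f₁ B M u u') (h2 : Fintype.card α = 2) (h4 : Mn B)
    {g₀ : GL (α × β) F} (hg : g₀ ∈ M)
    (hg' : g₀ ∉ kronGL α β F) : ∃ g, Gm f f₁ B M u u' g := by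
  obtain ⟨g, ⟨h5, h6⟩, h7⟩ := Set.Finite.exists_maximalFor
    (fun m : GL (α × β) F => finrank F ↥(Pu β u ⊓ gP u m)) {m | m ∈ M ∧ m ∉ kronGL α β F}
    (Set.toFinite _) ⟨g₀, hg, hg'⟩
  refine ⟨g, h, h2, h4, h5, h6, fun m hm => ?_⟩
  by_cases h8 : m ∈ kronGL α β F
  swap
  · exact Or.inr ((le_total _ _).elim id fun h9 => h7 ⟨hm, h8⟩ h9)
  obtain ⟨a, b, rfl⟩ := h8
  by_cases h9 : Pu β u ⊓ gP u (kr a b) = ⊥
  · exact Or.inr (by rw [h9, finrank_bot]; omega)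
  obtain ⟨_, ⟨h10, _, ⟨w, rfl⟩, rfl⟩, h0⟩ := Submodule.exists_mem_ne_zero_of_ne_bot h9
  rw [toLin'_apply, tensR_apply, kr_mulVec_tens] at h10 h0
  obtain ⟨c, hc⟩ := h.exists_smul_of_mem (fun h1 => h0 (by rw [h1, tens_zero_right])) h10
  left
  rintro _ ⟨w, rfl⟩
  rw [tensR_apply, kr_mulVec_tens, ← hc, tens_smul_left]
  exact Submodule.smul_mem _ _ (tens_mem_Pu _ _)

namespace Gm

variable [Finite F]

theorem inv (h : Gm f f₁ B M u u' g) : Gm f f₁ B M u u' g⁻¹ := by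
  refine ⟨h.toTCtx, h.two, h.hm, inv_mem h.mem, fun h0 => h.notMem (inv_mem_iff.1 h0),
    fun m hm => (h.max m hm).imp_right fun h1 => h1.trans ?_⟩
  rw [← finrank_map_GL g⁻¹]
  refine Submodule.finrank_mono ?_
  rintro _ ⟨x, hx, rfl⟩
  exact ⟨mem_gP.1 hx.2, mulVec_mem_gP'.2 hx.1⟩

theorem le_of_lt' (h : Gm f f₁ B M u u' g) {m k : GL (α × β) F} (hm : m ∈ M) (hk : k ∈ M)
    (h7 : finrank F ↥(Pu β u ⊓ gP u g) < finrank F ↥(gP u m ⊓ gP u k)) :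
    ∀ p ∈ Pu β u, (m⁻¹ * k).1 *ᵥ p ∈ Pu β u := by
  refine (h.max _ (mul_mem (inv_mem hm) hk)).resolve_right fun h6 => ?_
  rw [← finrank_map_GL m⁻¹ (gP u m ⊓ gP u k)] at h7
  have h8 := Submodule.finrank_mono (show (gP u m ⊓ gP u k).map (toLin' (m⁻¹).1) ≤
      Pu β u ⊓ gP u (m⁻¹ * k) by
    rintro _ ⟨x, hx, rfl⟩
    exact ⟨mem_gP.1 hx.1, mulVec_mem_gP.2 hx.2⟩)
  omega

theorem le_of_lt (h : Gm f f₁ B M u u' g) {m k : GL (α × β) F} (hm : m ∈ M) (hk : k ∈ M)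
    {D : Submodule F (α × β → F)} (hD : finrank F ↥(Pu β u ⊓ gP u g) ≤ finrank F D)
    (h1 : D ≤ gP u m) (h2 : D ≤ gP u k) {y : α × β → F} (h3 : y ∈ gP u m) (h4 : y ∈ gP u k)
    (h5 : y ∉ D) : ∀ p ∈ Pu β u, (m⁻¹ * k).1 *ᵥ p ∈ Pu β u :=
  h.le_of_lt' hm hk <| hD.trans_lt <|
    Submodule.finrank_lt_finrank_of_lt (lt_of_le_of_ne (le_inf h1 h2) fun h0 => h5 (h0 ▸ ⟨h3, h4⟩))

theorem lemR' (h : Gm f f₁ B M u u' g) {m : GL (α × β) F} (hm : m ∈ M) {c : F} (hc : c ≠ 0)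
    (hP : ∀ p ∈ Pu β u, (m * h.xr u c * m⁻¹).1 *ᵥ p ∈ Pu β u) :
    m ∈ kronGL α β F ∧ ∀ p ∈ Pu β u, cl f₁ u (m.1 *ᵥ p) = 0 := lemM h.toTCtx h.hm hm hc hP

theorem n2 (h : Gm f f₁ B M u u' g) {y : α × β → F} (hy : y ∈ gP u g)
    (h1 : tens u (cl f₁ u y) ∈ gP u g) : y ∈ Pu β u := by
  by_contra h0
  have h2 := h.le_of_lt h.mem (mul_mem (h.xr_memM u 1) h.mem) le_rfl inf_le_right
    (fun p hp => by rw [← h.xr_of_mem 1 hp.1]; exact mulVec_mem_gP.2 hp.2)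
    (y := (h.xr u 1).1 *ᵥ y) (by rw [h.xr_mulVec, one_smul]; exact add_mem hy h1)
    (mulVec_mem_gP.2 hy) fun h2 => h0 (by
      rw [h.xr_mulVec, one_smul] at h2
      exact (Submodule.add_mem_iff_left _ (tens_mem_Pu _ _)).1 h2.1)
  exact h.inv.notMem (h.lemR' (inv_mem h.mem) one_ne_zero (by simpa [mul_assoc] using h2)).1

theorem n2' (h : Gm f f₁ B M u u' g) {p : α × β → F} (hp : p ∈ Pu β u)
    (h1 : g.1 *ᵥ tens u (cl f₁ u ((g⁻¹).1 *ᵥ p)) ∈ Pu β u) : p ∈ gP u g :=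
  mem_gP.2 (h.inv.n2 (mulVec_mem_gP'.2 hp) (mem_gP_inv.2 h1))

theorem gP_ti (h : Gm f f₁ B M u u' g) {x y : α × β → F} (hx : x ∈ gP u g) (hy : y ∈ gP u g) :
    f x y = 0 := by
  rw [← h.hMi (inv_mem h.mem)]
  exact h.perp_iff.2 (h.cl_of_mem (h.alt₁.alt u) (mem_gP.1 hx)) _ (mem_gP.1 hy)

theorem cl_of_perp (h : Gm f f₁ B M u u' g) {ζ : α × β → F} (hζ : ∀ p ∈ Pu β u, f p ζ = 0) :
    cl f₁ u ζ = 0 := h.perp_iff.1 fun p hp => by rw [h.alt.skew, hζ p hp, neg_zero]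

theorem conj_mulVec (h : Gm f f₁ B M u u' g) (m : GL (α × β) F) (c : F) (x : α × β → F) :
    (m * h.xr u c * m⁻¹).1 *ᵥ x = x + c • m.1 *ᵥ tens u (cl f₁ u ((m⁻¹).1 *ᵥ x)) := by
  rw [GL_mul_mulVec, GL_mul_mulVec, h.xr_mulVec, mulVec_add, GL_mulVec_inv_mulVec, mulVec_smul]

theorem exists_smul (h : Gm f f₁ B M u u' g) {z : α → F} (hz : f₁ z u = 0) :
    ∃ c : F, c • u = z := by
  refine Submodule.mem_span_singleton.1 ?_
  have h1 : Submodule.span F {u} = dotKer (dv (RingHom.id F) f₁ u) := by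
    refine Submodule.eq_of_le_of_finrank_le (Submodule.span_le.2 ?_) ?_
    · rintro _ rfl
      exact (dv_dot h.alt₁.toSForm _ _).trans (h.alt₁.alt _)
    · have := Submodule.finrank_lt (s := dotKer (dv (RingHom.id F) f₁ u)) fun h0 => by
        have : u' ∈ dotKer (dv (RingHom.id F) f₁ u) := h0 ▸ trivial
        exact one_ne_zero (h.hu.symm.trans ((dv_dot h.alt₁.toSForm _ _).symm.trans this))
      rw [finrank_fintype_fun_eq_card, h.two] at this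
      rw [finrank_span_singleton h.ne]
      omega
  rw [h1]
  exact (dv_dot h.alt₁.toSForm _ _).trans hz

theorem memP (h : Gm f f₁ B M u u' g) {ζ : α × β → F} (hζ : cl f₁ u ζ = 0) : ζ ∈ Pu β u :=
  h.mem_Pu h.hu fun z hz => by
    obtain ⟨c, rfl⟩ := h.exists_smul hz
    rw [h.cl_smul, hζ, smul_zero]

theorem cr_eq_zero (h : Gm f f₁ B M u u' g) {s : β → F} {y : α × β → F}
    (h1 : B (cl f₁ u y) s = 0) (h2 : B (cl f₁ u' y) s = 0) : cr B s y = 0 := by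
  rw [← h.f_tens, h.f_tens'] at h1 h2
  obtain ⟨c, hc⟩ := h.exists_smul h1
  rw [← hc, h.alt₁.smul_left, h.alt₁.skew, h.hu] at h2
  rw [← hc, show c = 0 by simpa using h2, zero_smul]

theorem cl_mem (h : Gm f f₁ B M u u' g) {y : α × β → F} (hy : y ∈ gP u g) :
    cl f₁ u y ∈ eS h.sym u g := fun d hd => by
  rw [h.sym.symm, ← h.f_tens]
  exact h.gP_ti hy hd

theorem exists_cl (h : Gm f f₁ B M u u' g) {e : β → F} (he : e ∈ eS h.sym u g) :
    ∃ y ∈ gP u g, cl f₁ u y = e :=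
  mem_of_perp h.sym.toSForm (W := (gP u g).map (cl f₁ u)) fun t ht => by
    rw [h.sym.symm]
    refine he t (mem_gP.2 (h.memP (h.cl_of_perp fun p hp => ?_)))
    rw [← h.hMi h.mem, GL_mulVec_inv_mulVec, tensR_apply, h.f_tens]
    exact ht _ ⟨_, mulVec_mem_gP'.2 hp, rfl⟩

theorem eq_zero (h : Gm f f₁ B M u u' g) {w : β → F} (h1 : w ∈ dS u g)
    (h2 : w ∈ eS h.sym u g) : w = 0 := by
  obtain ⟨y, hy, rfl⟩ := h.exists_cl h2
  exact h.cl_of_mem (h.alt₁.alt u) (h.n2 hy h1)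

theorem mem_dS (h : Gm f f₁ B M u u' g) {w : β → F} (hw : ∀ e ∈ eS h.sym u g, B w e = 0) :
    w ∈ dS u g := mem_of_perp h.sym.toSForm hw

theorem nd_dS (h : Gm f f₁ B M u u' g) : Nd B (dS u g) := fun x hx h0 =>
  h.eq_zero hx fun d hd => by rw [h.sym.symm, h0 d hd]

theorem nd_eS (h : Gm f f₁ B M u u' g) : Nd B (eS h.sym u g) := fun _ hx h0 =>
  h.eq_zero (h.mem_dS h0) hx

theorem exists_add (h : Gm f f₁ B M u u' g) (w : β → F) :
    ∃ d ∈ dS u g, ∃ e ∈ eS h.sym u g, d + e = w :=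
  Submodule.mem_sup.1 <| mem_of_perp h.sym.toSForm fun t ht => by
    rw [h.eq_zero (h.mem_dS fun e he => by rw [h.sym.symm, ht e (Submodule.mem_sup_right he)])
      fun d hd => ht d (Submodule.mem_sup_left hd), h.sym.zero_right]

theorem finrank_add (h : Gm f f₁ B M u u' g) :
    finrank F (dS u g) + finrank F (eS h.sym u g) = Fintype.card β := by
  rw [← Submodule.finrank_sup_add_finrank_inf_eq,
    show dS u g ⊔ eS h.sym u g = ⊤ from eq_top_iff.2 fun w _ => Submodule.mem_sup.2 (h.exists_add w),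
    show dS u g ⊓ eS h.sym u g = ⊥ from eq_bot_iff.2 fun w hw => h.eq_zero hw.1 hw.2]
  simp

theorem finrank_dS (h : Gm f f₁ B M u u' g) :
    finrank F (dS u g) = finrank F ↥(Pu β u ⊓ gP u g) := by
  rw [(Submodule.equivMapOfInjective _ (tensR_injective h.ne) (dS u g)).finrank_eq, dS,
    Submodule.map_comap_eq]
  rfl

theorem cl'_tens (h : Gm f f₁ B M u u' g) (w : β → F) : cl f₁ u' (tens u w) = -w := by
  rw [h.cl_tens, h.alt₁.skew, h.hu, neg_smul, one_smul]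

theorem exists_dec (h : Gm f f₁ B M u u' g) (y : α × β → F) :
    ∃ d ∈ dS u g, cl f₁ u' (y + tens u d) ∈ eS h.sym u g := by
  obtain ⟨d, hd, e, he, h1⟩ := h.exists_add (cl f₁ u' y)
  exact ⟨d, hd, by rwa [map_add, h.cl'_tens, ← h1, add_neg_cancel_comm]⟩

theorem exists_ne_eS (h : Gm f f₁ B M u u' g) : ∃ e ∈ eS h.sym u g, e ≠ 0 := by
  by_contra! h0
  refine h.inv.notMem (h.stab (inv_mem h.mem) ?_)
  rintro _ ⟨w, rfl⟩
  obtain ⟨d, hd, e, he, rfl⟩ := h.exists_add w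
  rw [h0 e he, add_zero]
  exact mem_gP.1 hd

theorem xp_of_mem (h : Gm f f₁ B M u u' g) {x : α × β → F} (hx : x ∈ gP u g) :
    xp f₁ u g x = 0 := by
  rw [xp_apply, h.cl_of_mem (h.alt₁.alt u) (mem_gP.1 hx), tens_zero_right, mulVec_zero]

theorem xr'_mulVec (h : Gm f f₁ B M u u' g) (c : F) (x : α × β → F) :
    (g * h.xr u c * g⁻¹).1 *ᵥ x = x + c • xp f₁ u g x := h.conj_mulVec g c x

theorem cl_xp_ne (h : Gm f f₁ B M u u' g) {e : β → F} (he : e ∈ eS h.sym u g) (h0 : e ≠ 0) :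
    cl f₁ u (xp f₁ u g (tens u e)) ≠ 0 := fun h1 =>
  h0 (h.eq_zero (h.n2' (tens_mem_Pu u e) (h.memP h1)) he)

theorem xp_mem_Pu (h : Gm f f₁ B M u u' g) (v : α → F) {d : β → F} (hd : d ∈ dS u g) :
    xp f₁ u g (tens v d) ∈ Pu β u := by
  refine h.sym.le_of_nonsing (W := (Pu β u).comap (xp f₁ u g ∘ₗ tensR v)) h.nd_dS
    (fun s hs hs' => ?_) hd
  obtain ⟨r, hr, h1, h2⟩ := h.exists_rR hs'
  have h3 : ∀ y ∈ gP u g, (kr 1 r).1 *ᵥ y ∈ gP u g := fun y hy => by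
    obtain ⟨d, hd, h3⟩ := h.exists_dec y
    have h4 : cr B s (y + tens u d) = 0 := h.cr_eq_zero
      (by rw [h.sym.symm]; exact h.cl_mem (add_mem hy hd) s hs) (by rw [h.sym.symm]; exact h3 s hs)
    rw [map_add, add_eq_zero_iff_eq_neg, h.cr_tens] at h4
    rw [h2, h4, tens_neg_left, tens_smul_left]
    exact sub_mem hy (Submodule.smul_mem _ _ (neg_mem (Submodule.smul_mem _ _ hs)))
  obtain ⟨b, κ, -, h4, h5, -⟩ := h.exists_b (y := g⁻¹ * kr 1 r * g)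
    (mul_mem (mul_mem (inv_mem h.mem) (h.kr_mem' (one_mem _) hr)) h.mem) fun p hp => by
      rw [GL_mul_mulVec, GL_mul_mulVec, ← mem_gP]
      exact h3 _ (mulVec_mem_gP'.2 hp)
  have h6 : ∀ x, (kr 1 r).1 *ᵥ xp f₁ u g x = κ • xp f₁ u g ((kr 1 r).1 *ᵥ x) := fun x => by
    have e1 := congrArg (fun y => g.1 *ᵥ y) (h4 (cl f₁ u ((g⁻¹).1 *ᵥ x)))
    simp only [h5, GL_mul_mulVec, GL_mulVec_inv_mulVec, tens_smul_right, mulVec_smul] at e1
    exact e1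
  have h7 : ∀ x, cl f₁ u (xp f₁ u g x) = κ • cl f₁ u (xp f₁ u g ((kr 1 r).1 *ᵥ x)) := fun x => by
    rw [← map_smul, ← h6, h.cl_kr_one, h1, h.sym.rf_of_perp]
    rw [h.sym.symm]
    exact h.cl_mem (xp_mem x) s hs
  obtain ⟨e, he, he0⟩ := h.exists_ne_eS
  have h8 := h7 (tens u e)
  rw [kr_mulVec_tens, Units.val_one, one_mulVec, h1,
    h.sym.rf_of_perp (by rw [h.sym.symm]; exact he s hs)] at h8
  have h9 : κ = 1 := smul_left_injective F (h.cl_xp_ne he he0) (h8.symm.trans (one_smul _ _).symm)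
  have h10 := h7 (tens v s)
  rw [kr_mulVec_tens, Units.val_one, one_mulVec, h1, h.sym.rf_self hs', h9, one_smul,
    tens_neg_right, map_neg, map_neg] at h10
  exact h.memP ((smul_eq_zero.1 (show (2 : F) • cl f₁ u (xp f₁ u g (tens v s)) = 0 by
    linear_combination (norm := module) h10)).resolve_left h.sym.two)

theorem stab_of_fix (h : Gm f f₁ B M u u' g) {w₀ : β → F} (hw₀ : w₀ ∈ dS u g) (h0 : w₀ ≠ 0)
    (h1 : B w₀ w₀ = 0) {γ : GL (α × β) F} (hγ : γ ∈ M)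
    (h2 : ∀ v, ∀ d ∈ dS u g, γ.1 *ᵥ tens v d = tens v d) : ∀ p ∈ Pu β u, γ.1 *ᵥ p ∈ Pu β u := by
  obtain ⟨w, hw, hw'⟩ := Sym.exists_ne h.nd_dS hw₀ h0
  set w₁ := (B w₀ w)⁻¹ • w
  have h3 : w₁ ∈ dS u g := Submodule.smul_mem _ _ hw
  have h4 : B w₁ w₀ = 1 := by rw [h.sym.smul_left, h.sym.symm w, inv_mul_cancel₀ hw']
  have k1 : ∀ e ∈ eS h.sym u g, ∃ k ∈ M, k ∈ qrad f (Pt α w₀) ∧
      ∃ a : F, k.1 *ᵥ tens u w₁ - tens u w₁ = tens u e - a • tens u w₀ := fun e he => by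
    have h5 : B e w₀ = 0 := by rw [h.sym.symm]; exact he _ hw₀
    obtain ⟨b, hb, h6⟩ := h.exists_eR h1 h5
    refine ⟨_, h.kr_mem' (one_mem _) hb, ⟨?_, fun ζ hζ => ?_⟩, B e e / 2, ?_⟩
    · rintro _ ⟨v, rfl⟩
      simp [h6, h.cr_tens, h1, he _ hw₀]
    · have : cr B w₀ ζ = 0 := h.alt₁.nondeg' _ fun v => by
        rw [← h.f_tens', hζ _ (tens_mem_Pt _ _)]
      rw [h6, this, tens_zero_left, add_zero, sub_sub_cancel_left]
      exact neg_mem (tens_mem_Pt _ _)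
    · rw [h6, h.cr_tens, h.cr_tens, h4, he _ h3, one_smul, zero_smul, zero_add, tens_smul_left]
      abel
  have k2 : ∀ e ∈ eS h.sym u g, ∀ z ∈ eS h.sym u g, f (tens u z) (γ.1 *ᵥ tens u e) = 0 :=
    fun e he z hz => by
      obtain ⟨k, hk, h5, a, h6⟩ := k1 e he
      obtain ⟨l, hl, h7, b, h8⟩ := k1 z hz
      have h9 := qrad_conj h5 (h.hMi hγ) (by
        rintro _ ⟨v, rfl⟩
        rw [tensL_apply, h2 v _ hw₀]
        exact tens_mem_Pt _ _)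
      have h10 : γ * k * γ⁻¹ ∈ M := mul_mem (mul_mem hγ hk) (inv_mem hγ)
      obtain ⟨h11, h12⟩ := h.alt.qrad_comm (h.hMi h10) (h.hMi hl) h9 h7
      have h13 : (γ * k * γ⁻¹).1 *ᵥ tens u w₁ - tens u w₁ = γ.1 *ᵥ tens u e - a • tens u w₀ := by
        conv_lhs => rw [← h2 u _ h3]
        rw [GL_mul_mulVec, GL_mul_mulVec, GL_inv_mulVec_mulVec, ← mulVec_sub, h6, mulVec_sub,
          mulVec_smul, h2 u _ hw₀]
      set c := γ * k * γ⁻¹ * l * (γ * k * γ⁻¹)⁻¹ * l⁻¹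
      have hc : c ∈ M := mul_mem (mul_mem (mul_mem h10 hl) (inv_mem h10)) (inv_mem hl)
      have hc' : c ∈ qrad f (Pt α w₀) :=
        mul_mem (mul_mem (mul_mem h9 h7) (inv_mem h9)) (inv_mem h7)
      have h14 := (h.lemR' (inv_mem hc) one_ne_zero fun p hp => by
        obtain ⟨v, hv⟩ := h11 p
        rw [inv_inv, GL_mul_mulVec, GL_mul_mulVec, h.xr_mulVec, mulVec_add, GL_inv_mulVec_mulVec,
          ← sub_add_cancel (c.1 *ᵥ p) p, ← hv, map_add, h.cl_of_mem (h.alt₁.alt u) hp, add_zero,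
          tensL_apply, h.cl_tens, one_smul, tens_smul_right, mulVec_smul,
          (inv_mem hc').1 _ (tens_mem_Pt _ _)]
        exact add_mem hp (Submodule.smul_mem _ _ (tens_mem_Pu _ _))).2 _ (tens_mem_Pu u w₁)
      have h15 := h12 (tens u w₁) (tens u w₁)
      have h16 : f (tens u w₁) (c.1 *ᵥ tens u w₁) = 0 := by
        rw [← h.hMi (inv_mem hc), GL_inv_mulVec_mulVec, h.f_tens, h14, h.sym.zero_left]
      have h17 : f (tens u w₀) (γ.1 *ᵥ tens u e) = 0 := by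
        rw [← h2 u _ hw₀, h.hMi hγ, h.tt, h.alt₁.alt, zero_mul]
      rw [h13, h8, h.alt.skew (γ.1 *ᵥ tens u e - a • tens u w₀)] at h15
      simp only [h.alt.sub_left, h.alt.sub_right, h.alt.smul_left, h.alt.smul_right', h.tt,
        h.alt₁.alt, h16, h17] at h15
      exact mul_left_cancel₀ h.sym.two (by linear_combination -h15)
  rintro _ ⟨w, rfl⟩
  obtain ⟨d, hd, e, he, rfl⟩ := h.exists_add w
  rw [tensR_apply, tens_add_right, mulVec_add, h2 u d hd]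
  refine add_mem (tens_mem_Pu _ _) (h.memP (h.cl_of_perp ?_))
  rintro _ ⟨w, rfl⟩
  obtain ⟨d, hd, z, hz, rfl⟩ := h.exists_add w
  rw [tensR_apply, tens_add_right, h.alt.add_left, k2 e he z hz, ← h2 u d hd, h.hMi hγ, h.tt,
    h.alt₁.alt, zero_mul, add_zero]

theorem false_of_sing (h : Gm f f₁ B M u u' g) {w₀ : β → F} (hw₀ : w₀ ∈ dS u g)
    (h0 : w₀ ≠ 0) (h1 : B w₀ w₀ = 0) : False := by
  set x' := g * h.xr u 1 * g⁻¹ with hx'
  have h2 : x' ∈ M := mul_mem (mul_mem h.mem (h.xr_memM u 1)) (inv_mem h.mem)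
  have h4 := h.stab_of_fix hw₀ h0 h1 (γ := (h.xr u 1)⁻¹ * (x'⁻¹ * h.xr u 1 * x'))
    (mul_mem (inv_mem (h.xr_memM _ _)) (mul_mem (mul_mem (inv_mem h2) (h.xr_memM _ _)) h2))
    fun v d hd => by
      have e1 : (h.xr u 1).1 *ᵥ (x'.1 *ᵥ tens v d) = x'.1 *ᵥ ((h.xr u 1).1 *ᵥ tens v d) := by
        rw [hx', h.xr'_mulVec, h.xr'_mulVec, mulVec_add, one_smul,
          h.xr_of_mem 1 (h.xp_mem_Pu v hd), h.xr_mulVec, map_add, one_smul, h.cl_tens,
          tens_smul_right, h.xp_of_mem (x := _ • tens u d) (Submodule.smul_mem _ _ hd), add_zero,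
          one_smul]
      rw [GL_mul_mulVec, GL_mul_mulVec, GL_mul_mulVec, e1, GL_inv_mulVec_mulVec,
        GL_inv_mulVec_mulVec]
  have h5 := (h.lemR' (inv_mem h2) one_ne_zero fun p hp => by
    have := h4 p hp
    rwa [GL_mul_mulVec, ← mulVec_mem_iff (g := h.xr u 1) fun p hp => by rwa [h.xr_of_mem 1 hp],
      GL_mulVec_inv_mulVec, ← inv_inv x'] at this).2
  refine h.notMem (h.lemR' h.mem (c := -1) (by simp) fun p hp => h.memP ?_).1
  convert h5 p hp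
  rw [hx', ← h.xr_neg]
  group

end Gm

end Cfsg.Lib.SympM
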