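import Cfsg.Agent.Lib.Symp.MinA
import Cfsg.Agent.Lib.TW.SpD

/-!
# Maximality of `Sp₂ ⊗ O₄⁻` and of `Sp₂ ⊗ Sp₂ ⊗ Sp₂` in `Sp₈`
-/

namespace Cfsg.Lib.SympM

open Matrix Module Cfsg.Geo Cfsg.Lib.Asch Cfsg.Lib.Linear Cfsg.Lib.Symp
open scoped MatrixGroups Kronecker

set_option linter.unusedSectionVars false

variable {α β : Type} [Fintype α] [Fintype β] [DecidableEq α] [DecidableEq β] {F : Type*} [Field F]
  {f : (α × β → F) → (α × β → F) → F} {f₁ : (α → F) → (α → F) → F}
  {B : (β → F) → (β → F) → F} {M : Subgroup (GL (α × β) F)} {u u' : α → F} {g : GL (α × β) F}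

theorem two_le_of_pair {V : Type*} [AddCommGroup V] [Module F V] [FiniteDimensional F V]
    {U : Submodule F V} {a b : V} (ha : a ∈ U) (hb : b ∈ U) (h0 : a ≠ 0) (h : ∀ c : F, c • a ≠ b) :
    2 ≤ finrank F U ∧ (finrank F U ≤ 2 → ∀ x ∈ U, ∃ p q : F, p • a + q • b = x) := by
  have h1 := (finrank_span_eq_card ((LinearIndependent.pair_iff' h0).2 h)).ge
  rw [Matrix.range_cons_cons_empty, Fintype.card_fin] at h1
  have h2 : Submodule.span F {a, b} ≤ U := Submodule.span_le.2 (by rintro _ (rfl | rfl) <;> assumption)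
  exact ⟨h1.trans (Submodule.finrank_mono h2), fun h3 x hx => Submodule.mem_span_pair.1 (by
    rwa [Submodule.eq_of_le_of_finrank_le h2 (h3.trans h1)])⟩

theorem mem_of_sing [Finite F] (h : Sym B) (h3 : 3 ≤ Fintype.card β) {W : Submodule F (β → F)}
    (hW : ∀ w, B w w = 0 → w ∈ W) (w : β → F) : w ∈ W := by
  obtain ⟨y, -, hy0, hy⟩ := h.tForm.sing ⊤ (by simpa)
  have k : ∀ w, B w y ≠ 0 → w ∈ W := fun w hw => by
    obtain ⟨c, hc⟩ := h.tForm.exists_sub_singular hy hw
    simpa using add_mem (hW _ hc) (W.smul_mem c (hW y hy))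
  obtain ⟨x, hx⟩ := exists_form_eq_one h.toSForm hy0
  by_cases h0 : B w y = 0
  · simpa using sub_mem (k (w + x) (by simp [h.add_left, h0, hx])) (k x (by simp [hx]))
  · exact k w h0

namespace Gm

variable [Finite F] (h : Gm f f₁ B M u u' g)
include h

theorem star (h2 : finrank F (dS u g) ≤ 2) {k : GL (α × β) F} (hk : k ∈ M)
    (hd : 2 ≤ finrank F ↥(gP u g ⊓ gP u (k * g))) {w : β → F} (h0 : w ≠ 0) (h1 : B w w = 0)
    (hy : g.1 *ᵥ tens u w ∈ gP u (k * g)) : ∀ p ∈ gP u g, k.1 *ᵥ p ∈ gP u g := by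
  have e : tens u w ∈ gP u (g⁻¹ * (k * g)) := by
    rwa [← mulVec_mem_gP (g := g), mul_inv_cancel_left]
  by_cases k1 : g⁻¹ * (k * g) ∈ kronGL α β F
  · obtain ⟨a, b, k1⟩ := inv_mem k1
    rw [mem_gP, k1, kr_mulVec_tens] at e
    obtain ⟨c, hc⟩ := h.exists_smul_of_mem (GL_mulVec_ne_zero b h0) e
    have k2 := mulVec_mem_iff (g := (g⁻¹ * (k * g))⁻¹) (P := Pu β u) (by
      rintro _ ⟨w, rfl⟩
      rw [k1, tensR_apply, kr_mulVec_tens, ← hc, tens_smul_left]
      exact Submodule.smul_mem _ _ (tens_mem_Pu _ _))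
    intro p hp
    rw [mem_gP, ← k2]
    simpa only [_root_.mul_inv_rev, inv_inv, GL_mul_mulVec, GL_mulVec_inv_mulVec,
      GL_inv_mulVec_mulVec] using mem_gP.1 hp
  refine (false_of_sing (g := g⁻¹ * (k * g)) ⟨h.toTCtx, h.two, h.hm,
    mul_mem (inv_mem h.mem) (mul_mem hk h.mem), k1, fun m hm => (h.max m hm).imp_right fun k2 => ?_⟩
    e h0 h1).elim
  rw [← h.finrank_dS] at k2
  rw [← finrank_map_GL g⁻¹] at hd
  refine k2.trans (h2.trans (hd.trans (Submodule.finrank_mono ?_)))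
  rintro _ ⟨x, hx, rfl⟩
  exact ⟨mem_gP.1 hx.1, mulVec_mem_gP.2 hx.2⟩

theorem two_le_rf (h4 : Fintype.card β = 4) {s : β → F} {k : GL (α × β) F} {c : F}
    (hk : ∀ x, k.1 *ᵥ x = x - c • tens (cr B s x) s) :
    2 ≤ finrank F ↥(gP u g ⊓ gP u (k * g)) := by
  have k1 := finrank_le_inf_dotKer (gP u g) (dv (RingHom.id F) f (tens u s))
  have k2 := finrank_le_inf_dotKer (gP u g ⊓ dotKer (dv (RingHom.id F) f (tens u s)))
    (dv (RingHom.id F) f (tens u' s))
  have k3 : finrank F (gP u g) = 4 := by rw [gP, finrank_map_GL, finrank_Pu h.ne, h4]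
  refine le_trans (by omega) (Submodule.finrank_mono (s := gP u g ⊓
    dotKer (dv (RingHom.id F) f (tens u s)) ⊓ dotKer (dv (RingHom.id F) f (tens u' s)))
    fun y hy => ⟨hy.1.1, ?_⟩)
  have k4 : cr B s y = 0 := h.cr_eq_zero
    (by rw [← h.f_tens, ← dv_dot h.alt.toSForm]; exact hy.1.2)
    (by rw [← h.f_tens, ← dv_dot h.alt.toSForm]; exact hy.2)
  have : k.1 *ᵥ y = y := by rw [hk, k4]; simp
  rw [← this]
  exact mulVec_mem_gP.2 hy.1.1

theorem two_le_dS (h4 : Fintype.card β = 4) : 2 ≤ finrank F (dS u g) := by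
  by_contra! h2
  have k1 : ∀ s, B s s ≠ 0 → ∀ y ∈ gP u g, tens (cr B s y) s ∈ gP u g := fun s hs y hy => by
    obtain ⟨b, hb, -, h1⟩ := h.exists_rR hs
    have := h.le_of_lt' h.mem (mul_mem (h.kr_mem' (one_mem _) hb) h.mem)
      (by rw [← h.finrank_dS]; exact h2.trans_le (h.two_le_rf h4 h1)) _ (mem_gP.1 hy)
    rwa [GL_mul_mulVec, GL_mul_mulVec, GL_mulVec_inv_mulVec, ← mem_gP, h1,
      Submodule.sub_mem_iff_right _ hy, Submodule.smul_mem_iff _ (div_ne_zero h.sym.two hs)] at this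
  obtain ⟨w₀, hw₀⟩ := h.exists_ne
  obtain ⟨s, hs, k2⟩ : ∃ s, B s s ≠ 0 ∧ cr B s (g.1 *ᵥ tens u w₀) ≠ 0 := by
    by_contra! k2
    let W : Submodule F (β → F) :=
      { carrier := {w | ∀ v, f (g.1 *ᵥ tens u w₀) (tens v w) = 0}
        add_mem' := fun ha hb v => by rw [tens_add_right, h.alt.add_right, ha, hb, add_zero]
        zero_mem' := fun v => by rw [tens_zero_right, h.alt.zero_right]
        smul_mem' := fun c x hx v => by rw [tens_smul_right, h.alt.smul_right', hx, mul_zero] }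
    refine GL_mulVec_ne_zero g (tens_ne_zero h.ne hw₀) (h.alt.nondeg' _ fun x => ?_)
    induction x using tens_induction with
    | h0 => exact h.alt.zero_right _
    | ha x y hx hy => rw [h.alt.add_right, hx, hy, add_zero]
    | ht v w => exact h.sym.le_of_nonsing (W := W) h.sym.nondeg_top (fun s _ hs v => by
        rw [h.f_tens', k2 s hs, h.alt₁.zero_left]) trivial v
  refine h.inv.notMem (h.mem_kron_of_map (inv_mem h.mem) k2 fun w => mem_gP.1 ?_)
  refine h.sym.le_of_irr (W := (gP u g).comap (tensR _)) h.sym.nondeg_top (w := s) trivial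
    (k1 s hs _ (mulVec_mem_gP'.2 (tens_mem_Pu _ _))) (fun e => hs (by rw [e, h.sym.zero_left]))
    (.inr (by simpa using h.h3)) (fun t _ ht w hw e => ?_) trivial
  have := k1 t ht _ hw
  rwa [tensR_apply, h.cr_tens, tens_smul_left, Submodule.smul_mem_iff _ e] at this

theorem false (h4 : Fintype.card β = 4) : False := by
  have hD : finrank F (dS u g) ≤ 2 := by
    by_contra! k
    obtain ⟨w, hw, h0, h1⟩ := h.sym.tForm.sing _ k
    exact h.false_of_sing hw h0 h1
  have hE : finrank F (eS h.sym u g) ≤ 2 := by have := h.finrank_add; have := h.two_le_dS h4; omega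
  have S := h.sym
  obtain ⟨w, h1, hb⟩ : ∃ w, B w w = 0 ∧ -cl f₁ u' (g.1 *ᵥ tens u w) ∉ eS h.sym u g := by
    by_contra! k
    obtain ⟨d, hd, h0⟩ := Submodule.exists_mem_ne_zero_of_ne_bot (p := dS u g) fun e => by
      have := h.two_le_dS h4
      rw [e, finrank_bot] at this
      omega
    obtain ⟨_, ⟨w, rfl⟩, e⟩ := id hd
    have := mem_of_sing S h.h3 (W := (eS h.sym u g).comap
      (-cl f₁ u' ∘ₗ mulVecLin g.1 ∘ₗ tensR u)) k w
    refine h0 (h.eq_zero hd ?_)
    rwa [← neg_neg d, ← h.cl'_tens d, ← tensR_apply, ← e]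
  have h0 : w ≠ 0 := fun e => hb (by simp [e])
  have hy : g.1 *ᵥ tens u w ∈ gP u g := mulVec_mem_gP'.2 (tens_mem_Pu _ _)
  have he := h.cl_mem hy
  have e0 : cl f₁ u (g.1 *ᵥ tens u w) ≠ 0 := fun e =>
    h.inv.false_of_sing (w₀ := w) (mem_gP_inv.2 (h.memP e)) h0 h1
  have ey := h.eq_tens (h.memP (h.cl_sub (g.1 *ᵥ tens u w)))
  rw [map_sub, h.cl_tens_self, sub_zero, sub_eq_iff_eq_add] at ey
  have st := fun k hk hd => h.star hD (k := k) hk hd h0 h1
  have cz := fun s => h.cr_eq_zero (s := s) (y := g.1 *ᵥ tens u w)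
  generalize g.1 *ᵥ tens u w = y at hb hy he e0 ey st cz
  have k1 : ∀ s, B s s ≠ 0 → s ∈ S.pp (S.pp ⊤ (cl f₁ u y)) (-cl f₁ u' y) →
      s ∈ dS u g ∨ s ∈ eS h.sym u g := fun s hs h2 => by
    obtain ⟨r, hr, -, h3⟩ := h.exists_rR hs
    have h5 : (kr 1 r).1 *ᵥ y = y := by
      rw [h3, cz s (S.symm _ _ ▸ h2.1.2) (by
        simpa [S.symm _ s, S.neg_right] using (S.mem_pp.1 h2).2)]
      simp
    refine or_iff_not_imp_right.2 fun h6 => ?_
    obtain ⟨d, hd, h7⟩ : ∃ d ∈ dS u g, B d s ≠ 0 := by by_contra! k; exact h6 k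
    have := st _ (h.kr_mem' (one_mem _) hr) (h.two_le_rf h4 h3) (h5 ▸ mulVec_mem_gP.2 hy) _ hd
    rwa [h3, (gP u g).sub_mem_iff_right hd, Submodule.smul_mem_iff _ (div_ne_zero S.two hs),
      tensR_apply, h.cr_tens, tens_smul_left, Submodule.smul_mem_iff _ h7] at this
  generalize cl f₁ u y = e at he e0 ey k1
  generalize -cl f₁ u' y = b at hb ey k1
  have hA : 2 ≤ finrank F (S.pp (S.pp ⊤ e) b) := by
    have := S.finrank_le_pp ⊤ e
    have := S.finrank_le_pp (S.pp ⊤ e) b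
    have : finrank F (⊤ : Submodule F (β → F)) = Fintype.card β := by simp
    omega
  have k2 : ∀ x ∈ S.pp (S.pp ⊤ e) b, B x e = 0 ∧ B x b = 0 := fun x hx => ⟨hx.1.2, hx.2⟩
  generalize S.pp (S.pp ⊤ e) b = A at hA k1 k2
  have k3 : ∀ a, ∃ t ∈ A, ∀ c : F, c • a ≠ t := fun a => by
    obtain ⟨t, ht, k3⟩ := exists_mem_notMem_of_finrank_lt (W := A) (U := Submodule.span F {a})
      (by have := finrank_span_singleton_le (F := F) a; omega)
    exact ⟨t, ht, fun c e => k3 (Submodule.mem_span_singleton.2 ⟨c, e⟩)⟩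
  obtain ⟨s, sA, sD, s0, s', sA', sE, s1⟩ : ∃ s ∈ A, s ∈ dS u g ∧ B s s ≠ 0 ∧
      ∃ s' ∈ A, s' ∈ eS h.sym u g ∧ B s' s' ≠ 0 := by
    obtain ⟨s, hs, s0⟩ : ∃ s ∈ A, B s s ≠ 0 := by
      by_contra! k
      obtain ⟨a, ha, a0⟩ := k3 0
      obtain ⟨t, ht, t0⟩ := k3 a
      have := k _ (add_mem ha ht)
      simp only [S.add_left, S.add_right, k a ha, k t ht, S.symm t a] at this
      exact (h.hm a t (k a ha) (k t ht) (mul_left_cancel₀ S.two (by linear_combination this))
        (a0 0 <| (zero_smul _ _).trans ·.symm)).elim t0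
    obtain ⟨t, ht, t0, t1⟩ : ∃ t ∈ A, B t t ≠ 0 ∧ ∀ c : F, c • s ≠ t := by
      by_contra! k
      obtain ⟨t, ht, t0⟩ := k3 s
      have k4 : ∀ c : F, B (t + c • s) (t + c • s) = 0 := fun c => by
        by_contra k4
        obtain ⟨d, hd⟩ := k _ (add_mem ht (A.smul_mem c hs)) k4
        exact t0 (d - c) (by rw [sub_smul, hd, add_sub_cancel_right])
      have a0 := k4 0
      have a1 := k4 1
      have a2 := k4 (-1)
      simp only [S.add_left, S.add_right, S.smul_left, S.smul_right'] at a0 a1 a2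
      exact s0 (mul_left_cancel₀ S.two (by linear_combination a1 + a2 - 2 * a0))
    have s1 : s ≠ 0 := fun e => s0 (by rw [e, S.zero_left])
    rcases k1 s s0 hs with a | a <;> rcases k1 t t0 ht with c | c
    · refine (hb fun d hd => ?_).elim
      obtain ⟨p, q, rfl⟩ := (two_le_of_pair a c s1 t1).2 hD d hd
      simp [S.add_left, S.smul_left, k2 s hs, k2 t ht]
    · exact ⟨s, hs, a, s0, t, ht, c, t0⟩
    · exact ⟨t, ht, c, t0, s, hs, a, s0⟩
    · refine (e0 (h.nd_eS e he fun d hd => ?_)).elim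
      obtain ⟨p, q, rfl⟩ := (two_le_of_pair a c s1 t1).2 hE d hd
      simp [S.add_right, S.smul_right', S.symm e, k2 s hs, k2 t ht]
  have s2 : s ∉ eS h.sym u g := fun k => s0 (k s sD)
  have k4 : ∀ t : F, t ≠ 0 → B (s + t • s') (s + t • s') = 0 := fun t ht => by
    by_contra k4
    rcases k1 _ k4 (add_mem sA (A.smul_mem t sA')) with k | k
    · rw [Submodule.add_mem_iff_right _ sD, Submodule.smul_mem_iff _ ht] at k
      exact s1 (sE _ k)
    · exact s2 ((Submodule.add_mem_iff_left _ (Submodule.smul_mem _ t sE)).1 k)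
  have k5 : ∀ t : F, t ≠ 0 → t ^ 2 = 1 := fun t ht => by
    have a := k4 t ht
    have c := k4 1 one_ne_zero
    rw [S.add_smul_self (sE s sD)] at a c
    exact mul_right_cancel₀ s1 (by linear_combination a - c)
  have k6 := k4 1 one_ne_zero
  rw [one_smul] at k6
  obtain ⟨d, hd, e', he', rfl⟩ := h.exists_add b
  obtain ⟨p, c, rfl⟩ := (two_le_of_pair sE he (fun e => s1 (by rw [e, S.zero_left])) fun c hc => by
    have := (k2 _ sA').1
    rw [← hc, S.smul_right', mul_eq_zero, or_iff_left s1] at this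
    exact e0 (by rw [← hc, this, zero_smul])).2 hE e' he'
  have a1 := k2 _ sA
  have a2 := k2 _ sA'
  simp only [S.add_right, S.smul_right', a1.1, a2.1, sE s sD, S.symm s' d, sE d hd, mul_zero,
    add_zero, zero_add, true_and, mul_eq_zero, s1, or_false] at a1 a2
  rw [a2, zero_smul, zero_add] at hb ey
  have d0 : d ≠ 0 := fun k => hb (by rw [k, zero_add]; exact Submodule.smul_mem _ _ he)
  have d1 : B d d ≠ 0 := h.false_of_sing hd d0
  have d2 : B d e = 0 := he d hd
  have e1 : B e e ≠ 0 := fun k => by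
    obtain ⟨c, hc⟩ := h.hm e _ k k6 (by simp [S.add_right, S.symm e, k2 _ sA, k2 _ sA']) e0
    exact s2 (eq_sub_of_add_eq hc.symm ▸ sub_mem (Submodule.smul_mem _ _ he) sE)
  have e2 : B d d = B e e := by
    refine ((mul_eq_zero (a := B d d - B e e) (b := B d d + B e e)).1
      (by linear_combination k5 _ d1 - k5 _ e1)).elim sub_eq_zero.1 fun k => ?_
    obtain ⟨c, hc⟩ := h.hm (s + s') (d + e) k6
      (by simpa [S.add_left, S.add_right, d2, S.symm e d] using k)
      (by simp [S.add_left, S.add_right, a1, k2 _ sA, k2 _ sA', S.symm s' d, sE d hd])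
      fun k => s2 (eq_neg_of_add_eq_zero_left k ▸ neg_mem sE)
    have := congrArg (B s) hc
    simp only [S.smul_right', S.add_right, sE s sD, a1, k2 _ sA, add_zero, mul_eq_zero, s0,
      or_false] at this
    have := congrArg (B d) hc
    simp [*, S.add_right, S.zero_right] at this
    exact (d1 this.symm).elim
  have e3 : B (d - e) (d - e) = 2 * B d d := by
    simp only [S.sub_left, S.sub_right, d2, S.symm e d, ← e2]; ring
  obtain ⟨r, hr, r1⟩ := S.exists_rf (w := d - e) (e3 ▸ mul_ne_zero S.two d1)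
  have h2 := S.two
  have r2 : r.1 *ᵥ d = e := by
    rw [r1, S.rf_apply, e3, S.sub_right, d2, show 2 / (2 * B d d) * (B d d - 0) = 1 by
      field_simp; ring]; simp
  have r3 : r.1 *ᵥ e = d := by
    rw [r1, S.rf_apply, e3, S.sub_right, S.symm e d, d2, ← e2,
      show 2 / (2 * B d d) * (0 - B d d) = -1 by field_simp; ring]; simp
  have r4 : r.1 *ᵥ s = s := by rw [r1, S.rf_of_perp (by simp [S.sub_right, a1, k2 _ sA])]
  have v1 : f₁ (u' + c • u) u = 1 := by simp [h.alt₁.add_left, h.alt₁.smul_left, h.alt₁.alt, h.hu]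
  replace ey : y = tens u d + tens (u' + c • u) e := by
    rw [ey, tens_add_right, tens_add_left, tens_smul_left, tens_smul_right]; abel
  generalize u' + c • u = v at v1 ey
  have li : ∀ {u v : α → F}, f₁ v u = 1 → LinearIndependent F ![u, v] := fun {u v} e =>
    (LinearIndependent.pair_iff' fun k => by simp [k, h.alt₁.zero_right] at e).2 fun c k => by
      simp [← k, h.alt₁.smul_left, h.alt₁.alt] at e
  obtain ⟨a, ha, a3⟩ := h.alt₁.exists_iso_of_family ![u, v] ![v, -u] (li v1)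
    (li (by rw [h.alt₁.neg_left, h.alt₁.skew, v1, neg_neg])) fun i j => by
      fin_cases i <;> fin_cases j <;>
        simp [h.alt₁.alt, h.alt₁.neg_left, h.alt₁.neg_right, h.alt₁.skew u v, v1]
  have a4 : a.1 *ᵥ u = v := a3 0
  have a5 : a.1 *ᵥ v = -u := a3 1
  have p1 : tens u d ∈ gP u g := hd
  have p2 : tens v e ∈ gP u g := by simpa [ey] using sub_mem hy p1
  have p3 : tens v e ∈ gP u (kr a r * g) := by
    simpa only [kr_mulVec_tens, a4, r2] using (mulVec_mem_gP (g := kr a r)).2 p1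
  have p4 : tens u d ∈ gP u (kr a r * g) := by
    simpa only [kr_mulVec_tens, a5, r3, tens_neg_left, neg_mem_iff] using
      (mulVec_mem_gP (g := kr a r)).2 p2
  have := h.cl_mem (st _ (h.kr_mem' ha hr) (two_le_of_pair (Submodule.mem_inf.2 ⟨p1, p4⟩)
    (Submodule.mem_inf.2 ⟨p2, p3⟩) (tens_ne_zero h.ne d0)
    fun c k => e0 (by simpa [h.cl_tens, h.alt₁.alt, v1] using congrArg (cl f₁ u) k.symm)).1
    (ey ▸ add_mem p4 p3) _ sD)
  rw [tensR_apply, kr_mulVec_tens, a4, r4, h.cl_tens, v1, one_smul] at this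
  exact s2 this

end Gm

theorem isMaximalIn_kron [Finite F] (h : TAlt f f₁ B) (h2 : Fintype.card α = 2)
    (h3 : Fintype.card β = 4) (h4 : Mn B) :
    IsMaximalIn (iso f) (kronGL α β F ⊓ iso f) := by
  have : Nonempty α := Fintype.card_pos_iff.1 (by omega)
  have : Nonempty β := Fintype.card_pos_iff.1 (by omega)
  refine isMaximalIn_inf (fun hle => ?_) fun M hM hMi g hg hg' => ?_
  · obtain ⟨v, hv⟩ := exists_ne (0 : α × β → F)
    obtain ⟨t, ht, h1⟩ := h.alt.exists_st v 1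
    obtain ⟨w, hw, h5⟩ := exists_Pt_le (hle ht) (U := Submodule.span F {v}) (fun h5 => by
        obtain ⟨y, hy⟩ := exists_form_eq_one h.alt.toSForm hv
        have h6 := h1 y
        rw [h5, Units.val_one, one_mulVec, left_eq_add, hy, one_mul, one_smul] at h6
        exact hv h6)
      (fun x => by
        rw [h1, add_sub_cancel_left]
        exact Submodule.smul_mem _ _ (Submodule.mem_span_singleton_self v))
      (by have := finrank_span_singleton_le (F := F) v; omega)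
    have h6 := Submodule.finrank_mono h5
    have h7 := finrank_span_singleton_le (F := F) v
    rw [finrank_Pt hw] at h6
    omega
  by_contra hn
  obtain ⟨u, hu⟩ := exists_ne (0 : α → F)
  obtain ⟨u', hu'⟩ := exists_form_eq_one h.alt₁.toSForm hu
  obtain ⟨k, hk⟩ := exists_gm ⟨h, hM, hMi, hn, by omega, .inr h3.ge, hu'⟩ h2 h4 hg hg'
  exact hk.false h3

theorem isMaximalIn_tensor_minus {ι : Type} [Fintype ι] [DecidableEq ι] [Fintype F]
    {f : (ι → F) → (ι → F) → F} (h : Alt f) (hodd : Odd (Fintype.card F))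
    {e : ι ≃ Fin 2 × Fin 4} {P : GL ι F}
    {f₁ : (Fin 2 → F) → (Fin 2 → F) → F} {f₂ : (Fin 4 → F) → (Fin 4 → F) → F}
    (h₁ : IsSymplecticForm f₁) (h₂ : IsSymmetricForm f₂)
    (hm : ¬ IsPlusTypeOn (fun v => f₂ v v) ⊤)
    (hT : IsTensorFormStructure id f f₁ f₂ e P) :
    IsMaximalIn (iso f) (tensorProductSubgroup 2 4 e P ⊓ iso f) := by
  obtain ⟨c, hc, hT⟩ := hT
  have h2 : (2 : F) ≠ 0 := two_ne_zero_iff_odd_card.2 hodd
  have h₁' := alt_of_symplectic h₁
  have h₂' := sform_of_symmetric h₂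
  let f' : (Fin 2 × Fin 4 → F) → (Fin 2 × Fin 4 → F) → F := fun x y =>
    c⁻¹ * f (P.1 *ᵥ (x ∘ e)) (P.1 *ᵥ (y ∘ e))
  have h5 : ∀ x : ι → F, P.1 *ᵥ ((((P⁻¹).1 *ᵥ x) ∘ e.symm) ∘ e) = x := fun x => by
    rw [Function.comp_assoc, e.symm_comp_self, Function.comp_id, GL_mulVec_inv_mulVec]
  have h' : TAlt f' f₁ f₂ :=
    { alt :=
        { add_left := fun x y v => by
            simp only [f', Pi.add_comp, mulVec_add, h.add_left, mul_add]
          smul_left := fun a x v => by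
            simp only [f', Pi.smul_comp, mulVec_smul, h.smul_left, mul_left_comm]
          herm := fun u v => by simp [f', h.skew (P.1 *ᵥ (u ∘ e))]
          nondeg := fun v hv => by
            have := h.nondeg (P.1 *ᵥ (v ∘ e)) fun x => by
              have := hv (((P⁻¹).1 *ᵥ x) ∘ e.symm)
              simp only [f', h5] at this
              simpa [hc] using this
            have h6 : v ∘ e = 0 := GL_mulVec_injective P (by simpa using this)
            ext i
            simpa using congrFun h6 (e.symm i)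
          invol := fun _ => rfl
          eps := by simp
          alt := fun x => by simp [f', h.alt] }
      alt₁ := h₁'
      sym := ⟨h₂', h2⟩
      tt := fun v w v' w' => by
        simp only [f']
        rw [hT, inv_mul_cancel_left₀ hc, formOfGram_eq, Function.id_comp, kron_mulVec_tens,
          tens_dot_tens, h₁'.eq_dot, h₂'.eq_dot]
        rfl }
  have h6 : ∀ (g : GL (Fin 2 × Fin 4) F) x, (trGL e P g).1 *ᵥ (P.1 *ᵥ (x ∘ e)) =
      P.1 *ᵥ ((g.1 *ᵥ x) ∘ e) := fun g x => by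
    change (P * glReindex e.symm g * P⁻¹).1 *ᵥ _ = _
    rw [GL_mul_mulVec, GL_mul_mulVec, GL_inv_mulVec_mulVec, coe_glReindex, reindex_apply,
      submatrix_mulVec_equiv]
    congr 3
    ext i
    simp
  have h7 : (iso f').map (trGL e P : GL (Fin 2 × Fin 4) F →* GL ι F) = iso f := by
    ext g
    obtain ⟨g, rfl⟩ := (trGL e P).surjective g
    refine Subgroup.mem_map_equiv.trans ?_
    rw [MulEquiv.symm_apply_apply]
    refine ⟨fun hg x y => ?_, fun hg x y => ?_⟩
    · rw [← h5 x, ← h5 y, h6, h6]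
      exact mul_left_cancel₀ (inv_ne_zero hc) (hg _ _)
    · simp only [f']
      rw [← h6, ← h6, hg]
  have h10 := isMaximalIn_map (trGL e P) (isMaximalIn_kron h' (by simp) (by simp)
    fun a b ha hb hab h0 => by_contra fun k => hm ⟨Submodule.span F {a, b}, le_top, fun w hw => by
      obtain ⟨p, q, rfl⟩ := Submodule.mem_span_pair.1 hw
      simp [h'.sym.add_left, h'.sym.add_right, h'.sym.smul_left, h'.sym.smul_right',
        h'.sym.symm b a, ha, hb, hab], by
      have := finrank_span_pair_le (F := F) a b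
      have := (two_le_of_pair (U := Submodule.span F {a, b}) (Submodule.subset_span (by simp))
        (Submodule.subset_span (by simp)) h0 (not_exists.1 k)).1
      simp; omega⟩)
  rwa [Subgroup.map_inf _ _ _ (trGL e P).injective, h7, ← kroneckerSubgroup_eq, trGL,
    MulEquiv.coe_monoidHom_trans, ← Subgroup.map_map] at h10

open Cfsg.Lib.TW Cfsg.Lib.Unitary Cfsg.Lib.TMax in
theorem isMaximalIn_tw_sp8 [Fintype F] {f₁ : (Fin 2 → F) → (Fin 2 → F) → F}
    (h₁ : IsSymplecticForm f₁) (hodd : Odd (Fintype.card F)) (h3 : 5 ≤ Fintype.card F)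
    {e : (Fin 4 ⊕ Fin 4) ≃ (Fin 3 → Fin 2)} {P : GL (Fin 4 ⊕ Fin 4) F}
    (hT : IsTensorPowerFormStructure id (sympForm 4 F) f₁ e P) :
    IsMaximalIn (spGL 4 F) (tensorWreathSubgroup 2 3 e P ⊓ spGL 4 F) := by
  have ok : SpOk F (Fin 2 → F) := .inr ⟨by simp, two_ne_zero_iff_odd_card.2 hodd,
    by rwa [Nat.card_eq_fintype_card]⟩
  refine isMaximalIn_inf ((amb_sp (by omega) (by omega)).not_pow le_rfl (by omega) (by simp) e P)
    fun M hM hM' g hg hg' => ?_
  let B := LinearMap.flip (Symp.bil (Fin 4) F)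
  have key : ∀ g, g ∈ spGL 4 F ↔ glEquiv _ F g ∈ UG B := fun g =>
    ⟨fun h u v => by simpa [B, ← Symp.sympForm_eq_bil] using h v u,
      fun h u v => by simpa [B, ← Symp.sympForm_eq_bil] using h v u⟩
  have alt : ∀ y, B y y = 0 := Symp.bil_isAlt (Fin 4) F
  have hB : EF (RingHom.id F) (-1) B := ⟨fun _ => rfl, .inr rfl, fun u v => by
    simp [B, (Symp.bil_isAlt (Fin 4) F).neg_eq], (Symp.bil_nondegenerate (Fin 4) F).2,
    fun s => ⟨0, by simp [alt]⟩⟩
  obtain ⟨Φ, p, -, h2, h4⟩ := exists_pv (sform_of_symplectic h₁) (B := B)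
    (fun u v => (Symp.sympForm_eq_bil 4 v u).symm) (by omega) (by omega) hT
  have : Nontrivial (Fin (2 ^ (3 - 1)) → F) := Module.nontrivial_of_finrank_pos (R := F) (by
    simpa using pow_pos (by omega) _)
  have : Nontrivial (Fin 3) := Fin.nontrivial_iff_two_le.2 (by omega)
  have h5 : ∀ g, Φ.Wr g → g ∈ UG B → g ∈ M.map (glEquiv _ F).toMonoidHom := fun g h h' => by
    obtain ⟨g, rfl⟩ := (glEquiv _ F).surjective g
    exact ⟨g, hM ⟨h2 g h, (key g).2 h'⟩, rfl⟩
  have alt₁ : ∀ y, TMax.bil (sform_of_symplectic h₁) 1 y y = 0 := fun y => by simp [h₁.alternating]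
  have γ := gs_of (ef_sp h₁) alt₁ (by simp) (fun _ _ h => h.1) le_rfl
  refine (max_sp (M := M.map (glEquiv _ F).toMonoidHom) ok (ef_sp h₁) alt₁
    (fun i e b hb => h5 _ (Φ.wr_kr i b) ((p.cp γ.toGm i).kr_mem hb.1)) (fun s s' => ?_) p hB alt
    (by rintro _ ⟨g, hg, rfl⟩; exact (key g).1 (hM' hg)) (Symp.two_ne_zero_iff_odd_card.2 hodd)
    (by decide) (by simp)).elim (fun h => (hg' (h2 g (h _ ⟨g, hg, rfl⟩))).elim) fun h g hg => ?_
  · obtain ⟨a, e1, e2⟩ := h4 s
    obtain ⟨b, e3, e4⟩ := h4 s'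
    exact ⟨_, h5 _ (e1.comm e3).wr (mul_mem (mul_mem (mul_mem (p.perm_mem e2) (p.perm_mem e4))
      (inv_mem (p.perm_mem e2))) (inv_mem (p.perm_mem e4))), e1.comm e3⟩
  · obtain ⟨g', h6, h7⟩ := h ((key g).1 hg)
    rwa [← (glEquiv _ F).injective h7]

end Cfsg.Lib.SympM
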