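import Cfsg.Agent.Lib.Symp.TensO
import Cfsg.Agent.Lib.Linear.UnA

/-!
# Symplectic tensor orthogonal: basic elements and the groups centralising `u ⊗ V₂`
-/

namespace Cfsg.Lib.Symp

open Matrix Module Cfsg.Geo Cfsg.Lib.Asch Cfsg.Lib.Linear
open scoped MatrixGroups

set_option linter.unusedSectionVars false

section General

variable {ι : Type} [Fintype ι] [DecidableEq ι] {F : Type*} [Field F]
  {f : (ι → F) → (ι → F) → F} {P : Submodule F (ι → F)}

theorem Alt.fix_of_sub_mem (h : Alt f) {g : GL ι F} (hg : g ∈ iso f)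
    (h1 : ∀ x, g.1 *ᵥ x - x ∈ P) {ζ : ι → F} (hζ : ∀ p ∈ P, f ζ p = 0) : g.1 *ᵥ ζ = ζ := by
  refine h.ext_left fun x => ?_
  obtain ⟨x, rfl⟩ : ∃ y, g.1 *ᵥ y = x := ⟨_, GL_mulVec_inv_mulVec g x⟩
  have := hζ _ (h1 x)
  rw [h.sub_right, sub_eq_zero] at this
  rw [hg, this]

theorem Alt.perp_of_fix (h : Alt f) {g : GL ι F} (hg : g ∈ iso f) {p : ι → F}
    (hp : g.1 *ᵥ p = p) (x : ι → F) : f (g.1 *ᵥ x - x) p = 0 := by
  rw [h.sub_left, ← hp, hg, hp, sub_self]

theorem Alt.sub_mem_of_fix (h : Alt f) {g : GL ι F} (hg : g ∈ iso f)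
    (h1 : ∀ ζ, (∀ p ∈ P, f p ζ = 0) → g.1 *ᵥ ζ = ζ) (x : ι → F) : g.1 *ᵥ x - x ∈ P :=
  mem_of_perp h.toSForm fun y hy => h.perp_of_fix hg (h1 y hy) x

/-- The unipotent radical of the stabiliser of `P`. -/
def qrad (f : (ι → F) → (ι → F) → F) (P : Submodule F (ι → F)) : Subgroup (GL ι F) where
  carrier := {g | (∀ p ∈ P, g.1 *ᵥ p = p) ∧ ∀ ζ, (∀ p ∈ P, f ζ p = 0) → g.1 *ᵥ ζ - ζ ∈ P}
  one_mem' := ⟨fun p _ => by simp, fun ζ _ => by simp⟩
  mul_mem' := fun {a b} ha hb => ⟨fun p hp => by rw [GL_mul_mulVec, hb.1 p hp, ha.1 p hp],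
    fun ζ hζ => by
      have h1 := ha.1 _ (hb.2 ζ hζ)
      rw [mulVec_sub, sub_eq_iff_eq_add] at h1
      rw [GL_mul_mulVec, h1, add_sub_assoc]
      exact add_mem (hb.2 ζ hζ) (ha.2 ζ hζ)⟩
  inv_mem' := fun {a} ha => ⟨fun p hp => by rw [← ha.1 p hp, GL_inv_mulVec_mulVec, ha.1 p hp],
    fun ζ hζ => by
      have h1 := congrArg (fun x => (a⁻¹).1 *ᵥ x) (ha.1 _ (ha.2 ζ hζ))
      simp only [GL_inv_mulVec_mulVec, mulVec_sub] at h1
      rw [← neg_mem_iff, neg_sub, ← h1]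
      exact ha.2 ζ hζ⟩

theorem qrad_conj {g k : GL ι F} (hg : g ∈ qrad f P) (hk : k ∈ iso f)
    (hP : ∀ p ∈ P, k.1 *ᵥ p ∈ P) : k * g * k⁻¹ ∈ qrad f P := by
  refine ⟨fun p hp => ?_, fun ζ hζ => ?_⟩
  · rw [GL_mul_mulVec, GL_mul_mulVec, hg.1, GL_mulVec_inv_mulVec]
    rwa [← mulVec_mem_iff hP, GL_mulVec_inv_mulVec]
  · have := hP _ (hg.2 ((k⁻¹).1 *ᵥ ζ) fun p hp => by
      rw [← hk, GL_mulVec_inv_mulVec, hζ _ (hP p hp)])
    rwa [mulVec_sub, GL_mulVec_inv_mulVec, ← GL_mul_mulVec, ← GL_mul_mulVec] at this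

theorem Alt.qrad_comm (h : Alt f) {g k : GL ι F} (hg : g ∈ iso f) (hk : k ∈ iso f)
    (hg' : g ∈ qrad f P) (hk' : k ∈ qrad f P) :
    (∀ x, (g * k * g⁻¹ * k⁻¹).1 *ᵥ x - x ∈ P) ∧ ∀ x y, f x ((g * k * g⁻¹ * k⁻¹).1 *ᵥ y - y) =
      f (k.1 *ᵥ x - x) (g.1 *ᵥ y - y) - f (g.1 *ᵥ x - x) (k.1 *ᵥ y - y) := by
  set e := g * k * g⁻¹ * k⁻¹ with he
  have he' : e ∈ iso f := mul_mem (mul_mem (mul_mem hg hk) (inv_mem hg)) (inv_mem hk)
  have h1 : ∀ {g}, g ∈ iso f → g ∈ qrad f P → ∀ x, ∀ p ∈ P, f (g.1 *ᵥ x - x) p = 0 :=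
    fun hg hg' x p hp => h.perp_of_fix hg (hg'.1 p hp) x
  have h2 : ∀ y, e.1 *ᵥ (k.1 *ᵥ (g.1 *ᵥ y)) - k.1 *ᵥ (g.1 *ᵥ y) =
      (g.1 *ᵥ (k.1 *ᵥ y - y) - (k.1 *ᵥ y - y)) - (k.1 *ᵥ (g.1 *ᵥ y - y) - (g.1 *ᵥ y - y)) :=
    fun y => by
      simp only [he, GL_mul_mulVec, GL_inv_mulVec_mulVec, mulVec_sub]
      abel
  have h3 : ∀ x, e.1 *ᵥ x - x ∈ P := fun x => by
    obtain ⟨y, rfl⟩ : ∃ y, k.1 *ᵥ (g.1 *ᵥ y) = x :=
      ⟨(g⁻¹).1 *ᵥ ((k⁻¹).1 *ᵥ x), by rw [GL_mulVec_inv_mulVec, GL_mulVec_inv_mulVec]⟩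
    rw [h2]
    exact sub_mem (hg'.2 _ (h1 hk hk' _)) (hk'.2 _ (h1 hg hg' _))
  have h4 : ∀ {g}, g ∈ iso f → g ∈ qrad f P → ∀ x ζ, (∀ p ∈ P, f ζ p = 0) →
      f x (g.1 *ᵥ ζ - ζ) = -f (g.1 *ᵥ x - x) ζ := fun {g} hg hg' x ζ hζ => by
    have := h1 hg hg' x _ (hg'.2 ζ hζ)
    simp only [h.sub_left, h.sub_right, hg x ζ] at this ⊢
    linear_combination -this
  refine ⟨h3, fun x y => ?_⟩
  have h5 := h.fix_of_sub_mem he' h3 (h1 (mul_mem hk hg) (mul_mem hk' hg') y)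
  rw [mulVec_sub, GL_mul_mulVec k g, sub_eq_sub_iff_sub_eq_sub, h2] at h5
  rw [← h5, h.sub_right, h4 hg hg' _ _ (h1 hk hk' y), h4 hk hk' _ _ (h1 hg hg' y)]
  ring

theorem Alt.exists_map (h : Alt f) {u v : ι → F} (hu : u ≠ 0) (hv : v ≠ 0) :
    ∃ a ∈ iso f, a.1 *ᵥ u = v := by
  obtain ⟨a, ha, h1⟩ := h.exists_iso_of_family (κ := Unit) (fun _ => u) (fun _ => v)
    (by simpa) (by simpa) fun _ _ => by rw [h.alt, h.alt]
  exact ⟨a, ha, h1 ()⟩

theorem exists_form_eq_one {σ : F →+* F} {ε : F} (h : SForm σ ε f) {u : ι → F} (hu : u ≠ 0) :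
    ∃ x, f x u = 1 := by
  obtain ⟨x, hx⟩ := exists_form_ne_zero h hu
  exact ⟨(f x u)⁻¹ • x, by rw [h.smul_left, inv_mul_cancel₀ hx]⟩

end General

variable {α β : Type} [Fintype α] [Fintype β] [DecidableEq α] [DecidableEq β] {F : Type*} [Field F]

/-- Contraction of the first tensor factor with `f₁(·, u)`. -/
noncomputable def cl (f₁ : (α → F) → (α → F) → F) (u : α → F) : (α × β → F) →ₗ[F] (β → F) :=
  ctl (dv (RingHom.id F) f₁ u)

/-- Contraction of the second tensor factor with `B(·, w)`. -/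
noncomputable def cr (B : (β → F) → (β → F) → F) (w : β → F) : (α × β → F) →ₗ[F] (α → F) :=
  ctr (dv (RingHom.id F) B w)

/-- The subspace `u ⊗ V₂`. -/
def Pu (β : Type) (u : α → F) : Submodule F (α × β → F) := LinearMap.range (tensR u)

theorem tens_mem_Pu (u : α → F) (w : β → F) : tens u w ∈ Pu β u := ⟨w, rfl⟩

theorem finrank_Pu {u : α → F} (hu : u ≠ 0) : finrank F (Pu β u) = Fintype.card β := by
  rw [Pu, LinearMap.finrank_range_of_inj (tensR_injective hu), finrank_fintype_fun_eq_card]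

theorem tens_neg_left (v : α → F) (w : β → F) : tens (-v) w = -tens v w := map_neg (tensL w) v

theorem tens_neg_right (v : α → F) (w : β → F) : tens v (-w) = -tens v w := map_neg (tensR v) w

theorem kr_mul (a c : GL α F) (b d : GL β F) : kr a b * kr c d = kr (a * c) (b * d) :=
  Units.ext (mul_kronecker_mul _ _ _ _).symm

/-- The alternating form `f` is the tensor product of the alternating form `f₁` with the
symmetric form `B`. -/
structure TAlt (f : (α × β → F) → (α × β → F) → F) (f₁ : (α → F) → (α → F) → F)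
    (B : (β → F) → (β → F) → F) : Prop where
  alt : Alt f
  alt₁ : Alt f₁
  sym : Sym B
  tt : ∀ v w v' w', f (tens v w) (tens v' w') = f₁ v v' * B w w'

namespace TAlt

variable {f : (α × β → F) → (α × β → F) → F} {f₁ : (α → F) → (α → F) → F}
  {B : (β → F) → (β → F) → F} {M : Subgroup (GL (α × β) F)} {u u' : α → F}

theorem cl_tens (h : TAlt f f₁ B) (u v : α → F) (w : β → F) :
    cl f₁ u (tens v w) = f₁ v u • w := by rw [cl, ctl_tens, dv_dot h.alt₁.toSForm]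

theorem cr_tens (h : TAlt f f₁ B) (y : β → F) (v : α → F) (w : β → F) :
    cr B y (tens v w) = B w y • v := by rw [cr, ctr_tens, dv_dot h.sym.toSForm]

theorem f_tens (h : TAlt f f₁ B) (x : α × β → F) (u : α → F) (w : β → F) :
    f x (tens u w) = B (cl f₁ u x) w := by
  induction x using tens_induction with
  | h0 => rw [map_zero, h.alt.zero_left, h.sym.zero_left]
  | ht v y => rw [h.tt, h.cl_tens, h.sym.smul_left]
  | ha x y hx hy => rw [map_add, h.alt.add_left, h.sym.add_left, hx, hy]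

theorem f_tens' (h : TAlt f f₁ B) (x : α × β → F) (u : α → F) (w : β → F) :
    f x (tens u w) = f₁ (cr B w x) u := by
  induction x using tens_induction with
  | h0 => rw [map_zero, h.alt.zero_left, h.alt₁.zero_left]
  | ht v y => rw [h.tt, h.cr_tens, h.alt₁.smul_left, mul_comm]
  | ha x y hx hy => rw [map_add, h.alt.add_left, h.alt₁.add_left, hx, hy]

theorem cl_add (h : TAlt f f₁ B) (u v : α → F) (x : α × β → F) :
    cl f₁ (u + v) x = cl f₁ u x + cl f₁ v x := h.sym.ext_left fun w => by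
  rw [h.sym.add_left, ← h.f_tens, ← h.f_tens, ← h.f_tens, tens_add_left, h.alt.add_right]

theorem cl_smul (h : TAlt f f₁ B) (c : F) (u : α → F) (x : α × β → F) :
    cl f₁ (c • u) x = c • cl f₁ u x := h.sym.ext_left fun w => by
  rw [h.sym.smul_left, ← h.f_tens, ← h.f_tens, tens_smul_left, h.alt.smul_right']

theorem perp_iff (h : TAlt f f₁ B) {ζ : α × β → F} :
    (∀ p ∈ Pu β u, f ζ p = 0) ↔ cl f₁ u ζ = 0 :=
  ⟨fun h0 => h.sym.nondeg' _ fun w => by rw [← h.f_tens, h0 _ (tens_mem_Pu u w)],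
    fun h0 _ ⟨w, hw⟩ => by rw [← hw, tensR_apply, h.f_tens, h0, h.sym.zero_left]⟩

theorem cl_of_mem (h : TAlt f f₁ B) {z : α → F} (hz : f₁ z u = 0) {p : α × β → F}
    (hp : p ∈ Pu β u) : cl f₁ z p = 0 := by
  obtain ⟨w, rfl⟩ := hp
  rw [tensR_apply, h.cl_tens, h.alt₁.skew, hz, neg_zero, zero_smul]

theorem mem_Pu (h : TAlt f f₁ B) (hu : f₁ u' u = 1) {x : α × β → F}
    (hx : ∀ z, f₁ z u = 0 → cl f₁ z x = 0) : x ∈ Pu β u := by
  refine ⟨-cl f₁ u' x, h.alt.ext_left fun y => ?_⟩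
  induction y using tens_induction with
  | h0 => rw [h.alt.zero_right, h.alt.zero_right]
  | ha y z hy hz => rw [h.alt.add_right, h.alt.add_right, hy, hz]
  | ht v w =>
    have h1 := hx (v + (-f₁ v u) • u') (by rw [h.alt₁.add_left, h.alt₁.smul_left, hu]; ring)
    rw [h.cl_add, h.cl_smul, neg_smul, add_neg_eq_zero] at h1
    rw [tensR_apply, h.tt, h.f_tens, h1, h.sym.neg_left, h.sym.smul_left, h.alt₁.skew u v]
    ring

theorem kr_iso (h : TAlt f f₁ B) {a : GL α F} {b : GL β F} (ha : a ∈ iso f₁) (hb : b ∈ iso B) :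
    kr a b ∈ iso f := fun x y => by
  induction x using tens_induction with
  | h0 => rw [mulVec_zero, h.alt.zero_left, h.alt.zero_left]
  | ha x z hx hz => rw [mulVec_add, h.alt.add_left, h.alt.add_left, hx, hz]
  | ht v w =>
    induction y using tens_induction with
    | h0 => rw [mulVec_zero, h.alt.zero_right, h.alt.zero_right]
    | ha x z hx hz => rw [mulVec_add, h.alt.add_right, h.alt.add_right, hx, hz]
    | ht v' w' => rw [kr_mulVec_tens, kr_mulVec_tens, h.tt, h.tt, ha, hb]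

theorem cl_kr (h : TAlt f f₁ B) {a : GL α F} (ha : a ∈ iso f₁) (b : GL β F) (v : α → F)
    (x : α × β → F) : cl f₁ (a.1 *ᵥ v) ((kr a b).1 *ᵥ x) = b.1 *ᵥ cl f₁ v x := by
  induction x using tens_induction with
  | h0 => simp
  | ha x z hx hz => rw [mulVec_add, map_add, map_add, mulVec_add, hx, hz]
  | ht v' w => rw [kr_mulVec_tens, h.cl_tens, h.cl_tens, ha, mulVec_smul]

theorem cl_kr_one (h : TAlt f f₁ B) (b : GL β F) (v : α → F) (x : α × β → F) :
    cl f₁ v ((kr 1 b).1 *ᵥ x) = b.1 *ᵥ cl f₁ v x := by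
  simpa using h.cl_kr (one_mem _) b v x

theorem cr_kr_one (a : GL α F) (w : β → F) (x : α × β → F) :
    cr B w ((kr a 1).1 *ᵥ x) = a.1 *ᵥ cr B w x := by
  rw [cr, kr_coe, ctr_kron, Units.val_one, vecMul_one]

/-- Eichler elements of the first factor. -/
theorem exists_eL (h : TAlt f f₁ B) {z : α → F} (hz : f₁ z u = 0) (c : F) :
    ∃ a ∈ iso f₁, (∀ v, a.1 *ᵥ v = v + f₁ v u • z + (f₁ v z + c * f₁ v u) • u) ∧
      ∀ x : α × β → F, (kr a 1).1 *ᵥ x =
        x + tens z (cl f₁ u x) + tens u (cl f₁ z x + c • cl f₁ u x) := by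
  obtain ⟨-, a, ha, h1⟩ := Ei.iso h.alt₁ hz c
  refine ⟨a, ha, h1, fun x => ?_⟩
  induction x using tens_induction with
  | h0 => simp
  | ha x y hx hy =>
    simp only [mulVec_add, hx, hy, map_add, smul_add, tens_add_right]
    abel
  | ht v w =>
    simp only [kr_mulVec_tens, h1, Units.val_one, one_mulVec, h.cl_tens, tens_add_left,
      tens_smul_left, tens_add_right, tens_smul_right]
    module

/-- Reflections of the second factor. -/
theorem exists_rR (h : TAlt f f₁ B) {s : β → F} (hs : B s s ≠ 0) :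
    ∃ b ∈ iso B, (∀ w, b.1 *ᵥ w = h.sym.rf s w) ∧ ∀ x : α × β → F, (kr 1 b).1 *ᵥ x =
      x - (2 / B s s) • tens (cr B s x) s := by
  obtain ⟨b, hb, h1⟩ := h.sym.exists_rf hs
  refine ⟨b, hb, h1, fun x => ?_⟩
  induction x using tens_induction with
  | h0 => simp
  | ha x y hx hy =>
    simp only [mulVec_add, hx, hy, map_add, smul_add, tens_add_left]
    abel
  | ht v w =>
    simp only [kr_mulVec_tens, h1, Units.val_one, one_mulVec, h.cr_tens, Sym.rf_apply,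
      tens_smul_left, tens_sub_right, tens_smul_right]
    module

/-- Eichler elements of the second factor. -/
theorem exists_eR (h : TAlt f f₁ B) {w z : β → F} (hw : B w w = 0) (hz : B z w = 0) :
    ∃ b ∈ iso B, ∀ x : α × β → F, (kr 1 b).1 *ᵥ x =
      x + tens (cr B w x) z - tens (cr B z x + (B z z / 2) • cr B w x) w := by
  obtain ⟨b, hb, h1⟩ := exists_eichler h.sym.toSForm (c := B z z / 2) hw hz (by
    have := h.sym.two
    simp only [RingHom.id_apply]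
    field_simp
    ring)
  refine ⟨b, hb.1, fun x => ?_⟩
  induction x using tens_induction with
  | h0 => simp
  | ha x y hx hy =>
    simp only [mulVec_add, hx, hy, map_add, smul_add, tens_add_left]
    abel
  | ht v y =>
    simp only [kr_mulVec_tens, h1, Units.val_one, one_mulVec, h.cr_tens, RingHom.id_apply,
      tens_smul_left, tens_sub_right, tens_smul_right, tens_add_left, tens_add_right]
    module

theorem kr_memM (h : TAlt f f₁ B) (hM : kronGL α β F ⊓ iso f ≤ M) {a : GL α F} {b : GL β F}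
    (ha : a ∈ iso f₁) (hb : b ∈ iso B) : kr a b ∈ M := hM ⟨kr_mem a b, h.kr_iso ha hb⟩

theorem iso_le_of_lr [Finite F] (h : TAlt f f₁ B) (h3 : 3 ≤ Fintype.card β) (hu : u ≠ 0)
    (hM : kronGL α β F ⊓ iso f ≤ M) (hL : ∀ y, B y y = 0 → Lr M f (tens u y)) : iso f ≤ M := by
  have h1 : ∀ v y, B y y = 0 → Lr M f (tens v y) := fun v y hy => by
    rcases eq_or_ne v 0 with rfl | hv
    · simpa using Lr.zero h.alt
    obtain ⟨a, ha, rfl⟩ := h.alt₁.exists_map hu hv
    simpa [kr_mulVec_tens] using (hL y hy).conj (h.kr_memM hM ha (one_mem _))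
      (h.kr_iso ha (one_mem _))
  obtain ⟨y, -, hy0, hy⟩ := h.sym.tForm.sing ⊤ (by simpa)
  obtain ⟨x, hx⟩ := exists_form_eq_one h.sym.toSForm hy0
  obtain ⟨c, hc⟩ := h.sym.tForm.exists_sub_singular hy (x := x) (by simp [hx])
  have hx' : B (x - c • y) y = 1 := by rw [h.sym.sub_left, h.sym.smul_left, hy, hx]; simp
  set y' := x - c • y
  obtain ⟨u', hu'⟩ := exists_form_eq_one h.alt₁.toSForm hu
  have h2 : f (tens u' y') (tens u y) ≠ 0 := by simp [h.tt, hu', hx']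
  obtain ⟨X, hX1, hX2, hX3⟩ := exists_max_lr h.alt
    (big_span_pair ⟨-1, by simp, fun h0 => h.sym.two (by linear_combination -h0)⟩ h2)
    (Lr.of_mem_span_pair h.alt (h1 _ _ hc) (h1 _ _ hy) h2)
  have h4 : ∀ w w', B w w = 0 → B w' w ≠ 0 → ∀ v, v ≠ 0 → tens v w' ∈ X → ∀ v', tens v' w ∈ X :=
    fun w w' hw hw' v hv hX v' => by
      rcases le_or_le_perp h.alt (X := X) (U := Pt α w)
        (by rintro _ ⟨v, rfl⟩; exact hX3 _ (h1 _ _ hw)) with h5 | h5
      · exact h5 (tens_mem_Pt _ _)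
      · obtain ⟨v', hv'⟩ := exists_form_ne_zero h.alt₁.toSForm hv
        have := h5 _ (tens_mem_Pt v' w) _ hX
        rw [h.tt, h.alt₁.skew, neg_mul, neg_eq_zero] at this
        exact absurd this (mul_ne_zero hv' hw')
  have h5 := h4 y y' hy (by simp [hx']) u' (fun h0 => by simp [h0, h.alt₁.zero_left] at hu')
    (hX1 (Submodule.subset_span (by simp)))
  let Y : AddSubgroup (β → F) :=
    { carrier := {w | ∀ v, tens v w ∈ X}
      add_mem' := fun ha hb v => by rw [tens_add_right]; exact add_mem (ha v) (hb v)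
      zero_mem' := fun v => by simp
      neg_mem' := fun ha v => by rw [tens_neg_right]; exact neg_mem (ha v) }
  have h6 : ∀ w, w ∈ Y := fun w => by
    have h7 : ∀ w, B y w ≠ 0 → w ∈ Y := fun w hw => by
      obtain ⟨c, hc⟩ := h.sym.tForm.exists_sub_singular hy (x := w) (by rwa [h.sym.symm])
      have h8 : w - c • y ∈ Y := h4 _ y hc
        (by rwa [h.sym.sub_right, h.sym.smul_right', hy, mul_zero, sub_zero]) u hu (h5 u)
      have h9 : c • y ∈ Y := fun v => by rw [tens_smul_right]; exact X.smul_mem c (h5 v)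
      simpa using add_mem h8 h9
    have h8 : B y y' = 1 := by rw [h.sym.symm, hx']
    by_cases h0 : B y w = 0
    · simpa using sub_mem (h7 (w + y') (by simp [h.sym.add_right, h0, h8])) (h7 y' (by simp [h8]))
    · exact h7 w h0
  refine h.alt.iso_le fun v => hX2 v ?_
  induction v using tens_induction with
  | h0 => exact zero_mem _
  | ht v w => exact h6 w v
  | ha x y hx hy => exact add_mem hx hy

end TAlt

end Cfsg.Lib.Symp
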