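import Cfsg.Agent.Lib.Symp.TensA

/-!
# Symplectic tensor orthogonal: the stabiliser of `u ⊗ V₂` in a proper overgroup
-/

namespace Cfsg.Lib.Symp

open Matrix Module Cfsg.Geo Cfsg.Lib.Asch Cfsg.Lib.Linear
open scoped MatrixGroups

set_option linter.unusedSectionVars false

variable {α β : Type} [Fintype α] [Fintype β] [DecidableEq α] [DecidableEq β] {F : Type*} [Field F]
  {f : (α × β → F) → (α × β → F) → F} {f₁ : (α → F) → (α → F) → F}
  {B : (β → F) → (β → F) → F} {M : Subgroup (GL (α × β) F)} {u u' : α → F}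

namespace TAlt

/-- The root element `t_u(c) ⊗ 1`. -/
noncomputable def xr (h : TAlt f f₁ B) (u : α → F) (c : F) : GL (α × β) F :=
  kr (h.exists_eL (u := u) (h.alt₁.zero_left u) c).choose 1

theorem cl_zero (h : TAlt f f₁ B) (x : α × β → F) : cl f₁ 0 x = 0 := by
  simpa using h.cl_smul 0 0 x

theorem xr_mulVec (h : TAlt f f₁ B) (u : α → F) (c : F) (x : α × β → F) :
    (h.xr u c).1 *ᵥ x = x + c • tens u (cl f₁ u x) := by
  rw [xr, (h.exists_eL (u := u) (h.alt₁.zero_left u) c).choose_spec.2.2, h.cl_zero,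
    tens_zero_left, add_zero, zero_add, tens_smul_right]

theorem xr_mem (h : TAlt f f₁ B) (u : α → F) (c : F) : h.xr u c ∈ kronGL α β F ⊓ iso f :=
  ⟨kr_mem _ _, h.kr_iso (h.exists_eL (u := u) (h.alt₁.zero_left u) c).choose_spec.1 (one_mem _)⟩

theorem cl_tens_self (h : TAlt f f₁ B) (u : α → F) (w : β → F) : cl f₁ u (tens u w) = 0 := by
  rw [h.cl_tens, h.alt₁.alt, zero_smul]

theorem xr_of_mem (h : TAlt f f₁ B) (c : F) {p : α × β → F} (hp : p ∈ Pu β u) :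
    (h.xr u c).1 *ᵥ p = p := by
  rw [xr_mulVec, h.cl_of_mem (h.alt₁.alt u) hp, tens_zero_right, smul_zero, add_zero]

theorem xr_neg (h : TAlt f f₁ B) (u : α → F) (c : F) : (h.xr u c)⁻¹ = h.xr u (-c) :=
  inv_eq_of_mul_eq_one_right <| GL_ext_mulVec fun x => by
    rw [GL_mul_mulVec, h.xr_mulVec u (-c), mulVec_add, mulVec_smul, h.xr_of_mem c (tens_mem_Pu _ _),
      xr_mulVec]
    simp

/-- The maps induced on `V₂` by the elements of `M` centralising `V / (u ⊗ V₂)`. -/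
def aSub (h : TAlt f f₁ B) (M : Subgroup (GL (α × β) F)) (u : α → F) :
    AddSubgroup ((β → F) →ₗ[F] (β → F)) where
  carrier := {σ | ∃ g ∈ M, ∀ x, g.1 *ᵥ x = x + tens u (σ (cl f₁ u x))}
  zero_mem' := ⟨1, one_mem _, fun x => by simp⟩
  add_mem' := fun ⟨g, hg, h1⟩ ⟨k, hk, h2⟩ => ⟨g * k, mul_mem hg hk, fun x => by
    rw [GL_mul_mulVec, h2, h1, map_add, h.cl_tens_self, add_zero, LinearMap.add_apply,
      tens_add_right]
    abel⟩
  neg_mem' := fun ⟨g, hg, h1⟩ => ⟨g⁻¹, inv_mem hg, fun x => GL_mulVec_injective g (by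
    simp only
    rw [GL_mulVec_inv_mulVec, h1, map_add, h.cl_tens_self, add_zero, LinearMap.neg_apply,
      tens_neg_right]
    abel)⟩

end TAlt

/-- A proper overgroup `M` of the stabiliser of the tensor decomposition. -/
structure TCtx (f : (α × β → F) → (α × β → F) → F) (f₁ : (α → F) → (α → F) → F)
    (B : (β → F) → (β → F) → F) (M : Subgroup (GL (α × β) F)) (u u' : α → F) : Prop
    extends TAlt f f₁ B where
  hM : kronGL α β F ⊓ iso f ≤ M
  hMi : M ≤ iso f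
  hn : ¬ iso f ≤ M
  h3 : 3 ≤ Fintype.card β
  hq : (∃ a : F, a ≠ 0 ∧ a ^ 2 ≠ 1) ∨ 4 ≤ Fintype.card β
  hu : f₁ u' u = 1

namespace TCtx

variable [Finite F]

theorem ne (h : TCtx f f₁ B M u u') : u ≠ 0 := fun h0 => by
  simpa [h0, h.alt₁.zero_right] using h.hu

theorem kr_mem' (h : TCtx f f₁ B M u u') {a : GL α F} {b : GL β F} (ha : a ∈ iso f₁)
    (hb : b ∈ iso B) : kr a b ∈ M := h.kr_memM h.hM ha hb

theorem xr_memM (h : TCtx f f₁ B M u u') (v : α → F) (c : F) : h.xr v c ∈ M :=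
  h.hM (h.xr_mem v c)

theorem cl_tens' (h : TCtx f f₁ B M u u') (w : β → F) : cl f₁ u (tens u' w) = w := by
  rw [h.cl_tens, h.hu, one_smul]

theorem cl_sub (h : TCtx f f₁ B M u u') (x : α × β → F) :
    cl f₁ u (x - tens u' (cl f₁ u x)) = 0 := by rw [map_sub, h.cl_tens', sub_self]

theorem eq_tens (h : TCtx f f₁ B M u u') {p : α × β → F} (hp : p ∈ Pu β u) :
    p = tens u (-cl f₁ u' p) := by
  obtain ⟨w, rfl⟩ := hp
  rw [tensR_apply, h.cl_tens, h.alt₁.skew, h.hu]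
  simp

theorem tens_inj (h : TCtx f f₁ B M u u') {w w' : β → F} (h0 : tens u w = tens u w') : w = w' :=
  tensR_injective h.ne h0

/-- Elements of `M` centralising `V / (u ⊗ V₂)` are root elements. -/
theorem eq_xr (h : TCtx f f₁ B M u u') {g : GL (α × β) F} (hg : g ∈ M)
    (h1 : ∀ x, g.1 *ᵥ x - x ∈ Pu β u) : ∃ c, g = h.xr u c := by
  have k1 : ∀ t : F, ∀ σ ∈ h.aSub M u, t ^ 2 • σ ∈ h.aSub M u := fun t σ ⟨g, hg, h1⟩ => by
    rcases eq_or_ne t 0 with rfl | ht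
    · simp
    obtain ⟨a, ha, hau⟩ := h.alt₁.exists_map h.ne (smul_ne_zero ht h.ne)
    refine ⟨_, mul_mem (mul_mem (h.kr_mem' ha (one_mem _)) hg)
      (inv_mem (h.kr_mem' ha (one_mem _))), fun x => ?_⟩
    obtain ⟨x, rfl⟩ : ∃ y, (kr a 1).1 *ᵥ y = x := ⟨_, GL_mulVec_inv_mulVec _ x⟩
    have h2 := h.cl_kr ha 1 u x
    rw [hau, h.cl_smul, Units.val_one, one_mulVec] at h2
    rw [GL_mul_mulVec, GL_mul_mulVec, GL_inv_mulVec_mulVec, h1, mulVec_add, kr_mulVec_tens, hau,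
      ← h2, map_smul, Units.val_one, one_mulVec, LinearMap.smul_apply, tens_smul_left,
      tens_smul_right, tens_smul_right, smul_smul, sq]
  let A : Submodule F ((β → F) →ₗ[F] (β → F)) :=
    { h.aSub M u with
      smul_mem' := fun c σ hσ => by
        have h2 := sub_mem (k1 ((c + 1) / 2) σ hσ) (k1 ((c - 1) / 2) σ hσ)
        have h3 : c • σ = ((c + 1) / 2) ^ 2 • σ - ((c - 1) / 2) ^ 2 • σ := by
          have := h.sym.two
          match_scalars
          field_simp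
          ring
        rwa [← h3] at h2 }
  let σ : (β → F) →ₗ[F] (β → F) := -cl f₁ u' ∘ₗ (mulVecLin g.1 - LinearMap.id) ∘ₗ tensR u'
  have h2 : ∀ x, g.1 *ᵥ x = x + tens u (σ (cl f₁ u x)) := fun x => by
    have h3 := h.alt.fix_of_sub_mem (h.hMi hg) h1 (h.perp_iff.2 (h.cl_sub x))
    rw [mulVec_sub, sub_eq_sub_iff_sub_eq_sub, sub_eq_iff_eq_add'] at h3
    rw [h3, h.eq_tens (h1 (tens u' (cl f₁ u x)))]
    rfl
  by_cases h3 : ∃ c : F, ∀ x, σ x = c • x
  · obtain ⟨c, hc⟩ := h3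
    exact ⟨c, GL_ext_mulVec fun x => by rw [h2, hc, h.xr_mulVec, tens_smul_right]⟩
  refine absurd (h.iso_le_of_lr h.h3 h.ne h.hM fun y hy c => ?_) h.hn
  obtain ⟨k, hk, h4⟩ := A.smul_mem (c / 2) (h.sym.sp_mem h.h3 h.hq (A := A)
    (fun σ ⟨g, hg, h1⟩ x y => by
      have := h.hMi hg (tens u' x) (tens u' y)
      simp only [h1, h.cl_tens', h.alt.add_left, h.alt.add_right, h.tt, h.alt₁.alt, h.hu,
        h.alt₁.skew u u'] at this
      linear_combination -this)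
    (fun σ ⟨g, hg, h1⟩ s hs => by
      obtain ⟨b, hb, h4, -⟩ := h.exists_rR hs
      refine ⟨_, mul_mem (mul_mem (h.kr_mem' (one_mem _) hb) hg) (h.kr_mem' (one_mem _) hb),
        fun x => ?_⟩
      have h5 : (kr 1 b).1 *ᵥ ((kr (1 : GL α F) b).1 *ᵥ x) = x := by
        rw [← GL_mul_mulVec, kr_mul, show b * b = 1 from GL_ext_mulVec fun x => by
          rw [GL_mul_mulVec, h4, h4, h.sym.rf_rf hs, Units.val_one, one_mulVec], mul_one]
        simp [kr_coe]
      rw [GL_mul_mulVec, GL_mul_mulVec, h1, mulVec_add, h5, kr_mulVec_tens, h.cl_kr_one, h4, h4,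
        Units.val_one, one_mulVec]
      rfl)
    (σ := σ) ⟨g, hg, h2⟩ h3 hy)
  refine ⟨h.alt.zero_left _, k, hk, fun x => ?_⟩
  rw [h4, LinearMap.smul_apply, Sym.sp_apply, h.f_tens, h.alt.zero_right, tens_smul_right,
    tens_add_right, tens_smul_right]
  have := h.sym.two
  match_scalars <;> field_simp <;> ring

theorem eL_qrad (h : TCtx f f₁ B M u u') {z : α → F} (hz : f₁ z u = 0) {c : F}
    {g : GL (α × β) F} (hg : ∀ x : α × β → F, g.1 *ᵥ x =
      x + tens z (cl f₁ u x) + tens u (cl f₁ z x + c • cl f₁ u x)) : g ∈ qrad f (Pu β u) :=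
  ⟨fun p hp => by simp [hg, h.cl_of_mem hz hp, h.cl_of_mem (h.alt₁.alt u) hp], fun ζ hζ => by
    rw [hg, h.perp_iff.1 hζ, tens_zero_right, add_zero, add_sub_cancel_left]
    exact tens_mem_Pu _ _⟩

/-- Elements of `M` in the unipotent radical of the stabiliser of `u ⊗ V₂`. -/
theorem eq_eL (h : TCtx f f₁ B M u u') {g : GL (α × β) F} (hg : g ∈ M)
    (h1 : g ∈ qrad f (Pu β u)) : ∃ (z : α → F) (c : F), f₁ z u = 0 ∧ ∀ x : α × β → F, g.1 *ᵥ x =
      x + tens z (cl f₁ u x) + tens u (cl f₁ z x + c • cl f₁ u x) := by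
  have k0 : ∀ {g : GL (α × β) F}, g ∈ M → g ∈ qrad f (Pu β u) → ∀ x,
      cl f₁ u (g.1 *ᵥ x - x) = 0 := fun hg h1 x =>
    h.perp_iff.1 fun p hp => h.alt.perp_of_fix (h.hMi hg) (h1.1 p hp) x
  let S : ∀ z : α → F, f₁ z u = 0 → AddSubgroup ((β → F) →ₗ[F] (β → F)) := fun z hz =>
    { carrier := {σ | ∃ g ∈ M, g ∈ qrad f (Pu β u) ∧
        ∀ w, g.1 *ᵥ tens u' w - tens u' w - tens z (σ w) ∈ Pu β u}
      zero_mem' := ⟨1, one_mem _, one_mem _, fun w => by simp⟩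
      add_mem' := fun {σ τ} ⟨g, hg, h1, h2⟩ ⟨k, hk, h3, h4⟩ =>
        ⟨g * k, mul_mem hg hk, mul_mem h1 h3, fun w => by
          convert add_mem (add_mem (h2 w) (h4 w)) (h1.2 _ (h.perp_iff.2 (k0 hk h3 (tens u' w))))
            using 1
          rw [GL_mul_mulVec, LinearMap.add_apply, tens_add_right, mulVec_sub]
          abel⟩
      neg_mem' := fun {σ} ⟨g, hg, h1, h2⟩ => ⟨g⁻¹, inv_mem hg, inv_mem h1, fun w => by
        convert neg_mem (add_mem (h2 w)
          ((inv_mem h1).2 _ (h.perp_iff.2 (k0 hg h1 (tens u' w))))) using 1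
        rw [LinearMap.neg_apply, tens_neg_right, mulVec_sub, GL_inv_mulVec_mulVec]
        abel⟩ }
  have k1 : ∀ {g : GL (α × β) F}, g ∈ M → g ∈ qrad f (Pu β u) → ∀ z hz, f₁ u' z = 0 →
      cl f₁ z ∘ₗ mulVecLin g.1 ∘ₗ tensR u' ∈ S z hz := fun {g} hg h1 z hz hz' => by
    have h2 : ∀ p ∈ Pu β u, (h.xr z 1).1 *ᵥ p ∈ Pu β u := fun p hp => by
      rwa [h.xr_mulVec, h.cl_of_mem hz hp, tens_zero_right, smul_zero, add_zero]
    refine ⟨g⁻¹ * (h.xr z 1 * g * (h.xr z 1)⁻¹), mul_mem (inv_mem hg)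
      (mul_mem (mul_mem (h.xr_memM _ _) hg) (inv_mem (h.xr_memM _ _))),
      mul_mem (inv_mem h1) (qrad_conj h1 (h.xr_mem _ _).2 h2), fun w => ?_⟩
    convert (inv_mem h1).2 (tens z (cl f₁ z (g.1 *ᵥ tens u' w)))
      (h.perp_iff.2 (by rw [h.cl_tens, hz, zero_smul])) using 1
    simp only [GL_mul_mulVec, h.xr_neg, h.xr_mulVec, h.cl_tens, hz', zero_smul, tens_zero_right,
      smul_zero, add_zero, one_smul, mulVec_add, GL_inv_mulVec_mulVec, LinearMap.comp_apply,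
      mulVecLin_apply, tensR_apply, add_sub_cancel_left]
  have k2 : ∀ z, f₁ z u = 0 → f₁ u' z = 0 →
      ∃ c : F, ∀ w, cl f₁ z (g.1 *ᵥ tens u' w) = c • w := fun z hz hz' => by
    rcases eq_or_ne z 0 with rfl | h0
    · exact ⟨0, fun w => by rw [h.cl_zero, zero_smul]⟩
    obtain ⟨y, hy⟩ := exists_form_eq_one h.alt₁.toSForm h0
    set y' := y - f₁ y u • u' + f₁ y u' • u with hy'
    have e1 : f₁ y' u = 0 := by
      simp [hy', h.alt₁.add_left, h.alt₁.sub_left, h.alt₁.smul_left, h.hu, h.alt₁.alt]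
    have e2 : f₁ u' y' = 0 := by
      simp [hy', h.alt₁.add_right, h.alt₁.sub_right, h.alt₁.smul_right', h.hu, h.alt₁.alt,
        h.alt₁.skew u' y]
    have e3 : f₁ y' z = 1 := by
      simp [hy', h.alt₁.add_left, h.alt₁.sub_left, h.alt₁.smul_left, hy, hz', h.alt₁.skew u z, hz]
    refine h.sym.scalar_of_comm h.h3 (S := S z hz) ?_ ?_ ?_ (k1 hg h1 z hz hz')
    · obtain ⟨a, ha, -, h2⟩ := h.exists_eL hz 0
      refine ⟨_, h.kr_mem' ha (one_mem _), h.eL_qrad hz h2, fun w => ?_⟩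
      rw [h2, h.cl_tens', LinearMap.id_apply, add_assoc, add_sub_cancel_left, add_sub_cancel_left]
      exact tens_mem_Pu _ _
    · rintro σ ⟨k, hk, h2, h3⟩ s hs
      obtain ⟨b, hb, h4, -⟩ := h.exists_rR hs
      have h5 : ∀ p ∈ Pu β u, (kr (1 : GL α F) b).1 *ᵥ p ∈ Pu β u := by
        rintro _ ⟨w, rfl⟩
        rw [tensR_apply, kr_mulVec_tens, Units.val_one, one_mulVec]
        exact tens_mem_Pu _ _
      have h6 : b⁻¹ = b := inv_eq_of_mul_eq_one_right <| GL_ext_mulVec fun x => by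
        rw [GL_mul_mulVec, h4, h4, h.sym.rf_rf hs, Units.val_one, one_mulVec]
      refine ⟨_, mul_mem (mul_mem (h.kr_mem' (one_mem _) hb) hk)
        (inv_mem (h.kr_mem' (one_mem _) hb)), qrad_conj h2 (h.kr_iso (one_mem _) hb) h5,
        fun w => ?_⟩
      convert h5 _ (h3 (h.sym.rf s w)) using 1
      simp only [GL_mul_mulVec, kr_inv, inv_one, h6, kr_mulVec_tens, Units.val_one, one_mulVec, h4,
        mulVec_sub, h.sym.rf_rf hs, LinearMap.comp_apply]
    · rintro σ ⟨k, hk, h2, h3⟩ τ ⟨l, hl, h4, h5⟩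
      obtain ⟨l', hl', h6, h7⟩ := k1 hl h4 y' e1 e2
      obtain ⟨h8, h9⟩ := h.alt.qrad_comm (h.hMi hk) (h.hMi hl') h2 h6
      obtain ⟨c, hc⟩ := h.eq_xr (mul_mem (mul_mem (mul_mem hk hl') (inv_mem hk)) (inv_mem hl')) h8
      have e4 : ∀ w, cl f₁ y' (l.1 *ᵥ tens u' w) = -τ w := fun w => by
        have := h.cl_of_mem e1 (h5 w)
        rwa [map_sub, map_sub, h.cl_tens, h.cl_tens, e2, zero_smul, sub_zero, h.alt₁.skew, e3,
          sub_eq_zero, neg_smul, one_smul] at this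
      have e5 : ∀ {x y p q : α × β → F}, x - p ∈ Pu β u → y - q ∈ Pu β u → cl f₁ u y = 0 →
          cl f₁ u p = 0 → f x y = f p q := fun {x y p q} hx hy h1 h2 => by
        have e6 := h.perp_iff.2 h1 _ hx
        have e7 := h.perp_iff.2 h2 _ hy
        rw [h.alt.sub_right, h.alt.skew y x, h.alt.skew y p] at e6
        rw [h.alt.sub_right] at e7
        linear_combination e7 - e6
      refine ⟨-c, fun x y => ?_⟩
      have := h9 (tens u' x) (tens u' y)
      rw [hc, h.xr_mulVec, add_sub_cancel_left, h.cl_tens', h.alt.smul_right', h.tt, h.hu,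
        e5 (h7 x) (h3 y) (k0 hk h2 _) (by rw [h.cl_tens, e1, zero_smul]),
        e5 (h3 x) (h7 y) (k0 hl' h6 _) (by rw [h.cl_tens, hz, zero_smul])] at this
      simp only [LinearMap.comp_apply, mulVecLin_apply, tensR_apply, e4, h.tt, e3,
        h.alt₁.skew z y', h.sym.neg_left, h.sym.neg_right] at this
      linear_combination this
  obtain ⟨w₁, hw₁⟩ : ∃ w : β → F, w ≠ 0 := by
    have : Nonempty β := Fintype.card_pos_iff.1 (by have := h.h3; omega)
    exact exists_ne 0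
  obtain ⟨w₀, hw₀⟩ := exists_form_eq_one h.sym.toSForm hw₁
  set z := cr B w₁ (g.1 *ᵥ tens u' w₀ - tens u' w₀) with hz
  have e1 : f₁ z u = 0 := by rw [hz, ← h.f_tens', h.f_tens, k0 hg h1, h.sym.zero_left]
  have k3 : ∀ w, g.1 *ᵥ tens u' w - tens u' w - tens z w ∈ Pu β u := fun w =>
    h.mem_Pu h.hu fun y hy => by
      obtain ⟨c, hc⟩ := k2 (y - f₁ u' y • u)
        (by rw [h.alt₁.sub_left, h.alt₁.smul_left, hy, h.alt₁.alt]; simp)
        (by rw [h.alt₁.sub_right, h.alt₁.smul_right', h.hu]; simp)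
      have e2 : ∀ w, cl f₁ y (g.1 *ᵥ tens u' w - tens u' w) = c • w := fun w => by
        have e3 := k0 hg h1 (tens u' w)
        have e4 := hc w
        rw [map_sub, h.cl_tens', sub_eq_zero] at e3
        rw [sub_eq_add_neg, ← neg_smul, h.cl_add, h.cl_smul, e3] at e4
        rw [map_sub, h.cl_tens, ← e4, neg_smul, sub_eq_add_neg]
      rw [map_sub, e2, h.cl_tens, hz, ← h.f_tens', h.f_tens, e2, h.sym.smul_left, hw₀, mul_one,
        sub_self]
  obtain ⟨a, ha, -, h2⟩ := h.exists_eL e1 0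
  have h3 := mul_mem (inv_mem (h.eL_qrad e1 h2)) h1
  obtain ⟨c, hc⟩ := h.eq_xr (mul_mem (inv_mem (h.kr_mem' ha (one_mem _))) hg) fun x => by
    have h4 := h3.2 _ (h.perp_iff.2 (h.cl_sub x))
    have h5 : g.1 *ᵥ tens u' (cl f₁ u x) - (kr a 1).1 *ᵥ tens u' (cl f₁ u x) ∈ Pu β u := by
      rw [h2, h.cl_tens', ← sub_sub, ← sub_sub]
      exact sub_mem (k3 _) (tens_mem_Pu _ _)
    have h6 := (inv_mem (h.eL_qrad e1 h2)).1 _ h5
    rw [mulVec_sub, GL_inv_mulVec_mulVec, ← GL_mul_mulVec] at h6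
    convert add_mem h4 (h6 ▸ h5) using 1
    rw [mulVec_sub]
    abel
  refine ⟨z, c, e1, fun x => ?_⟩
  rw [eq_inv_mul_iff_mul_eq.1 hc.symm |>.symm, GL_mul_mulVec, h.xr_mulVec, mulVec_add, mulVec_smul,
    (h.eL_qrad e1 h2).1 _ (tens_mem_Pu _ _), h2, zero_smul, add_zero, tens_add_right,
    tens_smul_right]
  abel

end TCtx

end Cfsg.Lib.Symp
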