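import Cfsg.Agent.Lib.Symp.TensB

/-!
# Symplectic tensor orthogonal: stabilisers consist of Kronecker products
-/

namespace Cfsg.Lib.Symp

open Matrix Module Cfsg.Geo Cfsg.Lib.Asch Cfsg.Lib.Linear
open scoped MatrixGroups

set_option linter.unusedSectionVars false

variable {α β : Type} [Fintype α] [Fintype β] [DecidableEq α] [DecidableEq β] {F : Type*} [Field F]
  {f : (α × β → F) → (α × β → F) → F} {f₁ : (α → F) → (α → F) → F}
  {B : (β → F) → (β → F) → F} {M : Subgroup (GL (α × β) F)} {u u' : α → F}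

theorem TAlt.eq_tens_of_cr (h : TAlt f f₁ B) {s : β → F} (hs : B s s ≠ 0) {x : α × β → F}
    (hx : ∀ t, B t s = 0 → cr B t x = 0) : x = tens ((B s s)⁻¹ • cr B s x) s := by
  refine h.alt.ext_left fun y => ?_
  induction y using tens_induction with
  | h0 => rw [h.alt.zero_right, h.alt.zero_right]
  | ha y z hy hz => rw [h.alt.add_right, h.alt.add_right, hy, hz]
  | ht v w =>
    have h1 := h.f_tens' x v (w - (B w s / B s s) • s)
    rw [hx _ (h.sym.proj_perp hs w), h.alt₁.zero_left, tens_sub_right, h.alt.sub_right,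
      tens_smul_right, h.alt.smul_right', sub_eq_zero, h.f_tens' x v s] at h1
    rw [h1, h.tt, h.alt₁.smul_left, h.sym.symm s w]
    field_simp

namespace TCtx

variable [Finite F]

theorem exists_ne (h : TCtx f f₁ B M u u') : ∃ w : β → F, w ≠ 0 := by
  have : Nonempty β := Fintype.card_pos_iff.1 (by have := h.h3; omega)
  exact _root_.exists_ne 0

theorem exists_b (h : TCtx f f₁ B M u u') {y : GL (α × β) F} (hy : y ∈ M)
    (hP : ∀ p ∈ Pu β u, y.1 *ᵥ p ∈ Pu β u) : ∃ (b : GL β F) (κ : F), κ ≠ 0 ∧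
      (∀ w, y.1 *ᵥ tens u w = tens u (b.1 *ᵥ w)) ∧
      (∀ x, b.1 *ᵥ cl f₁ u x = κ • cl f₁ u (y.1 *ᵥ x)) ∧
      ∀ w w', B (b.1 *ᵥ w) (b.1 *ᵥ w') = κ * B w w' := by
  obtain ⟨b, hb⟩ := exists_GL_of_injective (-cl f₁ u' ∘ₗ mulVecLin y.1 ∘ₗ tensR u) (by
    rw [injective_iff_map_eq_zero]
    intro w hw
    have h1 := h.eq_tens (hP _ (tens_mem_Pu u w))
    rw [show -cl f₁ u' (y.1 *ᵥ tens u w) = 0 from hw, tens_zero_right] at h1
    by_contra h0
    exact GL_mulVec_ne_zero y (tens_ne_zero h.ne h0) h1)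
  have h1 : ∀ w, y.1 *ᵥ tens u w = tens u (b.1 *ᵥ w) := fun w => by
    rw [hb, h.eq_tens (hP _ (tens_mem_Pu u w))]
    rfl
  obtain ⟨κ, hκ⟩ := h.eq_xr (mul_mem (mul_mem hy (h.xr_memM u 1)) (inv_mem hy)) fun x => by
    rw [GL_mul_mulVec, GL_mul_mulVec, h.xr_mulVec, mulVec_add, GL_mulVec_inv_mulVec,
      add_sub_cancel_left, one_smul]
    exact hP _ (tens_mem_Pu _ _)
  have h2 : ∀ x, b.1 *ᵥ cl f₁ u x = κ • cl f₁ u (y.1 *ᵥ x) := fun x => h.tens_inj <| by
    have := congrArg (fun g : GL (α × β) F => g.1 *ᵥ (y.1 *ᵥ x)) hκ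
    simp only [GL_mul_mulVec, GL_inv_mulVec_mulVec, h.xr_mulVec, mulVec_add, one_smul,
      add_right_inj] at this
    rw [← h1, this, tens_smul_right]
  refine ⟨b, κ, fun h0 => ?_, h1, h2, fun w w' => ?_⟩
  · obtain ⟨w, hw⟩ := h.exists_ne
    have := h2 (tens u' w)
    rw [h0, zero_smul, h.cl_tens'] at this
    exact GL_mulVec_ne_zero b hw this
  · have h3 := h2 (tens u' w)
    have h4 := h.hMi hy (tens u' w) (tens u w')
    rw [h.cl_tens'] at h3
    rw [h1, h.f_tens, h.tt, h.hu, one_mul] at h4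
    rw [h3, h.sym.smul_left, h4]

/-- The stabiliser in `M` of `u ⊗ V₂` consists of Kronecker products. -/
theorem stab (h : TCtx f f₁ B M u u') {y : GL (α × β) F} (hy : y ∈ M)
    (hP : ∀ p ∈ Pu β u, y.1 *ᵥ p ∈ Pu β u) : y ∈ kronGL α β F := by
  obtain ⟨b, κ, hκ, h1, h2, h3⟩ := h.exists_b hy hP
  have k1 : ∀ z, f₁ z u = 0 → ∃ z', ∀ w, y.1 *ᵥ tens z w - tens z' (b.1 *ᵥ w) ∈ Pu β u :=
    fun z hz => by
      obtain ⟨a, ha, -, h4⟩ := h.exists_eL hz 0
      obtain ⟨z', c, -, h5⟩ := h.eq_eL (mul_mem (mul_mem hy (h.kr_mem' ha (one_mem _)))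
        (inv_mem hy)) (qrad_conj (h.eL_qrad hz h4) (h.hMi hy) hP)
      refine ⟨κ⁻¹ • z', fun w => ?_⟩
      have h6 := h5 (y.1 *ᵥ tens u' w)
      have h7 := h2 (tens u' w)
      rw [GL_mul_mulVec, GL_mul_mulVec, GL_inv_mulVec_mulVec, h4, mulVec_add, mulVec_add,
        add_assoc, add_assoc, add_right_inj, h.cl_tens', h1, ← eq_sub_iff_add_eq] at h6
      rw [h.cl_tens'] at h7
      rw [h6, h7, tens_smul_left, tens_smul_right, inv_smul_smul₀ hκ, add_sub_assoc,
        add_sub_cancel_left]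
      exact sub_mem (tens_mem_Pu _ _) (tens_mem_Pu _ _)
  have k2 : ∀ s, B s s ≠ 0 → ∀ v, ∃ v', y.1 *ᵥ tens v s = tens v' (b.1 *ᵥ s) := fun s hs v => by
    have hs' : B (b.1 *ᵥ s) (b.1 *ᵥ s) ≠ 0 := by rw [h3]; exact mul_ne_zero hκ hs
    obtain ⟨r, hr, h4, -⟩ := h.exists_rR hs
    obtain ⟨r', hr', h5, h6⟩ := h.exists_rR hs'
    have h7 : ∀ w, b.1 *ᵥ h.sym.rf s w = h.sym.rf (b.1 *ᵥ s) (b.1 *ᵥ w) := fun w => by
      rw [Sym.rf_apply, Sym.rf_apply, mulVec_sub, mulVec_smul, h3, h3]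
      congr 2
      field_simp
    have h8 : ∀ p ∈ Pu β u, (kr (1 : GL α F) r').1 *ᵥ p ∈ Pu β u := by
      rintro _ ⟨w, rfl⟩
      rw [tensR_apply, kr_mulVec_tens, Units.val_one, one_mulVec]
      exact tens_mem_Pu _ _
    have h9 : ∀ x, y.1 *ᵥ ((kr 1 r).1 *ᵥ (x - tens u' (cl f₁ u x))) -
        (kr 1 r').1 *ᵥ (y.1 *ᵥ (x - tens u' (cl f₁ u x))) ∈ Pu β u := fun x => by
      induction x using tens_induction with
      | h0 => simp
      | ha x z hx hz =>
        convert add_mem hx hz using 1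
        simp only [map_add, tens_add_right, mulVec_add, mulVec_sub]
        abel
      | ht v w =>
        rw [h.cl_tens, tens_smul_right, ← tens_smul_left, ← tens_sub_left]
        obtain ⟨z', hz'⟩ := k1 (v - f₁ v u • u') (by
          rw [h.alt₁.sub_left, h.alt₁.smul_left, h.hu, mul_one, sub_self])
        convert sub_mem (hz' (h.sym.rf s w)) (h8 _ (hz' w)) using 1
        simp only [kr_mulVec_tens, Units.val_one, one_mulVec, mulVec_sub, h4, h5, h7]
        abel
    obtain ⟨z, c, hz, h10⟩ := h.eq_eL (g := (kr 1 r')⁻¹ * (y * kr 1 r * y⁻¹))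
      (mul_mem (inv_mem (h.kr_mem' (one_mem _) hr'))
        (mul_mem (mul_mem hy (h.kr_mem' (one_mem _) hr)) (inv_mem hy))) ⟨fun p hp => by
      obtain ⟨p, rfl⟩ : ∃ q, y.1 *ᵥ q = p := ⟨_, GL_mulVec_inv_mulVec y p⟩
      obtain ⟨w, rfl⟩ := (mulVec_mem_iff hP p).1 hp
      refine GL_mulVec_injective (kr 1 r') ?_
      simp only [GL_mul_mulVec, GL_mulVec_inv_mulVec, GL_inv_mulVec_mulVec]
      simp only [tensR_apply, h1, kr_mulVec_tens, Units.val_one, one_mulVec, h4, h5, h7],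
      fun ζ hζ => by
      obtain ⟨ζ, rfl⟩ : ∃ q, y.1 *ᵥ q = ζ := ⟨_, GL_mulVec_inv_mulVec y ζ⟩
      have e1 : cl f₁ u ζ = 0 := h.perp_iff.1 fun p hp => by rw [← h.hMi hy, hζ _ (hP p hp)]
      have e2 := h9 ζ
      rw [e1, tens_zero_right, sub_zero] at e2
      rw [← mulVec_mem_iff h8]
      simpa only [GL_mul_mulVec, GL_mulVec_inv_mulVec, GL_inv_mulVec_mulVec, mulVec_sub] using e2⟩
    refine ⟨_, h.eq_tens_of_cr hs' fun t ht => ?_⟩
    have e1 := congrArg (fun x => cr B t ((kr 1 r').1 *ᵥ x)) (h10 (y.1 *ᵥ tens v s))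
    simp only [GL_mul_mulVec, GL_mulVec_inv_mulVec, GL_inv_mulVec_mulVec] at e1
    simp only [kr_mulVec_tens, Units.val_one, one_mulVec, h4, h.sym.rf_self hs, tens_neg_right, mulVec_neg, h6, map_sub,
      map_smul, map_neg, map_add, h.cr_tens, h.sym.symm (b.1 *ᵥ s) t, ht, zero_smul, smul_zero,
      sub_zero, h.sym.add_left, h.sym.smul_left, ← h.f_tens, h.f_tens'] at e1
    set v' := cr B t (y.1 *ᵥ tens v s)
    have e2 := congrArg (fun x => f₁ x u) e1
    simp only [h.alt₁.add_left, h.alt₁.smul_left, h.alt₁.neg_left, hz, h.alt₁.alt] at e2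
    have e3 : f₁ v' u = 0 := mul_left_cancel₀ h.sym.two (by linear_combination -e2)
    have e4 := congrArg (fun x => f₁ x z) e1
    simp only [h.alt₁.add_left, h.alt₁.smul_left, h.alt₁.neg_left, hz, h.alt₁.alt,
      h.alt₁.skew u z] at e4
    have e5 : f₁ v' z = 0 := mul_left_cancel₀ h.sym.two (by linear_combination -e4)
    rw [e3, e5] at e1
    exact (smul_eq_zero.1 (show (2 : F) • v' = 0 by
      linear_combination (norm := module) -e1)).resolve_left h.sym.two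
  obtain ⟨s, -, hs⟩ := h.sym.exists_nonsing' h.sym.nondeg_top (by have := h.h3; simp; omega)
  have hs' : B (b.1 *ᵥ s) (b.1 *ᵥ s) ≠ 0 := by rw [h3]; exact mul_ne_zero hκ hs
  let A : (α → F) →ₗ[F] (α → F) :=
    (B (b.1 *ᵥ s) (b.1 *ᵥ s))⁻¹ • cr B (b.1 *ᵥ s) ∘ₗ mulVecLin y.1 ∘ₗ tensL s
  have k3 : ∀ v, y.1 *ᵥ tens v s = tens (A v) (b.1 *ᵥ s) := fun v => by
    obtain ⟨v', hv'⟩ := k2 s hs v
    simp only [A, LinearMap.smul_apply, LinearMap.comp_apply, mulVecLin_apply, tensL_apply, hv',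
      h.cr_tens, inv_smul_smul₀ hs']
  obtain ⟨a, ha⟩ := exists_GL_of_injective A (by
    rw [injective_iff_map_eq_zero]
    intro v hv
    by_contra h0
    refine GL_mulVec_ne_zero y (tens_ne_zero h0 fun h1 : s = 0 => hs ?_) ?_
    · rw [h1, h.sym.zero_left]
    · rw [k3, hv, tens_zero_left])
  let W : Submodule F (β → F) :=
    { carrier := {w | ∀ v, y.1 *ᵥ tens v w = tens (A v) (b.1 *ᵥ w)}
      add_mem' := fun h1 h2 v => by simp only [tens_add_right, mulVec_add, h1 v, h2 v]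
      zero_mem' := fun v => by simp
      smul_mem' := fun c w h1 v => by simp only [tens_smul_right, mulVec_smul, h1 v] }
  have k4 := h.sym.le_of_perp_norm (W := W) h.sym.nondeg_top trivial hs k3
    (Or.inr (by simpa using h.h3)) fun w _ hw t ht h4 v => by
      rcases eq_or_ne w 0 with rfl | hw0
      · simp
      obtain ⟨p, hp⟩ := k2 (w + t • s) (by rwa [h.sym.add_smul_self hw]) v
      obtain ⟨q, hq⟩ := k2 (w + (-t) • s) (by rwa [h.sym.add_smul_self hw, neg_sq]) v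
      simp only [tens_add_right, tens_smul_right, mulVec_add, mulVec_smul, k3] at hp hq
      have e1 := congrArg (cr B (b.1 *ᵥ s)) hp
      have e2 := congrArg (cr B (b.1 *ᵥ s)) hq
      simp only [map_add, map_smul, h.cr_tens, h3, hw, mul_zero, zero_smul, zero_add] at e1 e2
      have e3 : p + q = (2 : F) • A v := smul_right_injective _
        (mul_ne_zero ht (mul_ne_zero hκ hs)) (by linear_combination (norm := module) e2 - e1)
      have e4 : tens (p - q) (b.1 *ᵥ w) = 0 := by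
        have e5 := congrArg (fun x => t • tens x (b.1 *ᵥ s)) e3
        simp only [tens_add_left, tens_smul_left] at e5
        rw [tens_sub_left]
        linear_combination (norm := module) hq - hp - e5
      have e5 : p = q := by
        by_contra h0
        exact tens_ne_zero (sub_ne_zero.2 h0) (GL_mulVec_ne_zero b hw0) e4
      have e6 : p = A v := smul_right_injective _ h.sym.two
        (by rw [← e5] at e3; linear_combination (norm := module) e3)
      rw [e6] at hp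
      exact add_right_cancel hp
  refine ⟨a, b, GL_ext_mulVec fun x => ?_⟩
  exact tens_ext (f := mulVecLin y.1) (g := mulVecLin (kr a b).1) (fun v w => by
    rw [mulVecLin_apply, mulVecLin_apply, kr_mulVec_tens, ha]
    exact k4 (show w ∈ ⊤ from trivial) v) x

theorem mem_kron_of_map (h : TCtx f f₁ B M u u') {g : GL (α × β) F} (hg : g ∈ M) {v : α → F}
    (hv : v ≠ 0) (h1 : ∀ w, g.1 *ᵥ tens v w ∈ Pu β u) : g ∈ kronGL α β F := by
  obtain ⟨a, ha, rfl⟩ := h.alt₁.exists_map h.ne hv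
  refine (Subgroup.mul_mem_cancel_right _ (kr_mem a 1)).1
    (h.stab (mul_mem hg (h.kr_mem' ha (one_mem _))) ?_)
  rintro _ ⟨w, rfl⟩
  rw [GL_mul_mulVec, tensR_apply, kr_mulVec_tens, Units.val_one, one_mulVec]
  exact h1 w

theorem exists_smul_of_mem (h : TCtx f f₁ B M u u') {v : α → F} {w : β → F} (hw : w ≠ 0)
    (h1 : tens v w ∈ Pu β u) : ∃ c : F, c • u = v :=
  Submodule.mem_span_singleton.1 <| mem_of_perp h.alt₁.toSForm fun z hz => by
    have := h.cl_of_mem (z := z) (by rw [h.alt₁.skew, hz u (by simp), neg_zero]) h1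
    rw [h.cl_tens] at this
    exact (smul_eq_zero.1 this).resolve_right hw

/-- A conjugate of a root element stabilising `u ⊗ V₂` is a root element of the same
decomposition. -/
theorem lemR (h : TCtx f f₁ B M u u') (h2 : 2 ≤ Fintype.card α)
    (h4 : Fintype.card β ≠ 4 ∨ Fintype.card α ≠ 2) {g : GL (α × β) F} (hg : g ∈ M) {c : F}
    (hc : c ≠ 0) (hP : ∀ p ∈ Pu β u, (g * h.xr u c * g⁻¹).1 *ᵥ p ∈ Pu β u) :
    g ∈ kronGL α β F ∧ ∀ p ∈ Pu β u, cl f₁ u (g.1 *ᵥ p) = 0 := by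
  set r := g * h.xr u c * g⁻¹ with hr
  have hrM : r ∈ M := mul_mem (mul_mem hg (h.xr_memM _ _)) (inv_mem hg)
  have F0 : ∀ x, r.1 *ᵥ (g.1 *ᵥ x) = g.1 *ᵥ x + g.1 *ᵥ tens u (c • cl f₁ u x) := fun x => by
    rw [hr, GL_mul_mulVec, GL_mul_mulVec, GL_inv_mulVec_mulVec, h.xr_mulVec, mulVec_add,
      tens_smul_right]
  have F1 : ∀ x, ∃ w, r.1 *ᵥ x - x = g.1 *ᵥ tens u w := fun x => by
    obtain ⟨x, rfl⟩ : ∃ y, g.1 *ᵥ y = x := ⟨_, GL_mulVec_inv_mulVec g x⟩
    exact ⟨_, by rw [F0, add_sub_cancel_left]⟩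
  have F2 : ∀ x, r.1 *ᵥ (r.1 *ᵥ x - x) = r.1 *ᵥ x - x := fun x => by
    obtain ⟨w, hw⟩ := F1 x
    rw [hw, F0, h.cl_tens_self]
    simp
  have F3 : ∀ w, ∃ x, r.1 *ᵥ x - x = g.1 *ᵥ tens u w := fun w =>
    ⟨g.1 *ᵥ tens u' (c⁻¹ • w), by rw [F0, add_sub_cancel_left, h.cl_tens', smul_inv_smul₀ hc]⟩
  obtain ⟨w₀, hw₀⟩ := h.exists_ne
  obtain ⟨A, N, hA, hr'⟩ : ∃ (A : (α → F) →ₗ[F] (α → F)) (N : (β → F) →ₗ[F] (β → F)),
      A u = u ∧ ∀ v w, r.1 *ᵥ tens v w = tens (A v) (w + N w) := by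
    obtain ⟨a, b, hab⟩ := h.stab hrM hP
    have h1 := hP _ (tens_mem_Pu u w₀)
    rw [hab, kr_mulVec_tens] at h1
    obtain ⟨l, hl⟩ := h.exists_smul_of_mem (GL_mulVec_ne_zero b hw₀) h1
    have hl0 : l ≠ 0 := fun h0 => GL_mulVec_ne_zero a h.ne (by rw [← hl, h0, zero_smul])
    refine ⟨l⁻¹ • mulVecLin a.1, l • mulVecLin b.1 - LinearMap.id, by simp [← hl, hl0],
      fun v w => ?_⟩
    simp [hab, kr_mulVec_tens, tens_smul_left, tens_smul_right, hl0]
  by_cases hN : ∀ w, N w = 0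
  · simp only [hN, add_zero] at hr'
    refine ⟨?_, fun p hp => h.perp_iff.1 ?_⟩
    · obtain ⟨v, hv⟩ : ∃ v, A v - v ≠ 0 := by
        by_contra! h0
        obtain ⟨x, hx⟩ := F3 w₀
        refine GL_mulVec_ne_zero g (tens_ne_zero h.ne hw₀) ?_
        rw [← hx, sub_eq_zero]
        exact tens_ext (f := mulVecLin r.1) (g := LinearMap.id) (fun v w => by
          rw [mulVecLin_apply, hr', sub_eq_zero.1 (h0 v), LinearMap.id_apply]) x
      refine inv_mem_iff.1 (h.mem_kron_of_map (inv_mem hg) hv fun w => ?_)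
      obtain ⟨w', hw'⟩ := F1 (tens v w)
      rw [tens_sub_left, ← hr', hw', GL_inv_mulVec_mulVec]
      exact tens_mem_Pu _ _
    · rintro _ ⟨w, rfl⟩
      have h1 := F0 ((g⁻¹).1 *ᵥ tens u w)
      rw [GL_mulVec_inv_mulVec, hr', hA, left_eq_add] at h1
      have h3 : cl f₁ u ((g⁻¹).1 *ᵥ tens u w) = 0 := by
        by_contra h0
        exact GL_mulVec_ne_zero g (tens_ne_zero h.ne (smul_ne_zero hc h0)) h1
      rw [tensR_apply, ← GL_mulVec_inv_mulVec g (tens u w), h.hMi hg, h.alt.skew,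
        h.perp_iff.2 h3 p hp, neg_zero]
  exfalso
  push Not at hN
  obtain ⟨w₂, hw₂⟩ := hN
  have hNN : ∀ w, N (N w) = 0 := fun w => h.tens_inj <| by
    have := F2 (tens u w)
    rw [hr', hA, tens_add_right, add_sub_cancel_left, hr', hA, tens_add_right] at this
    simpa using this
  replace hA : ∀ v, A v = v := fun v => by
    have e1 := F2 (tens v (N w₂))
    have e2 := F2 (tens v w₂)
    simp only [hr', hNN, add_zero, mulVec_sub, map_add] at e1 e2
    simp only [tens_add_right] at e2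
    have e3 : A (A v) - A v = A v - v := tensL_injective hw₂ (by simpa [tens_sub_left] using e1)
    have e4 := congrArg (fun x => tens x w₂) e3
    simp only [tens_sub_left] at e4
    have e5 : (2 : F) • tens (A v - v) (N w₂) = 0 := by
      rw [tens_sub_left]
      linear_combination (norm := module) e2 - e4 - (2 : F) • e1
    by_contra h0
    exact smul_ne_zero h.sym.two (tens_ne_zero (sub_ne_zero.2 h0) hw₂) e5
  have G1 : ∀ v w, ∃ w', tens v (N w) = g.1 *ᵥ tens u w' := fun v w => by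
    simpa only [hr', hA, tens_add_right, add_sub_cancel_left] using F1 (tens v w)
  have G2 : ∀ w w', B (N w) (N w') = 0 := fun w w' => by
    obtain ⟨a, ha⟩ := G1 u' w
    obtain ⟨b, hb⟩ := G1 u w'
    have := h.tt u' (N w) u (N w')
    rw [ha, hb, h.hMi hg, h.tt, h.alt₁.alt, h.hu] at this
    linear_combination -this
  have G3 : ∀ w w', B (N w) w' = -B w (N w') := fun w w' => by
    have := h.hMi hrM (tens u' w) (tens u w')
    simp only [hr', hA, h.tt, h.hu, h.sym.add_left, h.sym.add_right, G2] at this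
    linear_combination this
  have G4 : ∀ w, B (N w) w = 0 := fun w =>
    mul_left_cancel₀ h.sym.two (by linear_combination G3 w w - h.sym.symm w (N w))
  have G5 : ∀ x, cl f₁ u' (r.1 *ᵥ x - x) = N (cl f₁ u' x) := fun x =>
    tens_ext (f := cl f₁ u' ∘ₗ (mulVecLin r.1 - LinearMap.id)) (g := N ∘ₗ cl f₁ u')
      (fun v w => by simp [hr', hA, tens_add_right, h.cl_tens]) x
  obtain ⟨x, hx⟩ := exists_form_eq_one h.sym.toSForm hw₂
  have hx' : B (N x) w₂ = -1 := by rw [G3, hx]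
  have h5 : 5 ≤ Fintype.card β := by
    have e1 := LinearMap.finrank_range_of_inj
      (f := (tensL (α := α) (N w₂)).coprod (tensL (N x))) (by
        rw [injective_iff_map_eq_zero]
        rintro ⟨v, v'⟩ h0
        have e1 := congrArg (cr B x) h0
        have e2 := congrArg (cr B w₂) h0
        simp only [LinearMap.coprod_apply, tensL_apply, map_add, h.cr_tens, G4, hx',
          h.sym.symm (N w₂) x, hx] at e1 e2
        simp_all)
    have e2 := Submodule.finrank_mono (show LinearMap.range ((tensL (α := α) (N w₂)).coprod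
        (tensL (N x))) ≤ (Pu β u).map (toLin' g.1) by
      rintro _ ⟨⟨v, v'⟩, rfl⟩
      obtain ⟨a, ha⟩ := G1 v w₂
      obtain ⟨b, hb⟩ := G1 v' x
      exact add_mem ⟨_, tens_mem_Pu u a, ha.symm⟩ ⟨_, tens_mem_Pu u b, hb.symm⟩)
    rw [finrank_map_GL, finrank_Pu h.ne, e1, finrank_prod, finrank_fintype_fun_eq_card] at e2
    omega
  have G6 : ∀ z, (∀ w, B z (N w) = 0) → z ∉ Submodule.span F {N w₂} →
      (∃ w, N w = z) ∧ ∀ w, N w ∈ Submodule.span F {N w₂, z} := fun z hz hz' => by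
    obtain ⟨b, hb, e1⟩ := h.exists_eR (G2 w₂ w₂) (hz w₂)
    have e2 : ∀ ζ, (∀ p ∈ Pu β u, f ζ p = 0) → cr B (N w₂) (g.1 *ᵥ ζ) = 0 := fun ζ hζ =>
      h.alt₁.nondeg' _ fun v => by
        obtain ⟨a, ha⟩ := G1 v w₂
        rw [← h.f_tens', ha, h.hMi hg, hζ _ (tens_mem_Pu _ _)]
    obtain ⟨z', c', e3, e4⟩ := h.eq_eL (g := g⁻¹ * kr 1 b * g)
      (mul_mem (mul_mem (inv_mem hg) (h.kr_mem' (one_mem _) hb)) hg) ⟨by
        rintro _ ⟨w, rfl⟩
        obtain ⟨y, hy⟩ := F3 w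
        have e3 : ∀ t, (∀ w, B t (N w) = 0) → cr B t (r.1 *ᵥ y - y) = 0 := fun t ht =>
          tens_ext (f := cr B t ∘ₗ (mulVecLin r.1 - LinearMap.id)) (g := 0)
            (fun v w => by simp [hr', hA, tens_add_right, h.cr_tens, h.sym.symm (N w), ht]) y
        rw [GL_mul_mulVec, GL_mul_mulVec, tensR_apply, e1, ← hy, e3 _ (G2 w₂), e3 _ hz, hy]
        simp, fun ζ hζ => by
        obtain ⟨a, ha⟩ := G1 (cr B z (g.1 *ᵥ ζ)) w₂
        rw [GL_mul_mulVec, GL_mul_mulVec, e1, e2 ζ hζ, tens_zero_left, add_zero, smul_zero,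
          add_zero, ha, mulVec_sub, GL_inv_mulVec_mulVec, GL_inv_mulVec_mulVec, sub_sub_cancel_left]
        exact neg_mem (tens_mem_Pu _ _)⟩
    replace e4 : ∀ x, (kr 1 b).1 *ᵥ (g.1 *ᵥ x) - g.1 *ᵥ x =
        g.1 *ᵥ (tens z' (cl f₁ u x) + tens u (cl f₁ z' x + c' • cl f₁ u x)) := fun x => by
      have := congrArg (fun y => g.1 *ᵥ y) (e4 x)
      simp only [GL_mul_mulVec, GL_mulVec_inv_mulVec] at this
      rw [this, add_assoc, mulVec_add, add_sub_cancel_left]
    by_cases e5 : z' ∈ Submodule.span F {u}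
    swap
    · obtain ⟨y, hy, hy'⟩ := exists_form_of_notMem h.alt₁.toSForm e5 1
      obtain ⟨a, ha⟩ := G1 u x
      have e6 : cl f₁ u (tens y a) = 0 := by
        rw [h.cl_tens, h.alt₁.skew, hy u (by simp), neg_zero, zero_smul]
      have e7 := e4 (tens y a)
      rw [e1, e2 _ (h.perp_iff.2 e6), e6, h.cl_tens, h.alt₁.skew, hy'] at e7
      simp only [tens_zero_left, tens_zero_right, add_zero, smul_zero, zero_add, neg_smul,
        one_smul, tens_neg_right, mulVec_neg, ← ha, sub_sub_cancel_left, neg_inj] at e7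
      have e8 := congrArg (cr B w₂) e7
      rw [h.cr_tens, h.cr_tens, G4, hx'] at e8
      exact absurd (by simpa using e8.symm) h.ne
    obtain ⟨m, rfl⟩ := Submodule.mem_span_singleton.1 e5
    replace e4 : ∀ x, (kr 1 b).1 *ᵥ (g.1 *ᵥ x) - g.1 *ᵥ x =
        g.1 *ᵥ tens u ((2 * m + c') • cl f₁ u x) := fun x => by
      rw [e4, h.cl_smul, tens_smul_left, ← tens_smul_right, ← tens_add_right]
      congr 2
      module
    have e6 := e4 ((g⁻¹).1 *ᵥ tens u x)
    rw [GL_mulVec_inv_mulVec, e1, h.cr_tens, h.cr_tens, hx, one_smul, ← add_smul,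
      tens_smul_left, ← tens_smul_right, add_sub_assoc, add_sub_cancel_left,
      ← tens_sub_right] at e6
    have e7 : 2 * m + c' ≠ 0 := fun h0 => by
      rw [h0, zero_smul, tens_zero_right, mulVec_zero, ← tens_zero_right u] at e6
      exact hz' (Submodule.mem_span_singleton.2 ⟨_, (sub_eq_zero.1 (h.tens_inj e6)).symm⟩)
    refine ⟨?_, fun w => ?_⟩
    · obtain ⟨y, hy⟩ := F3 ((2 * m + c') • cl f₁ u ((g⁻¹).1 *ᵥ tens u x))
      have e8 := G5 y
      rw [hy, ← e6, h.cl_tens, h.alt₁.skew, h.hu] at e8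
      refine ⟨(B x z + B z z / 2) • w₂ - cl f₁ u' y, ?_⟩
      rw [map_sub, map_smul, ← e8]
      module
    · obtain ⟨a, ha⟩ := G1 u w
      have e8 := e4 (tens u' ((2 * m + c')⁻¹ • a))
      rw [h.cl_tens', smul_inv_smul₀ e7, ← ha, e1, add_sub_assoc, add_sub_cancel_left] at e8
      have e9 := congrArg (cl f₁ u') e8
      rw [map_sub, h.cl_tens, h.cl_tens, h.cl_tens, h.alt₁.skew u, h.hu, neg_smul, one_smul,
        ← neg_eq_iff_eq_neg] at e9
      rw [← e9]
      exact neg_mem (sub_mem (Submodule.smul_mem _ _ (Submodule.subset_span (by simp)))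
        (Submodule.smul_mem _ _ (Submodule.subset_span (by simp))))
  have G7 := (G6 (N x) (G2 x) fun h0 => by
    obtain ⟨m, hm⟩ := Submodule.mem_span_singleton.1 h0
    rw [← hm, h.sym.smul_left, G4] at hx'
    simp at hx').2
  obtain ⟨z, ⟨⟨-, hz1⟩, hz2⟩, hz⟩ := exists_mem_notMem_of_finrank_lt
    (W := h.sym.pp (h.sym.pp ⊤ (N w₂)) (N x)) (U := Submodule.span F {N w₂, N x}) (by
      have := h.sym.finrank_le_pp ⊤ (N w₂)
      have := h.sym.finrank_le_pp (h.sym.pp ⊤ (N w₂)) (N x)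
      have := finrank_span_pair_le (F := F) (N w₂) (N x)
      have : finrank F (⊤ : Submodule F (β → F)) = Fintype.card β := by simp
      omega)
  obtain ⟨w, rfl⟩ := (G6 z (fun w => by
    obtain ⟨a, b, hab⟩ := Submodule.mem_span_pair.1 (G7 w)
    rw [← hab, h.sym.add_right, h.sym.smul_right', h.sym.smul_right', show B z (N w₂) = 0 from hz1,
      show B z (N x) = 0 from hz2]
    simp) fun h0 => hz (Submodule.span_mono (by simp) h0)).1
  exact hz (G7 w)

end TCtx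

end Cfsg.Lib.Symp
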