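import Cfsg.Agent.Lib.Symp.TensC

/-!
# Symplectic tensor orthogonal: pairs with largest intersection and a pigeonhole argument
-/

namespace Cfsg.Lib.Symp

open Matrix Module Cfsg.Geo Cfsg.Lib.Asch Cfsg.Lib.Linear
open scoped MatrixGroups

set_option linter.unusedSectionVars false

/-- Pigeonhole principle for conjugates of a family of elements acting on the cosets of `S`. -/
theorem pigeon {G : Type*} [Group G] [Finite G] {S : Subgroup G} {C : Type*} [Fintype C]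
    (x : C → G) {g₀ : G} (h0 : g₀ ∉ S) (hx : ∀ g ∉ S, ∀ c, g * x c * g⁻¹ ∉ S) {Q : G → Prop}
    (hQ : (2 ≤ Fintype.card C ∧ ∀ h ∈ S, Q h) ∨
      (3 ≤ Fintype.card C ∧ ∀ h ∈ S, ∀ k ∈ S, Q h ∨ Q k ∨ Q (h⁻¹ * k))) :
    ∃ g ∉ S, ∃ k ∉ S, ∃ c d, (g⁻¹ * k ∉ S ∨ (g = k ∧ c ≠ d)) ∧
      Q ((g * x c * g⁻¹)⁻¹ * (k * x d * k⁻¹)) := by
  classical
  have := Fintype.ofFinite (G ⧸ S)
  have h1 : ∀ ω : G ⧸ S, ω ≠ ((1 : G) : G ⧸ S) → ω.out ∉ S := fun ω hω h =>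
    hω (by rw [← ω.out_eq', eq_comm, QuotientGroup.eq]; simpa)
  obtain ⟨y, -, hy⟩ := Finset.exists_le_card_fiber_of_mul_le_card_of_maps_to
    (s := (Finset.univ.erase ((1 : G) : G ⧸ S)) ×ˢ (Finset.univ : Finset C))
    (t := Finset.univ.erase ((1 : G) : G ⧸ S)) (n := Fintype.card C)
    (f := fun p => ((p.1.out * x p.2 * p.1.out⁻¹ : G) : G ⧸ S))
    (fun p hp => by
      simp only [Finset.mem_product, Finset.mem_erase, Finset.mem_univ, and_true] at hp ⊢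
      intro h
      rw [eq_comm, QuotientGroup.eq] at h
      exact hx _ (h1 _ hp) _ (by simpa using h))
    ⟨(g₀ : G ⧸ S), by
      simp only [Finset.mem_erase, Finset.mem_univ, and_true]
      intro h
      rw [eq_comm, QuotientGroup.eq] at h
      exact h0 (by simpa using h)⟩ (by simp)
  set T := Finset.filter (fun p : (G ⧸ S) × C => ((p.1.out * x p.2 * p.1.out⁻¹ : G) : G ⧸ S) = y)
    ((Finset.univ.erase ((1 : G) : G ⧸ S)) ×ˢ (Finset.univ : Finset C)) with hT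
  have h2 : ∀ p ∈ T, ∀ q ∈ T,
      (p.1.out * x p.2 * p.1.out⁻¹)⁻¹ * (q.1.out * x q.2 * q.1.out⁻¹) ∈ S := fun p hp q hq => by
    rw [← QuotientGroup.eq, (Finset.mem_filter.1 hp).2, (Finset.mem_filter.1 hq).2]
  have h3 : ∀ p ∈ T, ∀ q ∈ T, p ≠ q → Q ((p.1.out * x p.2 * p.1.out⁻¹)⁻¹ *
      (q.1.out * x q.2 * q.1.out⁻¹)) → ∃ g ∉ S, ∃ k ∉ S, ∃ c d, (g⁻¹ * k ∉ S ∨ (g = k ∧ c ≠ d)) ∧
      Q ((g * x c * g⁻¹)⁻¹ * (k * x d * k⁻¹)) := fun p hp q hq hpq h => by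
    simp only [hT, Finset.mem_filter, Finset.mem_product, Finset.mem_erase] at hp hq
    refine ⟨_, h1 _ hp.1.1.1, _, h1 _ hq.1.1.1, _, _, ?_, h⟩
    by_cases h4 : p.1 = q.1
    · exact Or.inr ⟨by rw [h4], fun h5 => hpq (Prod.ext h4 h5)⟩
    · exact Or.inl fun h5 => h4 (by rw [← p.1.out_eq', ← q.1.out_eq', QuotientGroup.eq]; exact h5)
  rcases hQ with ⟨h4, hQ⟩ | ⟨h4, hQ⟩
  · obtain ⟨p, hp, q, hq, hpq⟩ := Finset.one_lt_card.1 (show 1 < T.card by omega)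
    exact h3 p hp q hq hpq (hQ _ (h2 p hp q hq))
  · obtain ⟨p, hp, q, hq, r, hr, hpq, hpr, hqr⟩ := Finset.two_lt_card.1 (show 2 < T.card by omega)
    rcases hQ _ (h2 p hp q hq) _ (h2 p hp r hr) with h5 | h5 | h5
    · exact h3 p hp q hq hpq h5
    · exact h3 p hp r hr hpr h5
    · exact h3 q hq r hr hqr (by convert h5 using 1; group)

variable {α β : Type} [Fintype α] [Fintype β] [DecidableEq α] [DecidableEq β] {F : Type*} [Field F]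
  {f : (α × β → F) → (α × β → F) → F} {f₁ : (α → F) → (α → F) → F}
  {B : (β → F) → (β → F) → F} {M : Subgroup (GL (α × β) F)} {u u' : α → F}

/-- The image of `u ⊗ V₂` under `g`. -/
def gP (u : α → F) (g : GL (α × β) F) : Submodule F (α × β → F) := (Pu β u).map (toLin' g.1)

theorem mem_gP {g : GL (α × β) F} {x : α × β → F} : x ∈ gP u g ↔ (g⁻¹).1 *ᵥ x ∈ Pu β u :=
  ⟨by rintro ⟨y, hy, rfl⟩; rwa [toLin'_apply, GL_inv_mulVec_mulVec],
    fun h => ⟨_, h, GL_mulVec_inv_mulVec g x⟩⟩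

theorem mulVec_mem_gP {g k : GL (α × β) F} {x : α × β → F} :
    g.1 *ᵥ x ∈ gP u (g * k) ↔ x ∈ gP u k := by
  rw [mem_gP, mem_gP, _root_.mul_inv_rev, GL_mul_mulVec, GL_inv_mulVec_mulVec]

theorem mulVec_mem_gP' {g : GL (α × β) F} {x : α × β → F} : g.1 *ᵥ x ∈ gP u g ↔ x ∈ Pu β u := by
  rw [mem_gP, GL_inv_mulVec_mulVec]

theorem mem_gP_inv {g : GL (α × β) F} {x : α × β → F} : x ∈ gP u g⁻¹ ↔ g.1 *ᵥ x ∈ Pu β u := by
  rw [mem_gP, inv_inv]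

/-- `g ∈ M` is not a Kronecker product and `g (u ⊗ V₂) ∩ (u ⊗ V₂)` is as large as possible. -/
structure Good (f : (α × β → F) → (α × β → F) → F) (f₁ : (α → F) → (α → F) → F)
    (B : (β → F) → (β → F) → F) (M : Subgroup (GL (α × β) F)) (u u' : α → F)
    (g : GL (α × β) F) : Prop extends TCtx f f₁ B M u u' where
  h2 : 2 ≤ Fintype.card α
  h4 : Fintype.card β ≠ 4 ∨ Fintype.card α ≠ 2
  mem : g ∈ M
  notMem : g ∉ kronGL α β F
  max : ∀ m ∈ M, (∀ p ∈ Pu β u, m.1 *ᵥ p ∈ Pu β u) ∨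
    finrank F ↥(Pu β u ⊓ gP u m) ≤ finrank F ↥(Pu β u ⊓ gP u g)

theorem TCtx.exists_good [Finite F] (h : TCtx f f₁ B M u u') (h2 : 2 ≤ Fintype.card α)
    (h4 : Fintype.card β ≠ 4 ∨ Fintype.card α ≠ 2) {g₀ : GL (α × β) F} (hg : g₀ ∈ M)
    (hg' : g₀ ∉ kronGL α β F) : ∃ g, Good f f₁ B M u u' g := by
  obtain ⟨g, ⟨h5, h6⟩, h7⟩ := Set.Finite.exists_maximalFor
    (fun m : GL (α × β) F => finrank F ↥(Pu β u ⊓ gP u m)) {m | m ∈ M ∧ m ∉ kronGL α β F}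
    (Set.toFinite _) ⟨g₀, hg, hg'⟩
  refine ⟨g, h, h2, h4, h5, h6, fun m hm => ?_⟩
  by_cases h8 : m ∈ kronGL α β F
  swap
  · exact Or.inr ((le_total _ _).elim id fun h9 => h7 ⟨hm, h8⟩ h9)
  obtain ⟨a, b, rfl⟩ := h8
  by_cases h9 : Pu β u ⊓ gP u (kr a b) = ⊥
  · exact Or.inr (by rw [h9, finrank_bot]; omega)
  obtain ⟨_, ⟨h10, _, ⟨w, rfl⟩, rfl⟩, h0⟩ := Submodule.exists_mem_ne_zero_of_ne_bot h9
  rw [toLin'_apply, tensR_apply, kr_mulVec_tens] at h10 h0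
  obtain ⟨c, hc⟩ := h.exists_smul_of_mem (fun h1 => h0 (by rw [h1, tens_zero_right])) h10
  left
  rintro _ ⟨w, rfl⟩
  rw [tensR_apply, kr_mulVec_tens, ← hc, tens_smul_left]
  exact Submodule.smul_mem _ _ (tens_mem_Pu _ _)

namespace Good

variable [Finite F] {g : GL (α × β) F}

theorem inv (h : Good f f₁ B M u u' g) : Good f f₁ B M u u' g⁻¹ := by
  refine ⟨h.toTCtx, h.h2, h.h4, inv_mem h.mem, fun h0 => h.notMem (inv_mem_iff.1 h0),
    fun m hm => (h.max m hm).imp_right fun h1 => h1.trans ?_⟩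
  rw [← finrank_map_GL g⁻¹]
  refine Submodule.finrank_mono ?_
  rintro _ ⟨x, hx, rfl⟩
  exact ⟨mem_gP.1 hx.2, mulVec_mem_gP'.2 hx.1⟩

theorem le_of_lt' (h : Good f f₁ B M u u' g) {m k : GL (α × β) F} (hm : m ∈ M) (hk : k ∈ M)
    (h7 : finrank F ↥(Pu β u ⊓ gP u g) < finrank F ↥(gP u m ⊓ gP u k)) :
    ∀ p ∈ Pu β u, (m⁻¹ * k).1 *ᵥ p ∈ Pu β u := by
  refine (h.max _ (mul_mem (inv_mem hm) hk)).resolve_right fun h6 => ?_
  rw [← finrank_map_GL m⁻¹ (gP u m ⊓ gP u k)] at h7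
  have h8 := Submodule.finrank_mono (show (gP u m ⊓ gP u k).map (toLin' (m⁻¹).1) ≤
      Pu β u ⊓ gP u (m⁻¹ * k) by
    rintro _ ⟨x, hx, rfl⟩
    exact ⟨mem_gP.1 hx.1, mulVec_mem_gP.2 hx.2⟩)
  omega

theorem le_of_lt (h : Good f f₁ B M u u' g) {m k : GL (α × β) F} (hm : m ∈ M) (hk : k ∈ M)
    {D : Submodule F (α × β → F)} (hD : finrank F ↥(Pu β u ⊓ gP u g) ≤ finrank F D)
    (h1 : D ≤ gP u m) (h2 : D ≤ gP u k) {y : α × β → F} (h3 : y ∈ gP u m) (h4 : y ∈ gP u k)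
    (h5 : y ∉ D) : ∀ p ∈ Pu β u, (m⁻¹ * k).1 *ᵥ p ∈ Pu β u :=
  h.le_of_lt' hm hk <| hD.trans_lt <|
    Submodule.finrank_lt_finrank_of_lt (lt_of_le_of_ne (le_inf h1 h2) fun h0 => h5 (h0 ▸ ⟨h3, h4⟩))

theorem lemR' (h : Good f f₁ B M u u' g) {m : GL (α × β) F} (hm : m ∈ M) {c : F} (hc : c ≠ 0)
    (hP : ∀ p ∈ Pu β u, (m * h.xr u c * m⁻¹).1 *ᵥ p ∈ Pu β u) :
    m ∈ kronGL α β F ∧ ∀ p ∈ Pu β u, cl f₁ u (m.1 *ᵥ p) = 0 := h.lemR h.h2 h.h4 hm hc hP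

theorem n2 (h : Good f f₁ B M u u' g) {y : α × β → F} (hy : y ∈ gP u g)
    (h1 : tens u (cl f₁ u y) ∈ gP u g) : y ∈ Pu β u := by
  by_contra h0
  have h2 := h.le_of_lt h.mem (mul_mem (h.xr_memM u 1) h.mem) le_rfl inf_le_right
    (fun p hp => by rw [← h.xr_of_mem 1 hp.1]; exact mulVec_mem_gP.2 hp.2)
    (y := (h.xr u 1).1 *ᵥ y) (by rw [h.xr_mulVec, one_smul]; exact add_mem hy h1)
    (mulVec_mem_gP.2 hy) fun h2 => h0 (by
      rw [h.xr_mulVec, one_smul] at h2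
      exact (Submodule.add_mem_iff_left _ (tens_mem_Pu _ _)).1 h2.1)
  exact h.inv.notMem (h.lemR' (inv_mem h.mem) one_ne_zero (by simpa [mul_assoc] using h2)).1

theorem n2' (h : Good f f₁ B M u u' g) {p : α × β → F} (hp : p ∈ Pu β u)
    (h1 : g.1 *ᵥ tens u (cl f₁ u ((g⁻¹).1 *ᵥ p)) ∈ Pu β u) : p ∈ gP u g :=
  mem_gP.2 (h.inv.n2 (mulVec_mem_gP'.2 hp) (mem_gP_inv.2 h1))

theorem mem_of_sup (h : Good f f₁ B M u u' g) {y : α × β → F} (hy : y ∈ Pu β u ⊔ gP u g)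
    (h1 : cl f₁ u y = 0) : y ∈ Pu β u := by
  obtain ⟨p, hp, q, hq, rfl⟩ := Submodule.mem_sup.1 hy
  rw [map_add, h.cl_of_mem (h.alt₁.alt u) hp, zero_add] at h1
  exact add_mem hp (h.n2 hq (by simp [h1]))

theorem gP_ti (h : Good f f₁ B M u u' g) {x y : α × β → F} (hx : x ∈ gP u g) (hy : y ∈ gP u g) :
    f x y = 0 := by
  rw [← h.hMi (inv_mem h.mem)]
  exact h.perp_iff.2 (h.cl_of_mem (h.alt₁.alt u) (mem_gP.1 hx)) _ (mem_gP.1 hy)

theorem perp_of_mem (h : Good f f₁ B M u u' g) {d : α × β → F} (hd : d ∈ Pu β u ⊓ gP u g) :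
    ∀ w ∈ Pu β u ⊔ gP u g, f w d = 0 := fun w hw => by
  obtain ⟨p, hp, q, hq, rfl⟩ := Submodule.mem_sup.1 hw
  rw [h.alt.add_left, h.gP_ti hq hd.2, h.perp_iff.2 (h.cl_of_mem (h.alt₁.alt u) hp) _ hd.1,
    add_zero]

/-- The elements of `M` centralising the orthogonal complement of `P + g P`. -/
def fixZ (f : (α × β → F) → (α × β → F) → F) (M : Subgroup (GL (α × β) F)) (u : α → F)
    (g : GL (α × β) F) : Subgroup (GL (α × β) F) where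
  carrier := {m | m ∈ M ∧ ∀ ζ, (∀ w ∈ Pu β u ⊔ gP u g, f w ζ = 0) → m.1 *ᵥ ζ = ζ}
  one_mem' := ⟨one_mem _, fun ζ _ => by simp⟩
  mul_mem' := fun ha hb => ⟨mul_mem ha.1 hb.1, fun ζ hζ => by
    rw [GL_mul_mulVec, hb.2 ζ hζ, ha.2 ζ hζ]⟩
  inv_mem' := fun {a} ha => ⟨inv_mem ha.1, fun ζ hζ => by
    rw [← ha.2 ζ hζ, GL_inv_mulVec_mulVec, ha.2 ζ hζ]⟩

theorem cl_of_perp (h : Good f f₁ B M u u' g) {ζ : α × β → F} (hζ : ∀ p ∈ Pu β u, f p ζ = 0) :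
    cl f₁ u ζ = 0 := h.perp_iff.1 fun p hp => by rw [h.alt.skew, hζ p hp, neg_zero]

theorem xr_mem_fixZ (h : Good f f₁ B M u u' g) (c : F) : h.xr u c ∈ fixZ f M u g :=
  ⟨h.xr_memM u c, fun ζ hζ => by
    rw [h.xr_mulVec, h.cl_of_perp fun p hp => hζ p (Submodule.mem_sup_left hp)]
    simp⟩

theorem conj_mulVec (h : Good f f₁ B M u u' g) (m : GL (α × β) F) (c : F) (x : α × β → F) :
    (m * h.xr u c * m⁻¹).1 *ᵥ x = x + c • m.1 *ᵥ tens u (cl f₁ u ((m⁻¹).1 *ᵥ x)) := by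
  rw [GL_mul_mulVec, GL_mul_mulVec, h.xr_mulVec, mulVec_add, GL_mulVec_inv_mulVec, mulVec_smul]

theorem xr'_mem_fixZ (h : Good f f₁ B M u u' g) (c : F) : g * h.xr u c * g⁻¹ ∈ fixZ f M u g :=
  ⟨mul_mem (mul_mem h.mem (h.xr_memM u c)) (inv_mem h.mem), fun ζ hζ => by
    rw [h.conj_mulVec, h.cl_of_perp fun p hp => by
      rw [← h.hMi h.mem, GL_mulVec_inv_mulVec]
      exact hζ _ (Submodule.mem_sup_right (mulVec_mem_gP'.2 hp))]
    simp⟩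

theorem stab_of_perp (h : Good f f₁ B M u u' g) {m : GL (α × β) F} (hm : m ∈ fixZ f M u g)
    (h1 : ∀ p ∈ Pu β u, cl f₁ u (m.1 *ᵥ p) = 0) : m ∈ subspaceStabilizer (Pu β u) :=
  mem_subspaceStabilizer_of_le fun p hp => h.mem_of_sup (by
    simpa using add_mem (h.alt.sub_mem_of_fix (h.hMi hm.1) hm.2 p) (Submodule.mem_sup_left hp))
    (h1 p hp)

theorem pigeon_contra (h : Good f f₁ B M u u' g) {G : Subgroup (GL (α × β) F)}
    (hG : G ≤ fixZ f M u g) (h1 : ∀ c, h.xr u c ∈ G) (h2 : g * h.xr u 1 * g⁻¹ ∈ G)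
    (hS : (∀ m ∈ G, m ∈ subspaceStabilizer (Pu β u) → ∃ c, m = h.xr u c) ∨
      (4 ≤ Nat.card F ∧ ∀ m ∈ G, m ∈ subspaceStabilizer (Pu β u) → ∀ k ∈ G,
        k ∈ subspaceStabilizer (Pu β u) →
        (∃ c, m = h.xr u c) ∨ (∃ c, k = h.xr u c) ∨ ∃ c, m⁻¹ * k = h.xr u c)) : False := by
  classical
  have := Fintype.ofFinite F
  have hc : Fintype.card {c : F // c ≠ 0} = Nat.card F - 1 := by simp
  have h3 : 3 ≤ Nat.card F := by
    rw [Nat.card_eq_fintype_card]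
    refine (Finset.card_le_univ ({0, 1, -1} : Finset F)).trans' ?_
    rw [Finset.card_eq_three.2 ⟨0, 1, -1, by simp, by simp,
      fun h0 => h.sym.two (by linear_combination h0), rfl⟩]
  obtain ⟨m, hm, k, hk, c, d, h4, e, h5⟩ := pigeon (S := (subspaceStabilizer (Pu β u)).subgroupOf G)
    (fun c : {c : F // c ≠ 0} => (⟨h.xr u c, h1 c⟩ : G)) (g₀ := ⟨_, h2⟩)
    (fun h0 => h.notMem (h.lemR' h.mem one_ne_zero fun p hp => (h0 p).1 hp).1)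
    (fun m hm c h0 => hm (h.stab_of_perp (hG m.2)
      (h.lemR' (hG m.2).1 c.2 fun p hp => (h0 p).1 hp).2))
    (Q := fun m => ∃ c, m.1 = h.xr u c)
    (hS.imp (fun hS => ⟨by omega, fun m hm => hS m m.2 hm⟩)
      fun hS => ⟨by omega, fun m hm k hk => hS.2 m m.2 hm k k.2 hk⟩)
  replace h5 : k.1 * h.xr u d * k.1⁻¹ = m.1 * h.xr u c * m.1⁻¹ * h.xr u e :=
    (eq_inv_mul_iff_mul_eq.1 h5.symm).symm
  obtain ⟨w₀, hw₀⟩ := h.exists_ne
  rcases eq_or_ne e 0 with rfl | he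
  · have h6 : ∀ w, d.1 • k.1.1 *ᵥ tens u w =
        c.1 • m.1.1 *ᵥ tens u (cl f₁ u ((m.1⁻¹).1 *ᵥ (k.1.1 *ᵥ tens u' w))) := fun w => by
      have := congrArg (fun y : GL (α × β) F => y.1 *ᵥ (k.1.1 *ᵥ tens u' w)) h5
      rwa [GL_mul_mulVec _ (h.xr u 0), h.xr_mulVec, zero_smul, add_zero, h.conj_mulVec,
        h.conj_mulVec, GL_inv_mulVec_mulVec, h.cl_tens', add_right_inj] at this
    rcases h4 with h4 | ⟨rfl, h4⟩
    · refine h4 (mem_subspaceStabilizer_of_le ?_)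
      rintro _ ⟨w, rfl⟩
      have := congrArg (fun y => (m.1⁻¹).1 *ᵥ y) (h6 w)
      simp only [mulVec_smul, GL_inv_mulVec_mulVec] at this
      rw [← Submodule.smul_mem_iff _ d.2]
      change d.1 • (m.1⁻¹ * k.1).1 *ᵥ tens u w ∈ _
      rw [GL_mul_mulVec, this]
      exact Submodule.smul_mem _ _ (tens_mem_Pu _ _)
    · have := h6 w₀
      rw [GL_inv_mulVec_mulVec, h.cl_tens'] at this
      exact h4 (Subtype.ext (smul_left_injective F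
        (GL_mulVec_ne_zero _ (tens_ne_zero h.ne hw₀)) this).symm)
  have h6 : ∀ m : G, Pu β u ⊓ gP u g ≤ gP u m.1 := fun m p hp => by
    rw [← (hG m.2).2 p (h.perp_of_mem hp)]
    exact mulVec_mem_gP'.2 hp.1
  have h7 : ∀ p ∈ Pu β u, ((k.1)⁻¹ * h.xr u e * (k.1)⁻¹⁻¹).1 *ᵥ p ∈ Pu β u := fun p hp => by
    have e1 := congrArg (fun y : GL (α × β) F => y.1 *ᵥ (k.1.1 *ᵥ p)) h5
    rw [h.conj_mulVec, GL_inv_mulVec_mulVec, h.cl_of_mem (h.alt₁.alt u) hp, tens_zero_right,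
      mulVec_zero, smul_zero, add_zero, GL_mul_mulVec _ (h.xr u e), h.conj_mulVec, h.xr_mulVec,
      add_assoc, left_eq_add, add_eq_zero_iff_eq_neg] at e1
    have e2 : e • tens u (cl f₁ u (k.1.1 *ᵥ p)) ∈ Pu β u ⊓ gP u g := by
      by_contra h0
      refine hm (mem_subspaceStabilizer_of_le ?_)
      simpa using h.le_of_lt (one_mem _) (hG m.2).1 le_rfl (h6 1) (h6 m)
        (mem_gP.2 (by simpa using Submodule.smul_mem _ e (tens_mem_Pu _ _)))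
        (e1 ▸ neg_mem (Submodule.smul_mem _ _ (mulVec_mem_gP'.2 (tens_mem_Pu _ _)))) h0
    rw [inv_inv, GL_mul_mulVec, GL_mul_mulVec, ← mem_gP, h.xr_mulVec]
    exact add_mem (mulVec_mem_gP'.2 hp) (h6 k e2)
  exact hk (inv_mem_iff.1 (h.stab_of_perp (hG (inv_mem k.2))
    (h.lemR' (inv_mem (hG k.2).1) he h7).2))

theorem false_of_three (h : Good f f₁ B M u u' g) (h3 : 3 ≤ Fintype.card α) : False := by
  refine h.pigeon_contra le_rfl h.xr_mem_fixZ (h.xr'_mem_fixZ 1) (Or.inl fun m hm hm' => ?_)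
  have h1 : ∀ ζ, cl f₁ u ζ = 0 → ∃ p ∈ Pu β u, ∀ w ∈ Pu β u ⊔ gP u g, f w (ζ - p) = 0 :=
    fun ζ hζ => by
      let Z : Submodule F (α × β → F) :=
        { carrier := {ζ | ∀ w ∈ Pu β u ⊔ gP u g, f w ζ = 0}
          add_mem' := fun ha hb w hw => by rw [h.alt.add_right, ha w hw, hb w hw, add_zero]
          zero_mem' := fun w _ => h.alt.zero_right w
          smul_mem' := fun c x hx w hw => by rw [h.alt.smul_right', hx w hw, mul_zero] }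
      obtain ⟨p, hp, z, hz, rfl⟩ := Submodule.mem_sup.1 (mem_of_perp h.alt.toSForm
        (W := Pu β u ⊔ Z) (x := ζ) fun y hy => h.perp_iff.2 hζ _ (h.mem_of_sup
          (mem_of_perp h.alt.toSForm fun z hz => by
            rw [h.alt.skew, hy z (Submodule.mem_sup_right hz), neg_zero])
          (h.cl_of_perp fun p hp => hy p (Submodule.mem_sup_left hp))))
      exact ⟨p, hp, by rwa [add_sub_cancel_left]⟩
  have h2 : ∀ p ∈ Pu β u, m.1 *ᵥ p ∈ Pu β u := fun p hp => (hm' p).1 hp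
  have h4 : ∀ ζ, cl f₁ u ζ = 0 → m.1 *ᵥ ζ - ζ ∈ Pu β u := fun ζ hζ => by
    obtain ⟨p, hp, h4⟩ := h1 ζ hζ
    have := hm.2 _ h4
    rw [mulVec_sub, sub_eq_sub_iff_sub_eq_sub] at this
    exact this ▸ sub_mem (h2 p hp) hp
  obtain ⟨a, b, hab⟩ := h.stab hm.1 h2
  obtain ⟨z, hz, hz'⟩ := exists_mem_notMem_of_finrank_lt (W := dotKer (dv (RingHom.id F) f₁ u))
    (U := Submodule.span F {u}) (by
      have := card_le_finrank_dotKer (dv (RingHom.id F) f₁ u)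
      have := finrank_span_singleton_le (F := F) u
      omega)
  replace hz : f₁ z u = 0 := by rw [← dv_dot h.alt₁.toSForm]; exact hz
  obtain ⟨y, hy, hy'⟩ := exists_form_of_notMem h.alt₁.toSForm hz' 1
  have hy0 : f₁ y u = 0 := by rw [h.alt₁.skew, hy u (by simp), neg_zero]
  have h5 : ∀ w, m.1 *ᵥ tens z w - tens z w ∈ Pu β u := fun w =>
    h4 _ (by rw [h.cl_tens, hz, zero_smul])
  have h6 : ∀ w, f₁ (a.1 *ᵥ z) y • b.1 *ᵥ w = w := fun w => by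
    have := h.cl_of_mem hy0 (h5 w)
    rwa [hab, kr_mulVec_tens, map_sub, h.cl_tens, h.cl_tens, hy', one_smul, sub_eq_zero] at this
  obtain ⟨w₀, hw₀⟩ := h.exists_ne
  have h7 : f₁ (a.1 *ᵥ z) y ≠ 0 := fun h0 => hw₀ (by rw [← h6 w₀, h0, zero_smul])
  have h8 : ∀ v w, m.1 *ᵥ tens v w = tens ((f₁ (a.1 *ᵥ z) y)⁻¹ • a.1 *ᵥ v) w := fun v w => by
    rw [hab, kr_mulVec_tens, tens_smul_left, ← tens_smul_right, (eq_inv_smul_iff₀ h7).2 (h6 w)]
  obtain ⟨l, hl⟩ := h.exists_smul_of_mem hw₀ (h8 u w₀ ▸ h2 _ (tens_mem_Pu u w₀))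
  obtain ⟨n, hn⟩ := h.exists_smul_of_mem hw₀ (by
    have := h5 w₀
    rwa [h8, ← tens_sub_left] at this)
  have h9 : ∀ p ∈ Pu β u, m.1 *ᵥ p = l • p := by
    rintro _ ⟨w, rfl⟩
    rw [tensR_apply, h8, ← hl, tens_smul_left]
  have h10 : l = 1 := by
    by_contra h0
    have e1 : z + (n / (1 - l)) • u ≠ 0 := fun e1 => hz' (Submodule.mem_span_singleton.2
      ⟨-(n / (1 - l)), by rw [neg_smul, neg_eq_of_add_eq_zero_left e1]⟩)
    obtain ⟨k, hk, hku⟩ := h.alt₁.exists_map h.ne e1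
    have e2 : ∀ w, ∀ q ∈ gP u g, f q (tens (z + (n / (1 - l)) • u) w) = 0 := fun w q hq => by
      obtain ⟨p, hp, e2⟩ := h1 (tens (z + (n / (1 - l)) • u) w) (by
        rw [h.cl_tens, h.alt₁.add_left, h.alt₁.smul_left, hz, h.alt₁.alt]
        simp)
      have e3 := hm.2 _ e2
      have e4 : m.1 *ᵥ tens (z + (n / (1 - l)) • u) w = tens (z + (n / (1 - l)) • u) w := by
        rw [h8, mulVec_add, mulVec_smul, smul_add, smul_comm _ (n / (1 - l)), ← hl,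
          ← sub_add_cancel (_ • a.1 *ᵥ z) z, ← hn]
        congr 1
        have := sub_ne_zero.2 (Ne.symm h0)
        match_scalars <;> field_simp <;> ring
      rw [mulVec_sub, e4, h9 p hp, sub_right_inj] at e3
      have e5 : p = 0 := (smul_eq_zero.1 (show (l - 1) • p = 0 by
        rw [sub_smul, e3, one_smul, sub_self])).resolve_left (sub_ne_zero.2 h0)
      simpa [e5] using e2 q (Submodule.mem_sup_right hq)
    have e3 := (h.lemR' (m := g⁻¹ * kr k 1) (mul_mem (inv_mem h.mem) (h.kr_mem' hk (one_mem _)))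
      one_ne_zero fun p hp => by
        have e4 : cl f₁ u (((g⁻¹ * kr k 1)⁻¹).1 *ᵥ p) = 0 := h.perp_iff.1 <| by
          rintro _ ⟨w, rfl⟩
          rw [← h.kr_iso hk (one_mem _), _root_.mul_inv_rev, GL_mul_mulVec, GL_mulVec_inv_mulVec,
            inv_inv, tensR_apply, kr_mulVec_tens, hku]
          exact e2 _ _ (mulVec_mem_gP'.2 hp)
        rwa [h.conj_mulVec, e4, tens_zero_right, mulVec_zero, smul_zero, add_zero]).1
    exact h.inv.notMem ((Subgroup.mul_mem_cancel_right _ (kr_mem k 1)).1 e3)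
  refine h.eq_xr hm.1 (h.alt.sub_mem_of_fix (h.hMi hm.1) fun ζ hζ => ?_)
  obtain ⟨p, hp, e1⟩ := h1 ζ (h.cl_of_perp hζ)
  have e2 := hm.2 _ e1
  rwa [mulVec_sub, h9 p hp, h10, one_smul, sub_left_inj] at e2

end Good

end Cfsg.Lib.Symp
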