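import Cfsg.Agent.Lib.Symp.TensD

/-!
# Symplectic tensor orthogonal: the case of a two-dimensional symplectic factor
-/

namespace Cfsg.Lib.Symp

open Matrix Module Cfsg.Geo Cfsg.Lib.Asch Cfsg.Lib.Linear
open scoped MatrixGroups

set_option linter.unusedSectionVars false

variable {α β : Type} [Fintype α] [Fintype β] [DecidableEq α] [DecidableEq β] {F : Type*} [Field F]
  {f : (α × β → F) → (α × β → F) → F} {f₁ : (α → F) → (α → F) → F}
  {B : (β → F) → (β → F) → F} {M : Subgroup (GL (α × β) F)} {u u' : α → F} {g : GL (α × β) F}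

/-- The vectors `w` with `u ⊗ w ∈ g (u ⊗ V₂)`. -/
def dS (u : α → F) (g : GL (α × β) F) : Submodule F (β → F) := (gP u g).comap (tensR u)

/-- The orthogonal complement of `dS`. -/
def eS (h : Sym B) (u : α → F) (g : GL (α × β) F) : Submodule F (β → F) where
  carrier := {e | ∀ d ∈ dS u g, B d e = 0}
  add_mem' := fun ha hb d hd => by rw [h.add_right, ha d hd, hb d hd, add_zero]
  zero_mem' := fun d _ => h.zero_right d
  smul_mem' := fun c x hx d hd => by rw [h.smul_right', hx d hd, mul_zero]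

/-- `Good` with a two-dimensional first factor. -/
structure Good₂ (f : (α × β → F) → (α × β → F) → F) (f₁ : (α → F) → (α → F) → F)
    (B : (β → F) → (β → F) → F) (M : Subgroup (GL (α × β) F)) (u u' : α → F)
    (g : GL (α × β) F) : Prop extends Good f f₁ B M u u' g where
  two : Fintype.card α = 2

namespace Good₂

variable [Finite F]

theorem exists_smul (h : Good₂ f f₁ B M u u' g) {z : α → F} (hz : f₁ z u = 0) :
    ∃ c : F, c • u = z := by
  refine Submodule.mem_span_singleton.1 ?_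
  have h1 : Submodule.span F {u} = dotKer (dv (RingHom.id F) f₁ u) := by
    refine Submodule.eq_of_le_of_finrank_le (Submodule.span_le.2 ?_) ?_
    · rintro _ rfl
      exact (dv_dot h.alt₁.toSForm _ _).trans (h.alt₁.alt _)
    · have := Submodule.finrank_lt (s := dotKer (dv (RingHom.id F) f₁ u)) fun h0 => by
        have : u' ∈ dotKer (dv (RingHom.id F) f₁ u) := h0 ▸ trivial
        exact one_ne_zero (h.hu.symm.trans ((dv_dot h.alt₁.toSForm _ _).symm.trans this))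
      rw [finrank_fintype_fun_eq_card, h.two] at this
      rw [finrank_span_singleton h.ne]
      omega
  rw [h1]
  exact (dv_dot h.alt₁.toSForm _ _).trans hz

theorem memP (h : Good₂ f f₁ B M u u' g) {ζ : α × β → F} (hζ : cl f₁ u ζ = 0) : ζ ∈ Pu β u :=
  h.mem_Pu h.hu fun z hz => by
    obtain ⟨c, rfl⟩ := h.exists_smul hz
    rw [h.cl_smul, hζ, smul_zero]

theorem cr_eq_zero (h : Good₂ f f₁ B M u u' g) {s : β → F} {y : α × β → F}
    (h1 : B (cl f₁ u y) s = 0) (h2 : B (cl f₁ u' y) s = 0) : cr B s y = 0 := by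
  rw [← h.f_tens, h.f_tens'] at h1 h2
  obtain ⟨c, hc⟩ := h.exists_smul h1
  rw [← hc, h.alt₁.smul_left, h.alt₁.skew, h.hu] at h2
  rw [← hc, show c = 0 by simpa using h2, zero_smul]

theorem cl_mem (h : Good₂ f f₁ B M u u' g) {y : α × β → F} (hy : y ∈ gP u g) :
    cl f₁ u y ∈ eS h.sym u g := fun d hd => by
  rw [h.sym.symm, ← h.f_tens]
  exact h.gP_ti hy hd

theorem exists_cl (h : Good₂ f f₁ B M u u' g) {e : β → F} (he : e ∈ eS h.sym u g) :
    ∃ y ∈ gP u g, cl f₁ u y = e :=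
  mem_of_perp h.sym.toSForm (W := (gP u g).map (cl f₁ u)) fun t ht => by
    rw [h.sym.symm]
    refine he t (mem_gP.2 (h.memP (h.cl_of_perp fun p hp => ?_)))
    rw [← h.hMi h.mem, GL_mulVec_inv_mulVec, tensR_apply, h.f_tens]
    exact ht _ ⟨_, mulVec_mem_gP'.2 hp, rfl⟩

theorem eq_zero (h : Good₂ f f₁ B M u u' g) {w : β → F} (h1 : w ∈ dS u g)
    (h2 : w ∈ eS h.sym u g) : w = 0 := by
  obtain ⟨y, hy, rfl⟩ := h.exists_cl h2
  exact h.cl_of_mem (h.alt₁.alt u) (h.n2 hy h1)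

theorem mem_dS (h : Good₂ f f₁ B M u u' g) {w : β → F} (hw : ∀ e ∈ eS h.sym u g, B w e = 0) :
    w ∈ dS u g := mem_of_perp h.sym.toSForm hw

theorem nd_dS (h : Good₂ f f₁ B M u u' g) : Nd B (dS u g) := fun x hx h0 =>
  h.eq_zero hx fun d hd => by rw [h.sym.symm, h0 d hd]

theorem nd_eS (h : Good₂ f f₁ B M u u' g) : Nd B (eS h.sym u g) := fun _ hx h0 =>
  h.eq_zero (h.mem_dS h0) hx

theorem exists_add (h : Good₂ f f₁ B M u u' g) (w : β → F) :
    ∃ d ∈ dS u g, ∃ e ∈ eS h.sym u g, d + e = w :=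
  Submodule.mem_sup.1 <| mem_of_perp h.sym.toSForm fun t ht => by
    rw [h.eq_zero (h.mem_dS fun e he => by rw [h.sym.symm, ht e (Submodule.mem_sup_right he)])
      fun d hd => ht d (Submodule.mem_sup_left hd), h.sym.zero_right]

theorem finrank_add (h : Good₂ f f₁ B M u u' g) :
    finrank F (dS u g) + finrank F (eS h.sym u g) = Fintype.card β := by
  rw [← Submodule.finrank_sup_add_finrank_inf_eq,
    show dS u g ⊔ eS h.sym u g = ⊤ from eq_top_iff.2 fun w _ => Submodule.mem_sup.2 (h.exists_add w),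
    show dS u g ⊓ eS h.sym u g = ⊥ from eq_bot_iff.2 fun w hw => h.eq_zero hw.1 hw.2]
  simp

theorem finrank_dS (h : Good₂ f f₁ B M u u' g) :
    finrank F (dS u g) = finrank F ↥(Pu β u ⊓ gP u g) := by
  rw [(Submodule.equivMapOfInjective _ (tensR_injective h.ne) (dS u g)).finrank_eq, dS,
    Submodule.map_comap_eq]
  rfl

theorem cl'_tens (h : Good₂ f f₁ B M u u' g) (w : β → F) : cl f₁ u' (tens u w) = -w := by
  rw [h.cl_tens, h.alt₁.skew, h.hu, neg_smul, one_smul]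

theorem exists_dec (h : Good₂ f f₁ B M u u' g) (y : α × β → F) :
    ∃ d ∈ dS u g, cl f₁ u' (y + tens u d) ∈ eS h.sym u g := by
  obtain ⟨d, hd, e, he, h1⟩ := h.exists_add (cl f₁ u' y)
  exact ⟨d, hd, by rwa [map_add, h.cl'_tens, ← h1, add_neg_cancel_comm]⟩

theorem exists_ne_eS (h : Good₂ f f₁ B M u u' g) : ∃ e ∈ eS h.sym u g, e ≠ 0 := by
  by_contra! h0
  refine h.inv.notMem (h.stab (inv_mem h.mem) ?_)
  rintro _ ⟨w, rfl⟩
  obtain ⟨d, hd, e, he, rfl⟩ := h.exists_add w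
  rw [h0 e he, add_zero]
  exact mem_gP.1 hd

theorem finrank_eS_le (h : Good₂ f f₁ B M u u' g) (h3 : 3 ≤ finrank F (eS h.sym u g)) :
    finrank F (eS h.sym u g) ≤ finrank F (dS u g) := by
  let E := gP u g ⊓ (eS h.sym u g).comap (cl f₁ u')
  have k1 : ∀ e ∈ eS h.sym u g, ∃ y ∈ E, cl f₁ u y = e := fun e he => by
    obtain ⟨y, hy, rfl⟩ := h.exists_cl he
    obtain ⟨d, hd, h1⟩ := h.exists_dec y
    exact ⟨_, ⟨add_mem hy hd, h1⟩, by rw [map_add, tensR_apply, h.cl_tens_self, add_zero]⟩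
  have k2 : finrank F (eS h.sym u g) ≤ finrank F E :=
    (Submodule.finrank_mono fun e he => k1 e he).trans (Submodule.finrank_map_le (cl f₁ u) E)
  obtain ⟨c, hc⟩ := h.sym.scalar_of_eigen h.nd_eS (Or.inr h3) (σ := (gP u g).mkQ ∘ₗ tensR u')
    (τ := (gP u g).mkQ ∘ₗ tensR u) (fun x hx h0 =>
      h.eq_zero ((Submodule.Quotient.mk_eq_zero (gP u g)).1 h0) hx) fun s hs hs' => by
    obtain ⟨b, hb, h1, h2⟩ := h.exists_rR hs'
    obtain ⟨y, ⟨⟨hy, hy1⟩, hy2⟩, hy0⟩ := exists_mem_notMem_of_finrank_lt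
      (W := E ⊓ dotKer (dv (RingHom.id F) f (tens u s)) ⊓ dotKer (dv (RingHom.id F) f (tens u' s)))
      (U := ⊥) (by
        have := finrank_le_inf_dotKer E (dv (RingHom.id F) f (tens u s))
        have := finrank_le_inf_dotKer (E ⊓ dotKer (dv (RingHom.id F) f (tens u s)))
          (dv (RingHom.id F) f (tens u' s))
        rw [finrank_bot]
        omega)
    have h4 : cr B s y = 0 := h.cr_eq_zero
      (by rw [← h.f_tens, ← dv_dot h.alt.toSForm]; exact hy1)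
      (by rw [← h.f_tens, ← dv_dot h.alt.toSForm]; exact hy2)
    have h5 := h.le_of_lt h.mem (mul_mem (h.kr_mem' (one_mem _) hb) h.mem) le_rfl inf_le_right
      (by
        rintro _ ⟨⟨w, rfl⟩, hw⟩
        have : (kr 1 b).1 *ᵥ tens u w = tens u w := by
          rw [h2, h.cr_tens, hs w hw]
          simp
        rw [tensR_apply, ← this]
        exact mulVec_mem_gP.2 hw) hy.1
      (by
        have : (kr 1 b).1 *ᵥ y = y := by rw [h2, h4]; simp
        rw [← this]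
        exact mulVec_mem_gP.2 hy.1) fun h0 => hy0 (by
          have e1 := h.eq_tens h0.1
          have e2 : -cl f₁ u' y = 0 := h.eq_zero (show tens u _ ∈ _ from e1 ▸ hy.1) (neg_mem hy.2)
          rw [e1, e2, tens_zero_right]
          exact zero_mem _)
    obtain ⟨x, hx, hxs⟩ := k1 s hs
    have h6 := h5 _ (mem_gP.1 hx.1)
    rw [GL_mul_mulVec, GL_mul_mulVec, GL_mulVec_inv_mulVec, ← mem_gP, h2,
      Submodule.sub_mem_iff_right _ hx.1,
      Submodule.smul_mem_iff _ (div_ne_zero h.sym.two hs')] at h6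
    obtain ⟨c, hc⟩ := h.exists_smul (z := (B s s)⁻¹ • cr B s x - u') (by
      rw [h.alt₁.sub_left, h.alt₁.smul_left, ← h.f_tens', h.f_tens, hxs, inv_mul_cancel₀ hs',
        h.hu, sub_self])
    refine ⟨-c, ?_⟩
    simp only [LinearMap.comp_apply, tensR_apply, Submodule.mkQ_apply]
    rw [← Submodule.Quotient.mk_smul, Submodule.Quotient.eq, neg_smul, sub_neg_eq_add,
      ← tens_smul_left, ← tens_add_left, hc, add_sub_cancel, tens_smul_left]
    exact Submodule.smul_mem _ _ h6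
  replace hc : ∀ e ∈ eS h.sym u g, tens (u' - c • u) e ∈ gP u g := fun e he => by
    have := hc e he
    simp only [LinearMap.comp_apply, tensR_apply, Submodule.mkQ_apply] at this
    rwa [← Submodule.Quotient.mk_smul, Submodule.Quotient.eq, ← tens_smul_left,
      ← tens_sub_left] at this
  have h1 : u' - c • u ≠ 0 := fun h0 => by
    have := h.hu
    rw [sub_eq_zero.1 h0, h.alt₁.smul_left, h.alt₁.alt, mul_zero] at this
    exact zero_ne_one this
  obtain ⟨a, ha, hau⟩ := h.alt₁.exists_map h.ne h1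
  by_contra! h2
  have h4 := h.le_of_lt' h.mem (h.kr_mem' ha (one_mem _)) (by
    rw [← h.finrank_dS]
    refine h2.trans_le ?_
    rw [(Submodule.equivMapOfInjective _ (tensR_injective h1) (eS h.sym u g)).finrank_eq]
    refine Submodule.finrank_mono ?_
    rintro _ ⟨e, he, rfl⟩
    exact ⟨hc e he, _, tens_mem_Pu u e, by simp [kr_mulVec_tens, hau]⟩)
  exact h.inv.notMem ((Subgroup.mul_mem_cancel_right _ (kr_mem a 1)).1
    (h.stab (mul_mem (inv_mem h.mem) (h.kr_mem' ha (one_mem _))) h4))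

/-- The nilpotent part of the root elements attached to `g (u ⊗ V₂)`. -/
noncomputable def xp (f₁ : (α → F) → (α → F) → F) (u : α → F) (g : GL (α × β) F) :
    (α × β → F) →ₗ[F] (α × β → F) :=
  mulVecLin g.1 ∘ₗ tensR u ∘ₗ cl f₁ u ∘ₗ mulVecLin (g⁻¹).1

theorem xp_apply (x : α × β → F) :
    xp f₁ u g x = g.1 *ᵥ tens u (cl f₁ u ((g⁻¹).1 *ᵥ x)) := rfl

theorem xp_mem (x : α × β → F) : xp f₁ u g x ∈ gP u g := mulVec_mem_gP'.2 (tens_mem_Pu _ _)

theorem xp_of_mem (h : Good₂ f f₁ B M u u' g) {x : α × β → F} (hx : x ∈ gP u g) :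
    xp f₁ u g x = 0 := by
  rw [xp_apply, h.cl_of_mem (h.alt₁.alt u) (mem_gP.1 hx), tens_zero_right, mulVec_zero]

theorem xr'_mulVec (h : Good₂ f f₁ B M u u' g) (c : F) (x : α × β → F) :
    (g * h.xr u c * g⁻¹).1 *ᵥ x = x + c • xp f₁ u g x := h.conj_mulVec g c x

theorem cl_xp_ne (h : Good₂ f f₁ B M u u' g) {e : β → F} (he : e ∈ eS h.sym u g) (h0 : e ≠ 0) :
    cl f₁ u (xp f₁ u g (tens u e)) ≠ 0 := fun h1 =>
  h0 (h.eq_zero (h.n2' (tens_mem_Pu u e) (h.memP h1)) he)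

theorem xp_mem_Pu (h : Good₂ f f₁ B M u u' g) (v : α → F) {d : β → F} (hd : d ∈ dS u g) :
    xp f₁ u g (tens v d) ∈ Pu β u := by
  refine h.sym.le_of_nonsing (W := (Pu β u).comap (xp f₁ u g ∘ₗ tensR v)) h.nd_dS
    (fun s hs hs' => ?_) hd
  obtain ⟨r, hr, h1, h2⟩ := h.exists_rR hs'
  have h3 : ∀ y ∈ gP u g, (kr 1 r).1 *ᵥ y ∈ gP u g := fun y hy => by
    obtain ⟨d, hd, h3⟩ := h.exists_dec y
    have h4 : cr B s (y + tens u d) = 0 := h.cr_eq_zero
      (by rw [h.sym.symm]; exact h.cl_mem (add_mem hy hd) s hs) (by rw [h.sym.symm]; exact h3 s hs)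
    rw [map_add, add_eq_zero_iff_eq_neg, h.cr_tens] at h4
    rw [h2, h4, tens_neg_left, tens_smul_left]
    exact sub_mem hy (Submodule.smul_mem _ _ (neg_mem (Submodule.smul_mem _ _ hs)))
  obtain ⟨b, κ, -, h4, h5, -⟩ := h.exists_b (y := g⁻¹ * kr 1 r * g)
    (mul_mem (mul_mem (inv_mem h.mem) (h.kr_mem' (one_mem _) hr)) h.mem) fun p hp => by
      rw [GL_mul_mulVec, GL_mul_mulVec, ← mem_gP]
      exact h3 _ (mulVec_mem_gP'.2 hp)
  have h6 : ∀ x, (kr 1 r).1 *ᵥ xp f₁ u g x = κ • xp f₁ u g ((kr 1 r).1 *ᵥ x) := fun x => by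
    have e1 := congrArg (fun y => g.1 *ᵥ y) (h4 (cl f₁ u ((g⁻¹).1 *ᵥ x)))
    simp only [h5, GL_mul_mulVec, GL_mulVec_inv_mulVec, tens_smul_right, mulVec_smul] at e1
    exact e1
  have h7 : ∀ x, cl f₁ u (xp f₁ u g x) = κ • cl f₁ u (xp f₁ u g ((kr 1 r).1 *ᵥ x)) := fun x => by
    rw [← map_smul, ← h6, h.cl_kr_one, h1, h.sym.rf_of_perp]
    rw [h.sym.symm]
    exact h.cl_mem (xp_mem x) s hs
  obtain ⟨e, he, he0⟩ := h.exists_ne_eS
  have h8 := h7 (tens u e)
  rw [kr_mulVec_tens, Units.val_one, one_mulVec, h1,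
    h.sym.rf_of_perp (by rw [h.sym.symm]; exact he s hs)] at h8
  have h9 : κ = 1 := smul_left_injective F (h.cl_xp_ne he he0) (h8.symm.trans (one_smul _ _).symm)
  have h10 := h7 (tens v s)
  rw [kr_mulVec_tens, Units.val_one, one_mulVec, h1, h.sym.rf_self hs', h9, one_smul,
    tens_neg_right, map_neg, map_neg] at h10
  exact h.memP ((smul_eq_zero.1 (show (2 : F) • cl f₁ u (xp f₁ u g (tens v s)) = 0 by
    linear_combination (norm := module) h10)).resolve_left h.sym.two)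

theorem stab_of_fix (h : Good₂ f f₁ B M u u' g) {w₀ : β → F} (hw₀ : w₀ ∈ dS u g) (h0 : w₀ ≠ 0)
    (h1 : B w₀ w₀ = 0) {γ : GL (α × β) F} (hγ : γ ∈ M)
    (h2 : ∀ v, ∀ d ∈ dS u g, γ.1 *ᵥ tens v d = tens v d) : ∀ p ∈ Pu β u, γ.1 *ᵥ p ∈ Pu β u := by
  obtain ⟨w, hw, hw'⟩ := Sym.exists_ne h.nd_dS hw₀ h0
  set w₁ := (B w₀ w)⁻¹ • w
  have h3 : w₁ ∈ dS u g := Submodule.smul_mem _ _ hw
  have h4 : B w₁ w₀ = 1 := by rw [h.sym.smul_left, h.sym.symm w, inv_mul_cancel₀ hw']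
  have k1 : ∀ e ∈ eS h.sym u g, ∃ k ∈ M, k ∈ qrad f (Pt α w₀) ∧
      ∃ a : F, k.1 *ᵥ tens u w₁ - tens u w₁ = tens u e - a • tens u w₀ := fun e he => by
    have h5 : B e w₀ = 0 := by rw [h.sym.symm]; exact he _ hw₀
    obtain ⟨b, hb, h6⟩ := h.exists_eR h1 h5
    refine ⟨_, h.kr_mem' (one_mem _) hb, ⟨?_, fun ζ hζ => ?_⟩, B e e / 2, ?_⟩
    · rintro _ ⟨v, rfl⟩
      simp [h6, h.cr_tens, h1, he _ hw₀]
    · have : cr B w₀ ζ = 0 := h.alt₁.nondeg' _ fun v => by
        rw [← h.f_tens', hζ _ (tens_mem_Pt _ _)]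
      rw [h6, this, tens_zero_left, add_zero, sub_sub_cancel_left]
      exact neg_mem (tens_mem_Pt _ _)
    · rw [h6, h.cr_tens, h.cr_tens, h4, he _ h3, one_smul, zero_smul, zero_add, tens_smul_left]
      abel
  have k2 : ∀ e ∈ eS h.sym u g, ∀ z ∈ eS h.sym u g, f (tens u z) (γ.1 *ᵥ tens u e) = 0 :=
    fun e he z hz => by
      obtain ⟨k, hk, h5, a, h6⟩ := k1 e he
      obtain ⟨l, hl, h7, b, h8⟩ := k1 z hz
      have h9 := qrad_conj h5 (h.hMi hγ) (by
        rintro _ ⟨v, rfl⟩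
        rw [tensL_apply, h2 v _ hw₀]
        exact tens_mem_Pt _ _)
      have h10 : γ * k * γ⁻¹ ∈ M := mul_mem (mul_mem hγ hk) (inv_mem hγ)
      obtain ⟨h11, h12⟩ := h.alt.qrad_comm (h.hMi h10) (h.hMi hl) h9 h7
      have h13 : (γ * k * γ⁻¹).1 *ᵥ tens u w₁ - tens u w₁ = γ.1 *ᵥ tens u e - a • tens u w₀ := by
        conv_lhs => rw [← h2 u _ h3]
        rw [GL_mul_mulVec, GL_mul_mulVec, GL_inv_mulVec_mulVec, ← mulVec_sub, h6, mulVec_sub,
          mulVec_smul, h2 u _ hw₀]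
      set c := γ * k * γ⁻¹ * l * (γ * k * γ⁻¹)⁻¹ * l⁻¹
      have hc : c ∈ M := mul_mem (mul_mem (mul_mem h10 hl) (inv_mem h10)) (inv_mem hl)
      have hc' : c ∈ qrad f (Pt α w₀) :=
        mul_mem (mul_mem (mul_mem h9 h7) (inv_mem h9)) (inv_mem h7)
      have h14 := (h.lemR' (inv_mem hc) one_ne_zero fun p hp => by
        obtain ⟨v, hv⟩ := h11 p
        rw [inv_inv, GL_mul_mulVec, GL_mul_mulVec, h.xr_mulVec, mulVec_add, GL_inv_mulVec_mulVec,
          ← sub_add_cancel (c.1 *ᵥ p) p, ← hv, map_add, h.cl_of_mem (h.alt₁.alt u) hp, add_zero,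
          tensL_apply, h.cl_tens, one_smul, tens_smul_right, mulVec_smul,
          (inv_mem hc').1 _ (tens_mem_Pt _ _)]
        exact add_mem hp (Submodule.smul_mem _ _ (tens_mem_Pu _ _))).2 _ (tens_mem_Pu u w₁)
      have h15 := h12 (tens u w₁) (tens u w₁)
      have h16 : f (tens u w₁) (c.1 *ᵥ tens u w₁) = 0 := by
        rw [← h.hMi (inv_mem hc), GL_inv_mulVec_mulVec, h.f_tens, h14, h.sym.zero_left]
      have h17 : f (tens u w₀) (γ.1 *ᵥ tens u e) = 0 := by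
        rw [← h2 u _ hw₀, h.hMi hγ, h.tt, h.alt₁.alt, zero_mul]
      rw [h13, h8, h.alt.skew (γ.1 *ᵥ tens u e - a • tens u w₀)] at h15
      simp only [h.alt.sub_left, h.alt.sub_right, h.alt.smul_left, h.alt.smul_right', h.tt,
        h.alt₁.alt, h16, h17] at h15
      exact mul_left_cancel₀ h.sym.two (by linear_combination -h15)
  rintro _ ⟨w, rfl⟩
  obtain ⟨d, hd, e, he, rfl⟩ := h.exists_add w
  rw [tensR_apply, tens_add_right, mulVec_add, h2 u d hd]
  refine add_mem (tens_mem_Pu _ _) (h.memP (h.cl_of_perp ?_))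
  rintro _ ⟨w, rfl⟩
  obtain ⟨d, hd, z, hz, rfl⟩ := h.exists_add w
  rw [tensR_apply, tens_add_right, h.alt.add_left, k2 e he z hz, ← h2 u d hd, h.hMi hγ, h.tt,
    h.alt₁.alt, zero_mul, add_zero]

theorem false_of_sing (h : Good₂ f f₁ B M u u' g) (h3 : 3 ≤ finrank F (dS u g)) : False := by
  obtain ⟨w₀, hw₀, h0, h1⟩ := h.sym.tForm.sing _ h3
  set x' := g * h.xr u 1 * g⁻¹ with hx'
  have h2 : x' ∈ M := (h.xr'_mem_fixZ 1).1
  have h4 := h.stab_of_fix hw₀ h0 h1 (γ := (h.xr u 1)⁻¹ * (x'⁻¹ * h.xr u 1 * x'))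
    (mul_mem (inv_mem (h.xr_memM _ _)) (mul_mem (mul_mem (inv_mem h2) (h.xr_memM _ _)) h2))
    fun v d hd => by
      have e1 : (h.xr u 1).1 *ᵥ (x'.1 *ᵥ tens v d) = x'.1 *ᵥ ((h.xr u 1).1 *ᵥ tens v d) := by
        rw [hx', h.xr'_mulVec, h.xr'_mulVec, mulVec_add, one_smul,
          h.xr_of_mem 1 (h.xp_mem_Pu v hd), h.xr_mulVec, map_add, one_smul, h.cl_tens,
          tens_smul_right, h.xp_of_mem (x := _ • tens u d) (Submodule.smul_mem _ _ hd), add_zero,
          one_smul]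
      rw [GL_mul_mulVec, GL_mul_mulVec, GL_mul_mulVec, e1, GL_inv_mulVec_mulVec,
        GL_inv_mulVec_mulVec]
  have h5 := (h.lemR' (inv_mem h2) one_ne_zero fun p hp => by
    have := h4 p hp
    rwa [GL_mul_mulVec, ← mulVec_mem_iff (g := h.xr u 1) fun p hp => by rwa [h.xr_of_mem 1 hp],
      GL_mulVec_inv_mulVec, ← inv_inv x'] at this).2
  refine h.notMem (h.lemR' h.mem (c := -1) (by simp) fun p hp => h.memP ?_).1
  convert h5 p hp
  rw [hx', ← h.xr_neg]
  group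

end Good₂

end Cfsg.Lib.Symp
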