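import Cfsg.Agent.Lib.Symp.MaxPair
import Cfsg.Agent.Lib.Linear.Tens

/-!
# Reflections of a non-degenerate symmetric form in odd characteristic
-/

namespace Cfsg.Lib.Symp

open Matrix Module Cfsg.Geo Cfsg.Lib.Asch Cfsg.Lib.Linear
open scoped MatrixGroups

set_option linter.unusedSectionVars false

variable {ι : Type} [Fintype ι] [DecidableEq ι] {F : Type*} [Field F]

/-- A non-degenerate symmetric bilinear form in characteristic not two. -/
structure Sym (B : (ι → F) → (ι → F) → F) : Prop extends SForm (RingHom.id F) 1 B where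
  two : (2 : F) ≠ 0

/-- Non-degeneracy on a subspace. -/
def Nd (B : (ι → F) → (ι → F) → F) (U : Submodule F (ι → F)) : Prop :=
  ∀ x ∈ U, (∀ y ∈ U, B x y = 0) → x = 0

namespace Sym

variable {B : (ι → F) → (ι → F) → F} {U W : Submodule F (ι → F)}

theorem symm (h : Sym B) (x y : ι → F) : B x y = B y x := by simpa using h.herm x y

theorem smul_right' (h : Sym B) (c : F) (x y : ι → F) : B x (c • y) = c * B x y :=
  h.smul_right c x y

theorem tForm [Finite F] (h : Sym B) : TForm (RingHom.id F) 1 B :=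
  tForm_of_herm h.toSForm (t := 2⁻¹) (by
    have := h.two
    simp only [RingHom.id_apply]
    field_simp
    ring)

/-- The linear form `B(·, w)`. -/
def lf (h : Sym B) (w : ι → F) : (ι → F) →ₗ[F] F where
  toFun x := B x w
  map_add' x y := h.add_left x y w
  map_smul' c x := h.smul_left c x w

@[simp] theorem lf_apply (h : Sym B) (w x : ι → F) : h.lf w x = B x w := rfl

/-- The reflection in `w`. -/
def rf (h : Sym B) (w : ι → F) : (ι → F) →ₗ[F] (ι → F) :=
  LinearMap.id - (2 / B w w) • (h.lf w).smulRight w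

theorem rf_apply (h : Sym B) (w x : ι → F) : h.rf w x = x - (2 / B w w * B x w) • w := by
  simp [rf, smul_smul]

theorem rf_of_perp (h : Sym B) {w x : ι → F} (hx : B x w = 0) : h.rf w x = x := by
  simp [rf_apply, hx]

theorem rf_self (h : Sym B) {w : ι → F} (hw : B w w ≠ 0) : h.rf w w = -w := by
  rw [rf_apply, div_mul_cancel₀ _ hw]
  module

theorem rf_adj (h : Sym B) (w x y : ι → F) : B (h.rf w x) y = B x (h.rf w y) := by
  simp only [rf_apply, h.sub_left, h.sub_right, h.smul_left, h.smul_right', h.symm w y]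
  ring

theorem rf_rf (h : Sym B) {w : ι → F} (hw : B w w ≠ 0) (x : ι → F) : h.rf w (h.rf w x) = x := by
  rw [rf_apply h w x, map_sub, map_smul, h.rf_self hw, rf_apply]
  module

theorem exists_rf (h : Sym B) {w : ι → F} (hw : B w w ≠ 0) :
    ∃ g ∈ iso B, ∀ x, g.1 *ᵥ x = h.rf w x := by
  obtain ⟨g, hg⟩ := exists_GL_of_injective (h.rf w) (Function.LeftInverse.injective (h.rf_rf hw))
  exact ⟨g, fun x y => by rw [hg, hg, h.rf_adj, h.rf_rf hw], hg⟩

theorem proj_perp (h : Sym B) {s : ι → F} (hs : B s s ≠ 0) (x : ι → F) :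
    B (x - (B x s / B s s) • s) s = 0 := by
  rw [h.sub_left, h.smul_left, div_mul_cancel₀ _ hs, sub_self]

theorem exists_nonsing (h : Sym B) {w x : ι → F} (hw : w ∈ U) (hx : x ∈ U) (hwx : B w x ≠ 0) :
    ∃ s ∈ U, B s s ≠ 0 ∧ B w s ≠ 0 := by
  by_cases h1 : B w w = 0
  swap
  · exact ⟨w, hw, h1, h1⟩
  by_cases h2 : B x x = 0
  · refine ⟨x + w, add_mem hx hw, ?_, by rwa [h.add_right, h1, add_zero]⟩
    rw [h.add_left, h.add_right, h.add_right, h1, h2, h.symm x w, zero_add, add_zero, ← two_mul]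
    exact mul_ne_zero h.two hwx
  · exact ⟨x, hx, h2, hwx⟩

theorem exists_ne (hU : Nd B U) {w : ι → F} (hw : w ∈ U) (h0 : w ≠ 0) :
    ∃ x ∈ U, B w x ≠ 0 := by
  by_contra! hc
  exact h0 (hU w hw hc)

theorem nondeg_top (h : Sym B) : Nd B ⊤ := fun x _ hx =>
  h.nondeg' x fun y => hx y trivial

/-- The orthogonal complement of `s` inside `U`. -/
def pp (h : Sym B) (U : Submodule F (ι → F)) (s : ι → F) : Submodule F (ι → F) :=
  U ⊓ LinearMap.ker (h.lf s)

theorem mem_pp (h : Sym B) {s x : ι → F} : x ∈ h.pp U s ↔ x ∈ U ∧ B x s = 0 := Iff.rfl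

theorem finrank_le_pp (h : Sym B) (U : Submodule F (ι → F)) (s : ι → F) :
    finrank F U ≤ finrank F (h.pp U s) + 1 := by
  have : h.pp U s = U ⊓ dotKer (dv (RingHom.id F) B s) := by
    ext x
    rw [h.mem_pp, ← dv_dot h.toSForm]
    rfl
  rw [this]
  exact finrank_le_inf_dotKer _ _

theorem nondeg_pp (h : Sym B) (hU : Nd B U) {s : ι → F} (hsU : s ∈ U)
    (hs : B s s ≠ 0) : Nd B (h.pp U s) := fun x hx h0 => hU x hx.1 fun y hy => by
  have := h0 (y - (B y s / B s s) • s) ⟨sub_mem hy (U.smul_mem _ hsU), h.proj_perp hs y⟩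
  rwa [h.sub_right, h.smul_right', show B x s = 0 from hx.2, mul_zero, sub_zero] at this

theorem exists_nonsing' (h : Sym B) (hU : Nd B U) (hd : 1 ≤ finrank F U) :
    ∃ s ∈ U, B s s ≠ 0 := by
  obtain ⟨w, hw, h0⟩ := exists_mem_notMem_of_finrank_lt (W := U) (U := ⊥) (by simpa)
  obtain ⟨x, hx, h1⟩ := exists_ne hU hw h0
  obtain ⟨s, hs, h2, -⟩ := h.exists_nonsing hw hx h1
  exact ⟨s, hs, h2⟩

theorem add_smul_self (h : Sym B) {y s : ι → F} (hy : B y s = 0) (t : F) :
    B (y + t • s) (y + t • s) = B y y + t ^ 2 * B s s := by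
  simp only [h.add_left, h.add_right, h.smul_left, h.smul_right', hy, h.symm s y]
  ring

theorem le_of_nonsing (h : Sym B) (hU : Nd B U) (hW : ∀ s ∈ U, B s s ≠ 0 → s ∈ W) : U ≤ W := by
  intro x hx
  rcases eq_or_ne x 0 with rfl | h0
  · exact zero_mem _
  by_cases h1 : B x x = 0
  swap
  · exact hW x hx h1
  obtain ⟨y, hy, h2⟩ := exists_ne hU hx h0
  obtain ⟨s, hs, h3, h4⟩ := h.exists_nonsing hx hy h2
  by_cases h5 : B (x + s) (x + s) = 0
  · have h6 := hW (x - s) (sub_mem hx hs) fun h6 => by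
      simp only [h.add_left, h.add_right, h.sub_left, h.sub_right, h1] at h5 h6
      exact mul_ne_zero h.two h3 (by linear_combination h5 + h6)
    simpa using add_mem h6 (hW s hs h3)
  · simpa using sub_mem (hW _ (add_mem hx hs) h5) (hW s hs h3)

theorem le_of_perp_norm (h : Sym B) (hU : Nd B U) {s : ι → F} (hsU : s ∈ U)
    (hs : B s s ≠ 0) (hsW : s ∈ W) (hq : (∃ a : F, a ≠ 0 ∧ a ^ 2 ≠ 1) ∨ 3 ≤ finrank F U)
    (hW : ∀ y ∈ U, B y s = 0 → ∀ t : F, t ≠ 0 → B y y + t ^ 2 * B s s ≠ 0 → y ∈ W) : U ≤ W := by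
  intro x hx
  have h1 := h.proj_perp hs x
  have h2 : x - (B x s / B s s) • s ∈ U := sub_mem hx (U.smul_mem _ hsU)
  set y := x - (B x s / B s s) • s with hy
  suffices y ∈ W by simpa [hy] using add_mem this (W.smul_mem (B x s / B s s) hsW)
  by_cases h3 : B y y + 1 ^ 2 * B s s = 0
  swap
  · exact hW y h2 h1 1 one_ne_zero h3
  rcases hq with ⟨a, ha, ha'⟩ | hq
  · exact hW y h2 h1 a ha fun h4 =>
      mul_ne_zero (sub_ne_zero.2 ha') hs (by linear_combination h4 - h3)
  have h4 : B y y ≠ 0 := fun h4 => hs (by linear_combination h3 - h4)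
  obtain ⟨z, ⟨⟨hz1, hz2⟩, hz3⟩, hz⟩ := h.exists_nonsing'
    (h.nondeg_pp (h.nondeg_pp hU hsU hs) (s := y) ⟨h2, h1⟩ h4) (by
      have := h.finrank_le_pp U s
      have := h.finrank_le_pp (h.pp U s) y
      omega)
  replace hz2 : B z s = 0 := hz2
  replace hz3 : B y z = 0 := by rw [h.symm]; exact hz3
  have h5 : ∀ t : F, t ^ 2 = 1 → y + t • z ∈ W := fun t ht =>
    hW _ (add_mem h2 (U.smul_mem _ hz1)) (by rw [h.add_left, h.smul_left, h1, hz2]; simp) 1
      one_ne_zero (by
        rw [h.add_smul_self hz3, ht]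
        exact fun h6 => hz (by linear_combination h6 - h3))
  have h6 := W.smul_mem (2 : F)⁻¹ (add_mem (h5 1 (by simp)) (h5 (-1) (by simp)))
  convert h6 using 1
  have := h.two
  match_scalars <;> field_simp <;> ring

/-- Irreducibility of the reflection group. -/
theorem le_of_irr (h : Sym B) (hU : Nd B U) {w : ι → F} (hwU : w ∈ U)
    (hw : w ∈ W) (h0 : w ≠ 0) (hq : (∃ a : F, a ≠ 0 ∧ a ^ 2 ≠ 1) ∨ 3 ≤ finrank F U)
    (hW : ∀ s ∈ U, B s s ≠ 0 → ∀ w ∈ W, B w s ≠ 0 → s ∈ W) : U ≤ W := by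
  obtain ⟨x, hx, h1⟩ := exists_ne hU hwU h0
  obtain ⟨s, hs, h2, h3⟩ := h.exists_nonsing hwU hx h1
  have h4 := hW s hs h2 w hw h3
  refine h.le_of_perp_norm hU hs h2 h4 hq fun y hy h5 t ht h6 => ?_
  have h7 := hW (y + t • s) (add_mem hy (U.smul_mem _ hs)) (by rwa [h.add_smul_self h5]) s h4
    (by rw [h.add_right, h.symm s y, h5, zero_add, h.smul_right']; exact mul_ne_zero ht h2)
  simpa using sub_mem h7 (W.smul_mem t h4)

theorem scalar_of_eigen (h : Sym B) (hU : Nd B U)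
    (hq : (∃ a : F, a ≠ 0 ∧ a ^ 2 ≠ 1) ∨ 3 ≤ finrank F U) {X : Type*} [AddCommGroup X]
    [Module F X] {σ τ : (ι → F) →ₗ[F] X} (hτ : ∀ x ∈ U, τ x = 0 → x = 0)
    (hσ : ∀ s ∈ U, B s s ≠ 0 → ∃ c : F, σ s = c • τ s) : ∃ c : F, ∀ x ∈ U, σ x = c • τ x := by
  rcases Nat.eq_zero_or_pos (finrank F U) with h0 | h0
  · exact ⟨0, fun x hx => by simp [show x = 0 by simpa [Submodule.finrank_eq_zero.1 h0] using hx]⟩
  obtain ⟨s, hsU, hs⟩ := h.exists_nonsing' hU h0
  obtain ⟨c, hc⟩ := hσ s hsU hs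
  refine ⟨c, fun x hx => ?_⟩
  have := h.le_of_perp_norm (W := LinearMap.ker (σ - c • τ)) hU hsU hs (by simp [hc]) hq
    (fun y hy h1 t ht h2 => ?_) hx
  · simpa [sub_eq_zero] using this
  obtain ⟨a, ha⟩ := hσ (y + t • s) (add_mem hy (U.smul_mem _ hsU)) (by rwa [h.add_smul_self h1])
  obtain ⟨b, hb⟩ := hσ (y + (-t) • s) (add_mem hy (U.smul_mem _ hsU))
    (by rwa [h.add_smul_self h1, neg_sq])
  rw [map_add, map_smul, hc] at ha hb
  have h3 : (a - b) • y + ((a + b - 2 * c) * t) • s = 0 :=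
      hτ _ (add_mem (U.smul_mem _ hy) (U.smul_mem _ hsU)) <| by
    simp only [map_add, map_smul] at ha hb ⊢
    linear_combination (norm := module) hb - ha
  have h4 := congrArg (fun x => B x s) h3
  simp only [h.add_left, h.smul_left, h1, mul_zero, zero_add, h.zero_left, mul_eq_zero, ht, hs,
    or_false] at h4
  rw [h4, zero_mul, zero_smul, add_zero, smul_eq_zero] at h3
  rcases h3 with h3 | rfl
  · have h5 : a = c := mul_left_cancel₀ h.two (by linear_combination h4 + h3)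
    rw [h5, map_add, map_smul] at ha
    simp only [LinearMap.mem_ker, LinearMap.sub_apply, LinearMap.smul_apply]
    linear_combination (norm := module) ha
  · exact zero_mem _

/-- The symmetric product of two vectors. -/
def sp (h : Sym B) (w : ι → F) : (ι → F) →ₗ[F] (ι → F) →ₗ[F] (ι → F) where
  toFun w' := (h.lf w).smulRight w' + (h.lf w').smulRight w
  map_add' x y := LinearMap.ext fun z => by simp [h.add_right, add_smul]; abel
  map_smul' c x := LinearMap.ext fun z => by simp [h.smul_right', smul_smul, mul_comm]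

theorem sp_apply (h : Sym B) (w w' x : ι → F) : h.sp w w' x = B x w • w' + B x w' • w := rfl

theorem sp_comm (h : Sym B) (w w' : ι → F) : h.sp w w' = h.sp w' w :=
  LinearMap.ext fun x => by rw [sp_apply, sp_apply, add_comm]

/-- A space of self-adjoint maps closed under reflections and containing a non-scalar map
contains the squares of singular vectors. -/
theorem sp_mem (h : Sym B) (h3 : 3 ≤ Fintype.card ι)
    (hq : (∃ a : F, a ≠ 0 ∧ a ^ 2 ≠ 1) ∨ 4 ≤ Fintype.card ι)
    {A : Submodule F ((ι → F) →ₗ[F] (ι → F))} (h1 : ∀ σ ∈ A, ∀ x y, B (σ x) y = B x (σ y))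
    (h2 : ∀ σ ∈ A, ∀ s, B s s ≠ 0 → h.rf s ∘ₗ σ ∘ₗ h.rf s ∈ A) {σ : (ι → F) →ₗ[F] (ι → F)}
    (hσ : σ ∈ A) (hσ' : ¬ ∃ c : F, ∀ x, σ x = c • x) {y : ι → F} (hy : B y y = 0) :
    h.sp y y ∈ A := by
  have htop : finrank F (⊤ : Submodule F (ι → F)) = Fintype.card ι := by simp
  have k1 : ∀ σ ∈ A, ∀ s, B s s ≠ 0 → h.sp s (σ s - (B (σ s) s / B s s) • s) ∈ A :=
    fun σ hσ s hs => by
      convert A.smul_mem (B s s / 2) (sub_mem hσ (h2 σ hσ s hs)) using 1
      refine LinearMap.ext fun x => ?_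
      have := h.two
      simp only [sp_apply, LinearMap.smul_apply, LinearMap.sub_apply, LinearMap.comp_apply,
        rf_apply, map_sub, map_smul, h1 σ hσ x]
      match_scalars <;> field_simp <;> ring
  have k2 : ∀ s w, B s s ≠ 0 → B w s = 0 → w ≠ 0 → h.sp s w ∈ A →
      ∀ x, B x s = 0 → h.sp s x ∈ A := fun s w hs hw h0 hA x hx =>
    h.le_of_irr (W := A.comap (h.sp s)) (h.nondeg_pp h.nondeg_top trivial hs) ⟨trivial, hw⟩ hA h0
      (hq.imp_right fun hq => by have := h.finrank_le_pp ⊤ s; omega)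
      (fun t ht htt w hw hwt => by
        have h4 : B s t = 0 := by rw [h.symm]; exact ht.2
        change h.sp s t ∈ A
        convert A.smul_mem (B t t / (2 * B w t)) (sub_mem hw (h2 _ hw t htt)) using 1
        refine LinearMap.ext fun x => ?_
        have := h.two
        simp only [sp_apply, LinearMap.smul_apply, LinearMap.sub_apply, LinearMap.comp_apply,
          map_add, map_smul, h.rf_adj, h.rf_of_perp h4]
        simp only [rf_apply, h.sub_right, h.smul_right']
        match_scalars <;> field_simp <;> ring) ⟨trivial, hx⟩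
  obtain ⟨w, hw, hw'⟩ : ∃ w, B w w ≠ 0 ∧ ∀ c : F, σ w ≠ c • w := by
    by_contra! hc
    obtain ⟨c, hc⟩ := h.scalar_of_eigen (σ := σ) (τ := LinearMap.id) h.nondeg_top
      (Or.inr (by omega)) (fun _ _ h => h) fun s _ => hc s
    exact hσ' ⟨c, fun x => hc x trivial⟩
  have k3 := k2 w _ hw (h.proj_perp hw (σ w)) (sub_ne_zero.2 (hw' _)) (k1 σ hσ w hw)
  have k4 : ∀ s, B s s ≠ 0 → ∀ x, B x s = 0 → h.sp s x ∈ A := fun s hs => by
    by_cases h4 : B w s = 0
    · refine k2 s w hs h4 (fun h0 => hw (by rw [h0, h.zero_left])) ?_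
      rw [h.sp_comm]
      exact k3 s (by rw [h.symm, h4])
    obtain ⟨z, ⟨⟨-, hz1⟩, hz2⟩, hz⟩ := exists_mem_notMem_of_finrank_lt
      (W := h.pp (h.pp ⊤ w) s) (U := ⊥) (by
        have := h.finrank_le_pp ⊤ w
        have := h.finrank_le_pp (h.pp ⊤ w) s
        rw [finrank_bot]
        omega)
    replace hz2 : B z s = 0 := hz2
    have h5 := k1 _ (k3 z hz1) s hs
    rw [sp_apply, h.symm s z, hz2, zero_smul, add_zero, h.smul_left, hz2, mul_zero, zero_div,
      zero_smul, sub_zero, h.symm s w] at h5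
    exact k2 s _ hs (by rw [h.smul_left, hz2, mul_zero]) (smul_ne_zero h4 hz) h5
  obtain ⟨s, hs, hs'⟩ : ∃ s, B s s ≠ 0 ∧ B s y = 0 := by
    obtain ⟨x, ⟨-, hx⟩, hx'⟩ := exists_mem_notMem_of_finrank_lt (W := h.pp ⊤ y)
      (U := Submodule.span F {y}) (by
        have := h.finrank_le_pp ⊤ y
        have := finrank_span_singleton_le (F := F) y
        omega)
    obtain ⟨z, hz, hz'⟩ := exists_form_of_notMem h.toSForm hx' 1
    obtain ⟨s, hs, h4, -⟩ := h.exists_nonsing (U := h.pp ⊤ y) (w := x) (x := z) ⟨trivial, hx⟩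
      ⟨trivial, (h.symm z y).trans (hz y (by simp))⟩ (by simp [hz'])
    exact ⟨s, h4, hs.2⟩
  have h4 := k4 (s + (1 : F) • y) (by rwa [h.add_smul_self hs', hy, mul_zero, add_zero]) y
    (by rw [h.add_right, h.symm y s, hs', h.smul_right', hy]; simp)
  rw [one_smul, h.sp_comm, map_add] at h4
  have h5 := k4 s hs y (by rw [h.symm, hs'])
  rw [h.sp_comm] at h5
  simpa using sub_mem h4 h5

theorem scalar_of_comm (h : Sym B) (h3 : 3 ≤ Fintype.card ι)
    {S : AddSubgroup ((ι → F) →ₗ[F] (ι → F))} (h1 : LinearMap.id ∈ S)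
    (h2 : ∀ σ ∈ S, ∀ s, B s s ≠ 0 → h.rf s ∘ₗ σ ∘ₗ h.rf s ∈ S)
    (h4 : ∀ σ ∈ S, ∀ τ ∈ S, ∃ c : F, ∀ x y, B (σ x) (τ y) + B (τ x) (σ y) = c * B x y)
    {σ : (ι → F) →ₗ[F] (ι → F)} (hσ : σ ∈ S) : ∃ c : F, ∀ x, σ x = c • x := by
  have htop : finrank F (⊤ : Submodule F (ι → F)) = Fintype.card ι := by simp
  obtain ⟨c, hc⟩ := h.scalar_of_eigen (σ := σ) (τ := LinearMap.id) h.nondeg_top
    (Or.inr (by omega)) (fun _ _ h => h) fun s _ hs => by
      refine ⟨B (σ s) s / B s s, sub_eq_zero.1 ?_⟩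
      by_contra h0
      set w := σ s - (B (σ s) s / B s s) • LinearMap.id (R := F) s with hw
      have h5 : B w s = 0 := h.proj_perp hs _
      obtain ⟨c, hc⟩ := h4 σ hσ _ h1
      simp only [LinearMap.id_apply] at hc hw
      have h6 : ∀ x, (σ - h.rf s ∘ₗ σ ∘ₗ h.rf s) x = (2 / B s s) • (B x s • w - B x w • s) :=
        fun x => by
          have e1 := hc x s
          have e2 := hc s s
          rw [h.symm s (σ s)] at e2
          simp only [hw, LinearMap.sub_apply, LinearMap.comp_apply, rf_apply, map_sub, map_smul,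
            h.sub_right, h.smul_right']
          match_scalars
          · ring
          · field_simp
            linear_combination 2 * B s s * e1 - 2 * B x s * e2
          · ring
      obtain ⟨d, hd⟩ := h4 _ (sub_mem hσ (h2 σ hσ s hs)) _ (sub_mem hσ (h2 σ hσ s hs))
      obtain ⟨z, ⟨⟨-, hz1⟩, hz2⟩, hz⟩ := exists_mem_notMem_of_finrank_lt
        (W := h.pp (h.pp ⊤ w) s) (U := ⊥) (by
          have := h.finrank_le_pp ⊤ w
          have := h.finrank_le_pp (h.pp ⊤ w) s
          rw [finrank_bot]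
          omega)
      obtain ⟨y, -, hy⟩ := exists_ne h.nondeg_top (w := z) trivial hz
      have h7 := hd z y
      rw [h6 z, show B z s = 0 from hz2, show B z w = 0 from hz1] at h7
      simp only [zero_smul, sub_self, smul_zero, h.zero_left, add_zero] at h7
      replace h7 := (mul_eq_zero.1 h7.symm).resolve_right hy
      obtain ⟨x, hx, hxw⟩ := exists_ne (h.nondeg_pp h.nondeg_top trivial hs) ⟨trivial, h5⟩ h0
      have h8 := hd x x
      rw [h6 x, show B x s = 0 from hx.2, h7, h.symm x w] at h8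
      simp only [zero_smul, zero_sub, h.smul_left, h.smul_right', h.neg_left, h.neg_right] at h8
      have := h.two
      field_simp at h8
      simp [hxw, this, one_add_one_eq_two] at h8
  exact ⟨c, fun x => hc x trivial⟩

end Sym

end Cfsg.Lib.Symp
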